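import Mathlib

/-!
Normal coverings by two proper subgroups: generalities.
-/

set_option autoImplicit false
set_option linter.style.haveILetI false

namespace CfsgLib.NormalCover

/-- The group is the union of the conjugates of two proper subgroups. -/
def HasCover (G : Type*) [Group G] : Prop :=
  ∃ H K : Subgroup G, H ≠ ⊤ ∧ K ≠ ⊤ ∧ ∀ g : G, ∃ x : G, x * g * x⁻¹ ∈ H ∨ x * g * x⁻¹ ∈ K

/-- A covering by subgroups containing a normal subgroup passes to the quotient. -/
theorem hasCover_quotient {G : Type*} [Group G] (N : Subgroup G) [N.Normal] {H K : Subgroup G}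
    (hH : H ≠ ⊤) (hK : K ≠ ⊤) (hNH : N ≤ H) (hNK : N ≤ K)
    (hcov : ∀ g : G, ∃ x : G, x * g * x⁻¹ ∈ H ∨ x * g * x⁻¹ ∈ K) : HasCover (G ⧸ N) := by
  have key : ∀ L : Subgroup G, N ≤ L → L ≠ ⊤ → L.map (QuotientGroup.mk' N) ≠ ⊤ := by
    intro L hNL hL h
    refine hL ?_
    have h1 := congrArg (Subgroup.comap (QuotientGroup.mk' N)) h
    rwa [Subgroup.comap_map_eq, QuotientGroup.ker_mk', sup_of_le_left hNL, Subgroup.comap_top] at h1
  refine ⟨_, _, key H hNH hH, key K hNK hK, fun g => ?_⟩
  obtain ⟨g, rfl⟩ := QuotientGroup.mk_surjective g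
  obtain ⟨x, hx⟩ := hcov g
  exact ⟨QuotientGroup.mk' N x, hx.imp (fun h => ⟨_, h, by simp⟩) (fun h => ⟨_, h, by simp⟩)⟩

variable {G F V : Type*} [Group G] [Field F] [AddCommGroup V] [Module F V] (ρ : G →* Module.End F V)

/-- The stabiliser of a subspace. -/
def subStab (W : Submodule F V) : Subgroup G where
  carrier := {g | W.map (ρ g) = W}
  one_mem' := by
    show W.map (ρ 1) = W
    rw [map_one, Module.End.one_eq_id, Submodule.map_id]
  mul_mem' {a b} (ha : _ = W) (hb : _ = W) := by
    show W.map (ρ (a * b)) = W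
    rw [map_mul, Module.End.mul_eq_comp, Submodule.map_comp, hb, ha]
  inv_mem' {a} (ha : _ = W) := by
    show W.map (ρ a⁻¹) = W
    conv_lhs => rw [← ha]
    rw [← Submodule.map_comp, ← Module.End.mul_eq_comp, ← map_mul, inv_mul_cancel, map_one,
      Module.End.one_eq_id, Submodule.map_id]

/-- An element mapping a finite-dimensional subspace into itself stabilises it. -/
theorem mem_subStab_of_le [FiniteDimensional F V] {W : Submodule F V} {g : G} (h : ∀ w ∈ W, ρ g w ∈ W) :
    g ∈ subStab ρ W := by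
  refine Submodule.eq_of_le_of_finrank_eq (Submodule.map_le_iff_le_comap.mpr h) ?_
  have hinj : Function.Injective (ρ g) := Function.LeftInverse.injective (g := ρ g⁻¹) fun x => by
    rw [← Module.End.mul_apply, ← map_mul, inv_mul_cancel, map_one, Module.End.one_apply]
  exact (Submodule.equivMapOfInjective _ hinj W).finrank_eq.symm

theorem apply_mem_of_mem_subStab {W : Submodule F V} {g : G} (h : g ∈ subStab ρ W) {w : V} (hw : w ∈ W) :
    ρ g w ∈ W := (show W.map (ρ g) = W from h) ▸ Submodule.mem_map_of_mem hw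

/-- Moving a stabilised subspace onto the standard one. -/
theorem conj_mem_subStab [FiniteDimensional F V] {W W' : Submodule F V} {g x : G}
    (hg : ∀ w ∈ W', ρ g w ∈ W') (hx : W'.map (ρ x) = W) : x * g * x⁻¹ ∈ subStab ρ W := by
  refine mem_subStab_of_le ρ fun w hw => ?_
  rw [← hx] at hw ⊢
  obtain ⟨v, hv, rfl⟩ := hw
  refine ⟨ρ g v, hg v hv, ?_⟩
  simp only [← Module.End.mul_apply, ← map_mul, inv_mul_cancel_right]

/-- The elements commuting with a set of operators. -/
def opCentralizer (S : Set (Module.End F V)) : Subgroup G where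
  carrier := {g | ∀ a ∈ S, Commute (ρ g) a}
  one_mem' := fun a _ => by rw [map_one]; exact Commute.one_left a
  mul_mem' {g h} hg hh := fun a ha => by rw [map_mul]; exact (hg a ha).mul_left (hh a ha)
  inv_mem' {g} hg := fun a ha => by
    have h1 : ρ g⁻¹ * ρ g = 1 := by rw [← map_mul, inv_mul_cancel, map_one]
    have h2 : ρ g * ρ g⁻¹ = 1 := by rw [← map_mul, mul_inv_cancel, map_one]
    show ρ g⁻¹ * a = a * ρ g⁻¹
    calc ρ g⁻¹ * a = ρ g⁻¹ * (a * ρ g) * ρ g⁻¹ := by rw [mul_assoc, mul_assoc, h2, mul_one]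
      _ = ρ g⁻¹ * (ρ g * a) * ρ g⁻¹ := by rw [(hg a ha).eq]
      _ = a * ρ g⁻¹ := by rw [← mul_assoc, h1, one_mul]

end CfsgLib.NormalCover
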