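import Cfsg.Agent.Lib.NormalCover.Basic

/-!
An operator whose irreducible factors all have degree divisible by `d` commutes with an extension
field of degree `d`; two such field actions differ by an automorphism of determinant one.
-/

set_option autoImplicit false
set_option linter.style.haveILetI false

namespace CfsgLib.NormalCover

open Polynomial

variable {F K V : Type*} [Field F] [Finite F] [Field K] [Finite K] [Algebra F K]
  [AddCommGroup V] [Module F V] [FiniteDimensional F V]

/-- A finite commutative algebra whose residue degrees are divisible by the degree of `K` receives `K`. -/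
theorem exists_algHom_of_residue {R : Type*} [CommRing R] [Algebra F R] [Finite R]
    (h : ∀ m : Ideal R, m.IsMaximal → Module.finrank F K ∣ Module.finrank F (R ⧸ m)) :
    Nonempty (K →ₐ[F] R) := by
  classical
  haveI : Module.Finite F K := Module.Finite.of_finite
  obtain ⟨pb⟩ : Nonempty (PowerBasis F K) := ⟨Field.powerBasisOfFiniteOfSeparable F K⟩
  set P := minpoly F pb.gen with hP
  have hroot : ∀ m : MaximalSpectrum R, ∃ x : R, aeval x P ∈ m.asIdeal := by
    intro m
    haveI := m.isMaximal
    letI := Ideal.Quotient.field m.asIdeal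
    haveI : Finite (R ⧸ m.asIdeal) := Finite.of_surjective _ Ideal.Quotient.mk_surjective
    obtain ⟨φ⟩ := FiniteField.nonempty_algHom_of_finrank_dvd (F := F) (K := K) (L := R ⧸ m.asIdeal)
      (h _ m.isMaximal)
    obtain ⟨x, hx⟩ := Ideal.Quotient.mk_surjective (φ pb.gen)
    refine ⟨x, Ideal.Quotient.eq_zero_iff_mem.mp ?_⟩
    rw [← Ideal.Quotient.mkₐ_eq_mk F, ← aeval_algHom_apply, Ideal.Quotient.mkₐ_eq_mk, hx,
      aeval_algHom_apply, hP, minpoly.aeval, map_zero]
  choose x hx using hroot
  haveI : IsArtinianRing R := inferInstance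
  obtain ⟨y, hy⟩ := Ideal.Quotient.mk_surjective
    ((IsArtinianRing.quotNilradicalEquivPi R).symm fun m => Ideal.Quotient.mk m.asIdeal (x m))
  have hnil : IsNilpotent (aeval y P) := by
    refine (mem_nilradical).mp (Ideal.Quotient.eq_zero_iff_mem.mp ?_)
    apply (IsArtinianRing.quotNilradicalEquivPi R).injective
    rw [map_zero]
    funext m
    have hym : Ideal.Quotient.mk m.asIdeal y = Ideal.Quotient.mk m.asIdeal (x m) := by
      have := congrFun (congrArg (IsArtinianRing.quotNilradicalEquivPi R) hy) m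
      rw [AlgEquiv.apply_symm_apply] at this
      exact this
    show Ideal.Quotient.mk m.asIdeal (aeval y P) = 0
    rw [← Ideal.Quotient.mkₐ_eq_mk F, ← aeval_algHom_apply, Ideal.Quotient.mkₐ_eq_mk, hym,
      ← Ideal.Quotient.mkₐ_eq_mk F, aeval_algHom_apply, Ideal.Quotient.mkₐ_eq_mk]
    exact Ideal.Quotient.eq_zero_iff_mem.mpr (hx m)
  have hsep : IsUnit (aeval y (derivative P)) := by
    obtain ⟨a, b, hab⟩ : P.Separable := Algebra.IsSeparable.isSeparable F pb.gen
    have h1 := congrArg (aeval y) hab
    simp only [map_add, map_mul, map_one] at h1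
    have h2 : IsUnit (aeval y b * aeval y (derivative P)) := by
      rw [eq_sub_of_add_eq' h1]
      exact ((Commute.all _ _).isNilpotent_mul_left hnil).isUnit_one_sub
    exact isUnit_of_mul_isUnit_right h2
  obtain ⟨r, ⟨-, hr⟩, -⟩ := existsUnique_nilpotent_sub_and_aeval_eq_zero hnil hsep
  exact ⟨pb.lift r hr⟩

/-- An operator commutes with `K` when its irreducible factors have degree divisible by that of `K`. -/
theorem exists_field_action (g : Module.End F V)
    (h : ∀ P : F[X], Irreducible P → P ∣ g.charpoly → Module.finrank F K ∣ P.natDegree) :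
    ∃ φ : K →ₐ[F] Module.End F V, ∀ a, Commute g (φ a) := by
  classical
  haveI : Finite V := Module.finite_of_finite F
  haveI : Finite (Module.End F V) := Module.finite_of_finite F
  let R := Algebra.adjoin F {g}
  letI : CommRing R :=
    { (inferInstance : Ring R) with
      mul_comm := fun a b => by
        obtain ⟨p, hp⟩ := (Algebra.adjoin_singleton_eq_range_aeval F g).le a.2
        obtain ⟨r, hr⟩ := (Algebra.adjoin_singleton_eq_range_aeval F g).le b.2
        refine Subtype.ext ?_
        show (a : Module.End F V) * b = b * a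
        rw [← hp, ← hr, ← map_mul, ← map_mul, mul_comm] }
  let g' : R := ⟨g, Algebra.self_mem_adjoin_singleton F g⟩
  have hgen : ∀ a : R, ∃ p : F[X], aeval g' p = a := fun a => by
    obtain ⟨p, hp⟩ := (Algebra.adjoin_singleton_eq_range_aeval F g).le a.2
    refine ⟨p, Subtype.ext ?_⟩
    rw [← hp]
    exact (aeval_algHom_apply R.val g' p).symm
  obtain ⟨φ⟩ := exists_algHom_of_residue (K := K) (R := R) fun m hm => by
    haveI := hm
    letI := Ideal.Quotient.field m
    set gb : R ⧸ m := Ideal.Quotient.mkₐ F m g'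
    set P := minpoly F gb
    have hint : IsIntegral F gb := IsIntegral.of_finite F gb
    have hirr : Irreducible P := minpoly.irreducible hint
    have hdvd : P ∣ g.charpoly := by
      refine minpoly.dvd F gb ?_
      rw [show gb = Ideal.Quotient.mkₐ F m g' from rfl, aeval_algHom_apply,
        show aeval g' g.charpoly = 0 from Subtype.ext (by
          rw [← Subalgebra.coe_val, ← aeval_algHom_apply]
          exact g.aeval_self_charpoly), map_zero]
    refine (h P hirr hdvd).trans (dvd_of_eq ?_)
    rw [show P.natDegree = (AdjoinRoot.powerBasis hirr.ne_zero).dim from rfl, ← PowerBasis.finrank]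
    haveI := Fact.mk hirr
    let j : AdjoinRoot P →ₐ[F] R ⧸ m := AdjoinRoot.liftAlgHom P (Algebra.ofId F _) gb (minpoly.aeval F gb)
    have hj : j (AdjoinRoot.root P) = gb := AdjoinRoot.liftAlgHom_root ..
    refine LinearEquiv.finrank_eq (AlgEquiv.ofBijective j ⟨RingHom.injective _, fun y => ?_⟩).toLinearEquiv
    obtain ⟨a, rfl⟩ := Ideal.Quotient.mk_surjective y
    obtain ⟨p, rfl⟩ := hgen a
    refine ⟨AdjoinRoot.mk P p, ?_⟩
    rw [← AdjoinRoot.aeval_eq, ← aeval_algHom_apply, hj,
      ← Ideal.Quotient.mkₐ_eq_mk F, ← aeval_algHom_apply]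
  refine ⟨R.val.comp φ, fun a => ?_⟩
  obtain ⟨p, hp⟩ := hgen (φ a)
  show g * (φ a : Module.End F V) = (φ a : Module.End F V) * g
  rw [← hp, ← Subalgebra.coe_val, ← aeval_algHom_apply]
  show g * aeval g p = aeval g p * g
  conv_lhs => enter [1]; rw [← aeval_X (R := F) g]
  conv_rhs => enter [2]; rw [← aeval_X (R := F) g]
  rw [← map_mul, ← map_mul, mul_comm]

omit [Finite F] [Finite K] in
/-- A field action makes the space a power of the field. -/
theorem exists_model [FiniteDimensional F K] (φ : K →ₐ[F] Module.End F V) :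
    ∃ (s : ℕ) (e : V ≃ₗ[F] (Fin s → K)), Module.finrank F V = Module.finrank F K * s ∧
      ∀ a x, e (φ a x) = a • e x := by
  letI : Module K V := Module.compHom V φ.toRingHom
  haveI : IsScalarTower F K V := ⟨fun t a x => by
    show φ (t • a) x = t • φ a x
    rw [map_smul, LinearMap.smul_apply]⟩
  haveI : Module.Finite K V := Module.Finite.of_restrictScalars_finite F K V
  refine ⟨Module.finrank K V, (Module.finBasis K V).equivFun.restrictScalars F,
    (Module.finrank_mul_finrank F K V).symm, fun a x => (Module.finBasis K V).equivFun.map_smul a x⟩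

/-- Two actions of `K` are conjugate under an automorphism of determinant one. -/
theorem exists_conj_field_action (φ ψ : K →ₐ[F] Module.End F V) (hV : Module.finrank F V ≠ 0) :
    ∃ h : V ≃ₗ[F] V, LinearMap.det (h : V →ₗ[F] V) = 1 ∧ ∀ a x, h (φ a x) = ψ a (h x) := by
  classical
  haveI : Module.Finite F K := Module.Finite.of_finite
  obtain ⟨s, e, hs, he⟩ := exists_model φ
  obtain ⟨s', e', hs', he'⟩ := exists_model ψ
  obtain rfl : s = s' := Nat.eq_of_mul_eq_mul_left Module.finrank_pos (hs.symm.trans hs')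
  obtain ⟨s, rfl⟩ : ∃ r, s = r + 1 := ⟨s - 1, by
    rcases Nat.eq_zero_or_pos s with rfl | h
    · exact absurd hs (by simpa using hV)
    · omega⟩
  set h0 : V ≃ₗ[F] V := e.trans e'.symm
  set δ := LinearMap.det (h0 : V →ₗ[F] V)
  have hδ : δ ≠ 0 := (LinearEquiv.isUnit_det' h0).ne_zero
  obtain ⟨a, ha⟩ := FiniteField.norm_surjective F K δ⁻¹
  have ha0 : a ≠ 0 := fun h => hδ (inv_eq_zero.mp (by rw [← ha, h, Algebra.norm_zero]))
  let S : (Fin (s + 1) → K) ≃ₗ[F] (K × (Fin s → K)) :=
    (Fin.consLinearEquiv F (fun _ : Fin (s + 1) => K)).symm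
  let m : K ≃ₗ[F] K := LinearEquiv.ofLinearMap (LinearMap.mulLeft F a) (LinearMap.mulLeft F a⁻¹)
    (LinearMap.ext fun x => by simp [ha0]) (LinearMap.ext fun x => by simp [ha0])
  let c : (Fin (s + 1) → K) ≃ₗ[F] (Fin (s + 1) → K) :=
    S.trans ((m.prodCongr (LinearEquiv.refl F _)).trans S.symm)
  let cV : V ≃ₗ[F] V := e.trans (c.trans e.symm)
  have hdet : LinearMap.det (cV : V →ₗ[F] V) = δ⁻¹ := by
    have h1 : LinearMap.det (cV : V →ₗ[F] V) =
        LinearMap.det (c : (Fin (s + 1) → K) →ₗ[F] (Fin (s + 1) → K)) := by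
      rw [← LinearMap.det_conj (cV : V →ₗ[F] V) e]
      congr 1
      ext x
      simp [cV]
    have h2 : LinearMap.det (c : (Fin (s + 1) → K) →ₗ[F] (Fin (s + 1) → K)) =
        LinearMap.det ((m : K →ₗ[F] K).prodMap LinearMap.id : K × (Fin s → K) →ₗ[F] _) := by
      rw [← LinearMap.det_conj (c : (Fin (s + 1) → K) →ₗ[F] (Fin (s + 1) → K)) S]
      congr 1
    rw [h1, h2, LinearMap.det_prodMap, LinearMap.det_id, mul_one, ← ha, Algebra.norm_apply]
    rfl

  refine ⟨cV.trans h0, ?_, fun b x => ?_⟩
  · rw [LinearEquiv.coe_trans, LinearMap.det_comp, hdet, mul_inv_cancel₀ hδ]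
  · have hc : ∀ y : Fin (s + 1) → K, c (b • y) = b • c y := fun y => by
      funext i
      refine Fin.cases ?_ (fun j => ?_) i <;> simp [c, S, m, Fin.tail, mul_left_comm]
    show e'.symm (e (e.symm (c (e (φ b x))))) = ψ b (e'.symm (e (e.symm (c (e x)))))
    rw [e.apply_symm_apply, e.apply_symm_apply, he, hc, LinearEquiv.symm_apply_eq, he',
      LinearEquiv.apply_symm_apply]

end CfsgLib.NormalCover
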