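import Cfsg.Agent.Lib.NormalCover.Basic
import Cfsg.Agent.Lib.BrauerPairs.G2Quaternion

/-!
`G₂(2^a)`, `a ≥ 2`, is the union of the conjugates of the stabilisers of two quadratic subalgebras, one split and
one a field.
-/

set_option autoImplicit false
set_option linter.style.haveILetI false

namespace CfsgLib.NormalCover.G2

open Matrix Cfsg.Lie

variable {F : Type} [Field F]

/-- A vector matrix by its four entries. -/
def mk (α : F) (a b : Fin 3 → F) (β : F) : Fin 8 → F := ![α, a 0, a 1, a 2, b 0, b 1, b 2, β]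

theorem zA_mk (α : F) (a b : Fin 3 → F) (β : F) : zA F (mk α a b β) = a := by
  funext i; fin_cases i <;> rfl

theorem zB_mk (α : F) (a b : Fin 3 → F) (β : F) : zB F (mk α a b β) = b := by
  funext i; fin_cases i <;> rfl

theorem mk_eta (x : Fin 8 → F) : mk (x 0) (zA F x) (zB F x) (x 7) = x := by
  funext i; fin_cases i <;> rfl

/-- The trace. -/
def tr : (Fin 8 → F) →ₗ[F] F :=
  LinearMap.proj (R := F) (φ := fun _ : Fin 8 => F) 0 + LinearMap.proj (R := F) (φ := fun _ : Fin 8 => F) 7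

/-- The norm. -/
def nm (x : Fin 8 → F) : F := x 0 * x 7 - dot3 (zA F x) (zB F x)

/-- The identity of the algebra. -/
def one : Fin 8 → F := mk 1 0 0 1

theorem one_mul (x : Fin 8 → F) : zornMul one x = x := by
  funext i; fin_cases i <;> simp [zornMul, one, mk, zA, zB, dot3, cross3]

theorem mul_one (x : Fin 8 → F) : zornMul x one = x := by
  funext i; fin_cases i <;> simp [zornMul, one, mk, zA, zB, dot3, cross3]

theorem quad (x : Fin 8 → F) : zornMul x x - tr x • x + nm x • one = 0 := by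
  funext i; simp only [Pi.add_apply, Pi.sub_apply, Pi.smul_apply, Pi.zero_apply, smul_eq_mul]; fin_cases i <;> simp [zornMul, one, mk, zA, zB, dot3, cross3, tr, nm] <;> ring

/-- The natural action. -/
noncomputable def ρ : Cfsg.Lie.G2 F →* Module.End F (Fin 8 → F) :=
  Matrix.toLinAlgEquiv'.toMonoidHom.comp ((Units.coeHom _).comp (Cfsg.Lie.G2 F).subtype)

theorem ρ_apply (g : Cfsg.Lie.G2 F) (x : Fin 8 → F) :
    ρ g x = ((g : GL (Fin 8) F) : Matrix (Fin 8) (Fin 8) F) *ᵥ x := rfl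

theorem ρ_mul (g : Cfsg.Lie.G2 F) (x y : Fin 8 → F) : ρ g (zornMul x y) = zornMul (ρ g x) (ρ g y) :=
  g.2 x y

theorem ρ_inv (g : Cfsg.Lie.G2 F) (x : Fin 8 → F) : ρ g⁻¹ (ρ g x) = x := by
  rw [← Module.End.mul_apply, ← map_mul, inv_mul_cancel, map_one, Module.End.one_apply]

theorem ρ_one (g : Cfsg.Lie.G2 F) : ρ g one = one := by
  have h : ρ g one = zornMul (ρ g one) one := (mul_one _).symm
  rw [h]
  conv_lhs => arg 2; rw [← ρ_inv g⁻¹ one, inv_inv]
  rw [← ρ_mul, one_mul, ← Module.End.mul_apply, ← map_mul, mul_inv_cancel, map_one, Module.End.one_apply]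

theorem invariants (g : Cfsg.Lie.G2 F) (x : Fin 8 → F) : tr (ρ g x) = tr x ∧ nm (ρ g x) = nm x := by
  by_cases hx : ∃ c : F, x = c • one
  · obtain ⟨c, rfl⟩ := hx
    rw [map_smul, ρ_one]
    exact ⟨rfl, rfl⟩
  have h1 := congrArg (ρ g) (quad x)
  rw [map_add, map_sub, map_smul, map_smul, ρ_mul, ρ_one, map_zero] at h1
  have h2 : (tr (ρ g x) - tr x) • ρ g x = (nm (ρ g x) - nm x) • one := by
    linear_combination (norm := module) h1 - quad (ρ g x)
  have h3 : tr (ρ g x) = tr x := by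
    by_contra hne
    have hne' : tr (ρ g x) - tr x ≠ 0 := sub_ne_zero.mpr hne
    refine hx ⟨(tr (ρ g x) - tr x)⁻¹ * (nm (ρ g x) - nm x), ?_⟩
    have h4 := congrArg (fun v => (tr (ρ g x) - tr x)⁻¹ • v) h2
    simp only [inv_smul_smul₀ hne', smul_smul] at h4
    have h5 := congrArg (ρ g⁻¹) h4
    rw [ρ_inv, map_smul, ρ_one] at h5
    exact h5
  refine ⟨h3, sub_eq_zero.mp ?_⟩
  rw [h3, sub_self, zero_smul] at h2
  simpa [one, mk] using (congrFun h2 0).symm

/-- An injective linear map preserving the product gives an element of the group. -/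
theorem exists_g2 (f : (Fin 8 → F) →ₗ[F] Fin 8 → F) (hi : Function.Injective f)
    (hf : ∀ x y, f (zornMul x y) = zornMul (f x) (f y)) : ∃ g : Cfsg.Lie.G2 F, ∀ x, ρ g x = f x := by
  have hu : IsUnit (LinearMap.toMatrix' f) := by
    rw [← Matrix.mulVec_injective_iff_isUnit]
    intro x y h
    exact hi (by simpa [LinearMap.toMatrix'_mulVec] using h)
  obtain ⟨u, hu⟩ := hu
  refine ⟨⟨u, fun x y => ?_⟩, fun x => ?_⟩
  · simp [hu, LinearMap.toMatrix'_mulVec, hf]
  · rw [ρ_apply]
    simp [hu, LinearMap.toMatrix'_mulVec]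

theorem dot3_mulVec (M : Matrix (Fin 3) (Fin 3) F) (a d : Fin 3 → F) :
    dot3 (M *ᵥ a) (M.adjugateᵀ *ᵥ d) = M.det * dot3 a d := by
  simp [dot3, Matrix.mulVec, dotProduct, Fin.sum_univ_three, Matrix.det_fin_three, Matrix.adjugate_fin_three]
  ring

theorem cross3_mulVec (M : Matrix (Fin 3) (Fin 3) F) (a c : Fin 3 → F) :
    cross3 (M *ᵥ a) (M *ᵥ c) = M.adjugateᵀ *ᵥ cross3 a c := by
  funext i
  fin_cases i <;> simp [cross3, Matrix.mulVec, dotProduct, Fin.sum_univ_three, Matrix.adjugate_fin_three] <;> ring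

theorem cross3_adjugate (M : Matrix (Fin 3) (Fin 3) F) (b d : Fin 3 → F) :
    cross3 (M.adjugateᵀ *ᵥ b) (M.adjugateᵀ *ᵥ d) = M.det • (M *ᵥ cross3 b d) := by
  funext i
  fin_cases i <;>
    simp [cross3, Matrix.mulVec, dotProduct, Fin.sum_univ_three, Matrix.det_fin_three, Matrix.adjugate_fin_three] <;>
    ring

/-- The action of `SL₃`. -/
theorem exists_sl (M : Matrix (Fin 3) (Fin 3) F) (hM : M.det = 1) (x : Fin 8 → F) :
    ∃ g : Cfsg.Lie.G2 F, ρ g x = mk (x 0) (M *ᵥ zA F x) (M.adjugateᵀ *ᵥ zB F x) (x 7) := by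
  let f : (Fin 8 → F) →ₗ[F] Fin 8 → F :=
    { toFun := fun x => mk (x 0) (M *ᵥ zA F x) (M.adjugateᵀ *ᵥ zB F x) (x 7)
      map_add' := fun x y => by
        funext i
        fin_cases i <;> simp [mk, zA, zB, Matrix.mulVec, dotProduct, Fin.sum_univ_three] <;> ring
      map_smul' := fun c x => by
        funext i
        fin_cases i <;> simp [mk, zA, zB, Matrix.mulVec, dotProduct, Fin.sum_univ_three] <;> ring }
  obtain ⟨g, hg⟩ := exists_g2 f (fun x y h => by
    have hA := congrArg (zA F) h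
    have hB := congrArg (zB F) h
    simp only [f, LinearMap.coe_mk, AddHom.coe_mk, zA_mk, zB_mk] at hA hB
    have hA' := congrArg (M.adjugate *ᵥ ·) hA
    simp only [Matrix.mulVec_mulVec, Matrix.adjugate_mul, hM, one_smul, Matrix.one_mulVec] at hA'
    have hB' := congrArg (Mᵀ *ᵥ ·) hB
    simp only [Matrix.mulVec_mulVec, ← Matrix.transpose_mul, Matrix.adjugate_mul, hM, one_smul,
      Matrix.transpose_one, Matrix.one_mulVec] at hB'
    rw [← mk_eta x, ← mk_eta y, hA', hB', show x 0 = y 0 from congrFun h 0, show x 7 = y 7 from congrFun h 7])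
    fun x y => by
      have hz : ∀ u v : Fin 8 → F, zornMul u v = mk (u 0 * v 0 + dot3 (zA F u) (zB F v))
          (u 0 • zA F v + v 7 • zA F u - cross3 (zB F u) (zB F v))
          (v 0 • zB F u + u 7 • zB F v + cross3 (zA F u) (zA F v))
          (dot3 (zB F u) (zA F v) + u 7 * v 7) := fun _ _ => rfl
      show mk ((zornMul x y) 0) (M *ᵥ zA F (zornMul x y)) (M.adjugateᵀ *ᵥ zB F (zornMul x y)) ((zornMul x y) 7) =
        zornMul (mk (x 0) (M *ᵥ zA F x) (M.adjugateᵀ *ᵥ zB F x) (x 7))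
          (mk (y 0) (M *ᵥ zA F y) (M.adjugateᵀ *ᵥ zB F y) (y 7))
      rw [hz x y, hz (mk (x 0) _ _ (x 7)) _, zA_mk, zA_mk, zA_mk, zB_mk, zB_mk, zB_mk]
      have hc : ∀ u v : Fin 3 → F, dot3 u v = dot3 v u := fun u v => by simp [dot3]; ring
      have h0 : ∀ (a : F) (u v : Fin 3 → F) (b : F), mk a u v b 0 = a ∧ mk a u v b 7 = b :=
        fun _ _ _ _ => ⟨rfl, rfl⟩
      rw [(h0 _ _ _ _).1, (h0 _ _ _ _).2, (h0 _ _ _ _).1, (h0 _ _ _ _).1, (h0 _ _ _ _).2, (h0 _ _ _ _).2,
        dot3_mulVec, hc (M.adjugateᵀ *ᵥ _), dot3_mulVec, cross3_adjugate, cross3_mulVec, hM,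
        _root_.one_mul, _root_.one_mul, one_smul, hc (zA F y), Matrix.mulVec_sub, Matrix.mulVec_add,
        Matrix.mulVec_add, Matrix.mulVec_add, Matrix.mulVec_smul, Matrix.mulVec_smul, Matrix.mulVec_smul,
        Matrix.mulVec_smul]
  exact ⟨g, hg x⟩

/-- Rows completing a matrix of determinant one. -/
theorem exists_rows (a w : Fin 3 → F) (h : dot3 w a ≠ 0) :
    ∃ M : Matrix (Fin 3) (Fin 3) F, M.det = 1 ∧ M 0 = w ∧ (M *ᵥ a) 1 = 0 ∧ (M *ᵥ a) 2 = 0 := by
  obtain ⟨m, n, hm, hn, hd⟩ : ∃ m n : Fin 3 → F, dot3 m a = 0 ∧ dot3 n a = 0 ∧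
      (Matrix.of ![w, m, n]).det ≠ 0 := by
    by_cases h0 : a 0 = 0
    · by_cases h1 : a 1 = 0
      · have h2 : a 2 ≠ 0 := fun h2 => h (by simp [dot3, h0, h1, h2])
        refine ⟨![1, 0, 0], ![0, 1, 0], by simp [dot3, h0], by simp [dot3, h1], ?_⟩
        simp [dot3, h0, h1] at h
        simpa [Matrix.det_fin_three] using h.1
      · refine ⟨![1, 0, 0], ![0, a 2, -a 1], by simp [dot3, h0], by simp [dot3]; ring, ?_⟩
        intro hd
        refine h ?_
        simp [Matrix.det_fin_three] at hd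
        simp only [dot3, h0]
        linear_combination hd
    · refine ⟨![a 1, -a 0, 0], ![a 2, 0, -a 0], by simp [dot3]; ring, by simp [dot3]; ring, ?_⟩
      intro hd
      refine mul_ne_zero h0 h ?_
      simp [Matrix.det_fin_three] at hd
      simp only [dot3]
      linear_combination hd
  set c := (Matrix.of ![w, m, n]).det with hc
  refine ⟨Matrix.of ![w, m, c⁻¹ • n], ?_, rfl, ?_, ?_⟩
  · rw [show (1 : F) = c⁻¹ * c from (inv_mul_cancel₀ hd).symm, hc]
    simp [Matrix.det_fin_three]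
    ring
  · simpa [Matrix.mulVec, dotProduct, Fin.sum_univ_three, dot3] using hm
  · simp only [dot3] at hn
    simp [Matrix.mulVec, dotProduct, Fin.sum_univ_three]
    linear_combination c⁻¹ * hn

/-- The vectors outside the quaternion subalgebra. -/
def Flat (x : Fin 8 → F) : Prop := x 2 = 0 ∧ x 3 = 0 ∧ x 5 = 0 ∧ x 6 = 0

theorem exists_flat_of_pair {x : Fin 8 → F} (a w : Fin 3 → F) (h : dot3 w a ≠ 0) (s t : F)
    (hs : zA F x = s • a) (ht : zB F x = t • w) : ∃ g : Cfsg.Lie.G2 F, Flat (ρ g x) := by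
  obtain ⟨M, hM, hw, h1, h2⟩ := exists_rows a w h
  obtain ⟨g, hg⟩ := exists_sl M hM x
  have hN : M.adjugateᵀ *ᵥ w = Pi.single 0 1 := by
    have : w = Mᵀ *ᵥ Pi.single 0 1 := by rw [Matrix.mulVec_single_one, ← hw]; rfl
    rw [this, Matrix.mulVec_mulVec, ← Matrix.transpose_mul, Matrix.mul_adjugate, hM, one_smul,
      Matrix.transpose_one, Matrix.one_mulVec]
  refine ⟨g, ?_⟩
  rw [hg, hs, ht, Matrix.mulVec_smul, Matrix.mulVec_smul, hN]
  refine ⟨?_, ?_, ?_, ?_⟩ <;> simp [mk, h1, h2]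

theorem exists_flat_of_zero {x : Fin 8 → F} (ha : zA F x = 0 ∨ zB F x = 0) :
    ∃ g : Cfsg.Lie.G2 F, Flat (ρ g x) := by
  classical
  have key : ∀ v : Fin 3 → F, ∃ i : Fin 3, v = 0 ∨ v i ≠ 0 := fun v => by
    by_cases hv : v = 0
    · exact ⟨0, Or.inl hv⟩
    · obtain ⟨i, hi⟩ := Function.ne_iff.mp hv
      exact ⟨i, Or.inr hi⟩
  have hdot : ∀ (v : Fin 3 → F) (i : Fin 3), dot3 v (Pi.single i 1) = v i := fun v i => by
    fin_cases i <;> simp [dot3]
  have hdot' : ∀ (v : Fin 3 → F) (i : Fin 3), dot3 (Pi.single i 1) v = v i := fun v i => by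
    fin_cases i <;> simp [dot3]
  rcases ha with ha | hb
  · obtain ⟨i, hi⟩ := key (zB F x)
    rcases hi with hi | hi
    · exact ⟨1, by
        rw [map_one, Module.End.one_apply]
        exact ⟨congrFun ha 1, congrFun ha 2, congrFun hi 1, congrFun hi 2⟩⟩
    · exact exists_flat_of_pair (Pi.single i 1) (zB F x) (by rw [hdot]; exact hi) 0 1 (by simp [ha]) (by simp)
  · obtain ⟨i, hi⟩ := key (zA F x)
    rcases hi with hi | hi
    · exact ⟨1, by
        rw [map_one, Module.End.one_apply]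
        exact ⟨congrFun hi 1, congrFun hi 2, congrFun hb 1, congrFun hb 2⟩⟩
    · exact exists_flat_of_pair (zA F x) (Pi.single i 1) (by rw [hdot']; exact hi) 1 0 (by simp) (by simp [hb])

open CfsgLib.BrauerPairs

theorem toG2_apply (u v : GL (Fin 2) F) (h : (u, v) ∈ G2Quaternion.pairs F) (x : Fin 8 → F) :
    G2Quaternion.enc (ρ (G2Quaternion.toG2 F ⟨(u, v), h⟩) x) =
      ((u : Matrix (Fin 2) (Fin 2) F) * (G2Quaternion.enc x).1 * ((u⁻¹ : GL (Fin 2) F) : Matrix (Fin 2) (Fin 2) F),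
        (u : Matrix (Fin 2) (Fin 2) F) * (G2Quaternion.enc x).2 * ((v⁻¹ : GL (Fin 2) F) : Matrix (Fin 2) (Fin 2) F)) := by
  rw [ρ_apply, G2Quaternion.toG2_mulVec, LinearEquiv.apply_symm_apply]
  rfl

variable [CharP F 2]

/-- Every element of trace one can be moved into the quaternion subalgebra. -/
theorem exists_flat (x : Fin 8 → F) (hx : tr x = 1) : ∃ g : Cfsg.Lie.G2 F, Flat (ρ g x) := by
  by_cases hab : dot3 (zB F x) (zA F x) ≠ 0
  · exact exists_flat_of_pair _ _ hab 1 1 (by simp) (by simp)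
  by_cases h0 : zA F x = 0 ∨ zB F x = 0
  · exact exists_flat_of_zero h0
  push Not at hab h0
  obtain ⟨i, hi⟩ := Function.ne_iff.mp h0.1
  obtain ⟨M, hM, hw, h1, h2⟩ := exists_rows (zA F x) (Pi.single i 1)
    (by fin_cases i <;> simpa [dot3] using hi)
  obtain ⟨g₁, hg₁⟩ := exists_sl M hM x
  set t := (M *ᵥ zA F x) 0 with ht
  have htne : t ≠ 0 := by
    rw [ht, Matrix.mulVec, show M 0 = Pi.single i 1 from hw, single_dotProduct, _root_.one_mul]
    exact hi
  set b := M.adjugateᵀ *ᵥ zB F x with hb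
  have hb0 : b 0 = 0 := by
    have h := dot3_mulVec M (zA F x) (zB F x)
    rw [← hb, dot3, h1, h2, ← ht, show dot3 (zA F x) (zB F x) = 0 by
      rw [← hab]; simp [dot3]; ring] at h
    simpa [htne] using h
  have hbne : b 1 ≠ 0 ∨ b 2 ≠ 0 := by
    by_contra hcon
    push Not at hcon
    refine h0.2 ?_
    have hb' : Mᵀ *ᵥ b = zB F x := by
      rw [hb, Matrix.mulVec_mulVec, ← Matrix.transpose_mul, Matrix.adjugate_mul, hM, one_smul,
        Matrix.transpose_one, Matrix.one_mulVec]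
    rw [← hb', show b = 0 from funext fun j => by fin_cases j <;> simp [hb0, hcon.1, hcon.2],
      Matrix.mulVec_zero]
  obtain ⟨p, q, hpq⟩ : ∃ p q : F, b 1 * q - b 2 * p = 1 := by
    rcases hbne with h | h
    · exact ⟨0, (b 1)⁻¹, by simp [h]⟩
    · exact ⟨-(b 2)⁻¹, 0, by simp [h]⟩
  let M₂ : Matrix (Fin 3) (Fin 3) F := !![1, 0, 0; 0, b 1, b 2; 0, p, q]
  have hM₂ : M₂.det = 1 := by simp [M₂, Matrix.det_fin_three]; linear_combination hpq
  obtain ⟨g₂, hg₂⟩ := exists_sl M₂ hM₂ (ρ g₁ x)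
  have e2 : ρ g₂ (ρ g₁ x) = mk (x 0) ![t, 0, 0] ![0, 1, 0] (x 7) := by
    have hMa : M *ᵥ zA F x = ![t, 0, 0] := funext fun j => by fin_cases j <;> simp [h1, h2, ← ht]
    rw [hg₂, hg₁, zA_mk, zB_mk, hMa]
    funext j
    fin_cases j <;>
      simp [mk, M₂, hb0, Matrix.mulVec, dotProduct, Fin.sum_univ_three, Matrix.adjugate_fin_three]
    all_goals first | linear_combination hpq | ring
  let u : GL (Fin 2) F := ⟨!![1, 0; t, 1], !![1, 0; -t, 1], by simp [Matrix.mul_fin_two, Matrix.one_fin_two],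
    by simp [Matrix.mul_fin_two, Matrix.one_fin_two]⟩
  let v : GL (Fin 2) F := ⟨!![0, 1; 1, 0], !![0, 1; 1, 0], by simp [Matrix.mul_fin_two, Matrix.one_fin_two],
    by simp [Matrix.mul_fin_two, Matrix.one_fin_two]⟩
  have huv : (u, v) ∈ G2Quaternion.pairs F := Units.ext (by
    simp [u, v, Matrix.det_fin_two, CharTwo.neg_eq])
  obtain ⟨g₃, hg₃⟩ : ∃ g₃, g₃ = G2Quaternion.toG2 F ⟨(u, v), huv⟩ := ⟨_, rfl⟩
  have hαβ : x 0 + x 7 = 1 := hx
  have e3 : ρ g₃ (ρ g₂ (ρ g₁ x)) = G2Quaternion.enc.symm (!![x 0, 0; 0, x 7], !![0, 0; 1, 0]) := by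
    apply G2Quaternion.enc.injective
    rw [hg₃, toG2_apply, LinearEquiv.apply_symm_apply, e2]
    refine Prod.ext ?_ ?_ <;> ext j k <;> fin_cases j <;> fin_cases k <;>
      simp [u, v, mk, G2Quaternion.enc, Matrix.mul_apply, Fin.sum_univ_two, CharTwo.neg_eq]
    linear_combination t * hαβ + CharTwo.add_self_eq_zero t
  obtain ⟨g₄, hg₄⟩ := exists_flat_of_zero (x := ρ g₃ (ρ g₂ (ρ g₁ x))) (Or.inl (by
    rw [e3]; funext j; fin_cases j <;> simp [zA, G2Quaternion.enc]))
  exact ⟨g₄ * g₃ * g₂ * g₁, by simpa only [map_mul, Module.End.mul_apply] using hg₄⟩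

/-- The standard element of trace one and norm `n`. -/
def u0 (n : F) : Fin 8 → F := mk 0 ![1, 0, 0] ![n, 0, 0] 1

/-- The elements of trace one and given norm form one orbit. -/
theorem exists_move (x : Fin 8 → F) (hx : tr x = 1) : ∃ g : Cfsg.Lie.G2 F, ρ g x = u0 (nm x) := by
  obtain ⟨g₁, hf⟩ := exists_flat x hx
  set y := ρ g₁ x with hy
  have hty : tr y = 1 := (invariants g₁ x).1.trans hx
  have hny : nm y = nm x := (invariants g₁ x).2
  obtain ⟨p0, p1, hp⟩ : ∃ p0 p1 : F,
      p0 * (y 1 * p0 + y 7 * p1) - p1 * (y 0 * p0 + y 4 * p1) ≠ 0 := by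
    by_cases h1 : y 1 = 0
    · by_cases h4 : y 4 = 0
      · refine ⟨1, 1, fun h => one_ne_zero (α := F) ?_⟩
        rw [h1, h4] at h
        rw [← hty, show tr y = y 0 + y 7 from rfl]
        linear_combination h + CharTwo.add_self_eq_zero (y 0)
      · exact ⟨0, 1, by simpa using h4⟩
    · exact ⟨1, 0, by simpa using h1⟩
  let P : GL (Fin 2) F := GeneralLinearGroup.mkOfDetNeZero
    !![p0, y 0 * p0 + y 4 * p1; p1, y 1 * p0 + y 7 * p1] (by
      rw [Matrix.det_fin_two]; simpa [mul_comm] using hp)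
  refine ⟨G2Quaternion.toG2 F ⟨(P⁻¹, P⁻¹), show (P⁻¹, P⁻¹) ∈ G2Quaternion.pairs F from rfl⟩ * g₁, G2Quaternion.enc.injective ?_⟩
  rw [map_mul, Module.End.mul_apply, ← hy, toG2_apply, inv_inv, ← hny]
  have hC : (G2Quaternion.enc y).1 * (P : Matrix (Fin 2) (Fin 2) F) =
      (P : Matrix (Fin 2) (Fin 2) F) * (G2Quaternion.enc (u0 (nm y))).1 := by
    have ht : y 0 + y 7 = 1 := hty
    obtain ⟨h2, h3, h5, h6⟩ := hf
    ext j k
    fin_cases j <;> fin_cases k <;>
      simp [P, u0, mk, nm, dot3, zA, zB, h2, h3, h5, h6, G2Quaternion.enc, Matrix.mul_apply, Fin.sum_univ_two]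
    · linear_combination (y 0 * p0 + y 4 * p1) * ht +
        (y 4 * y 1 * p0 - y 0 * y 7 * p0) * (CharTwo.two_eq_zero : (2 : F) = 0)
    · linear_combination (y 1 * p0 + y 7 * p1) * ht +
        (y 4 * y 1 * p1 - y 0 * y 7 * p1) * (CharTwo.two_eq_zero : (2 : F) = 0)
  refine Prod.ext ?_ ?_
  · rw [mul_assoc, hC, ← mul_assoc, ← Units.val_mul, inv_mul_cancel, Units.val_one, _root_.one_mul]
  · obtain ⟨h2, h3, h5, h6⟩ := hf
    have : (G2Quaternion.enc y).2 = 0 := by
      ext j k; fin_cases j <;> fin_cases k <;> simp [G2Quaternion.enc, h2, h3, h5, h6]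
    rw [this]
    ext j k; fin_cases j <;> fin_cases k <;> simp [u0, mk, G2Quaternion.enc]

theorem tr_one : tr (one : Fin 8 → F) = 0 := CharTwo.add_self_eq_zero (1 : F)

theorem nm_add_smul_one (x : Fin 8 → F) (c : F) : nm (x + c • one) = nm x + c * tr x + c * c := by
  simp [nm, one, mk, zA, zB, dot3, tr]; ring

/-- Every element stabilises a quadratic subalgebra. -/
theorem exists_fixed_line (g : Cfsg.Lie.G2 F) :
    ∃ (u : Fin 8 → F) (μ : F), tr u = 1 ∧ ρ g u = u + μ • one := by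
  by_contra hcon
  push Not at hcon
  let f := ((Submodule.span F {(one : Fin 8 → F)}).mkQ).comp (ρ g - 1)
  have hker : LinearMap.ker f ≤ LinearMap.ker (tr : (Fin 8 → F) →ₗ[F] F) := fun u hu => by
    rw [LinearMap.mem_ker] at hu ⊢
    by_contra hne
    have hu' : (ρ g - 1) u ∈ Submodule.span F {(one : Fin 8 → F)} :=
      (Submodule.Quotient.mk_eq_zero _).mp hu
    obtain ⟨c, hc⟩ := Submodule.mem_span_singleton.mp hu'
    refine hcon ((tr u)⁻¹ • u) ((tr u)⁻¹ * c) (by simp [hne]) ?_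
    rw [map_smul, mul_smul, hc, ← smul_add]
    simp
  obtain ⟨ψ, hψ⟩ : ∃ ψ, ψ ∘ₗ f = tr := by
    have : (tr : (Fin 8 → F) →ₗ[F] F) ∈ LinearMap.range f.dualMap := by
      rw [LinearMap.range_dualMap_eq_dualAnnihilator_ker, Submodule.mem_dualAnnihilator]
      exact fun w hw => hker hw
    obtain ⟨ψ, hψ⟩ := this
    exact ⟨ψ, hψ⟩
  set φ := ψ.comp (Submodule.span F {(one : Fin 8 → F)}).mkQ with hφ
  have hφ1 : φ one = 0 := by
    simp [hφ, (Submodule.Quotient.mk_eq_zero _).mpr (Submodule.mem_span_singleton_self _)]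
  have hφg : ∀ x, φ (ρ g x) = φ x + tr x := fun x => by
    have h : tr x = φ (ρ g x) - φ x := by
      rw [← hψ, ← map_sub]; rfl
    rw [h]; ring
  set w : Fin 8 → F := ![φ (Pi.single 7 1), φ (Pi.single 4 1), φ (Pi.single 5 1), φ (Pi.single 6 1),
    φ (Pi.single 1 1), φ (Pi.single 2 1), φ (Pi.single 3 1), φ (Pi.single 0 1)] with hw
  have hpolar : ∀ x, nm (w + x) = nm w + nm x + φ x := fun x => by
    have hx : φ x = ∑ i, x i * φ (Pi.single i 1) := by
      conv_lhs => rw [pi_eq_sum_univ' x]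
      simp [map_sum]
    rw [hx]
    simp [nm, zA, zB, dot3, hw, Fin.sum_univ_eight, CharTwo.sub_eq_add]
    ring
  have hw0 : tr w = 0 := by
    have h := hpolar one
    rw [hφ1, ← one_smul F (one : Fin 8 → F), nm_add_smul_one, one_smul] at h
    rw [show nm (one : Fin 8 → F) = 1 by simp [nm, one, mk, zA, zB, dot3]] at h
    linear_combination h
  -- the dual of `g w` differs from that of `w` by the trace
  have hgw : ρ g w = w + one := by
    have key : ∀ x, φ x + tr x = nm (ρ g⁻¹ w + x) - nm w - nm x := fun x => by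
      have h := (invariants g (ρ g⁻¹ w + x)).2
      rw [map_add, show ρ g (ρ g⁻¹ w) = w by simpa using ρ_inv g⁻¹ w, hpolar, hφg,
        (invariants g x).2] at h
      linear_combination h
    have h1 : ρ g⁻¹ w = w + one := by
      have hn : nm (ρ g⁻¹ w) = nm w := (invariants g⁻¹ w).2
      have hd : ∀ x, nm (ρ g⁻¹ w + x) - nm (ρ g⁻¹ w) = nm (w + one + x) - nm (w + one) := fun x => by
        have hp : nm (w + one + x) - nm (w + one) = φ x + tr x + nm x := by
          rw [add_right_comm, ← one_smul F (one : Fin 8 → F), nm_add_smul_one, nm_add_smul_one, hpolar,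
            map_add, hw0]
          ring
        rw [hp]
        linear_combination (key x).symm - hn
      funext i
      fin_cases i
      · have := hd (Pi.single 7 1); simp [nm, zA, zB, dot3] at this ⊢; linear_combination this
      · have := hd (Pi.single 4 1); simp [nm, zA, zB, dot3] at this ⊢; linear_combination -this
      · have := hd (Pi.single 5 1); simp [nm, zA, zB, dot3] at this ⊢; linear_combination -this
      · have := hd (Pi.single 6 1); simp [nm, zA, zB, dot3] at this ⊢; linear_combination -this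
      · have := hd (Pi.single 1 1); simp [nm, zA, zB, dot3] at this ⊢; linear_combination -this
      · have := hd (Pi.single 2 1); simp [nm, zA, zB, dot3] at this ⊢; linear_combination -this
      · have := hd (Pi.single 3 1); simp [nm, zA, zB, dot3] at this ⊢; linear_combination -this
      · have := hd (Pi.single 0 1); simp [nm, zA, zB, dot3] at this ⊢; linear_combination this
    have h2 := congrArg (ρ g) h1
    rw [show ρ g (ρ g⁻¹ w) = w by simpa using ρ_inv g⁻¹ w, map_add, ρ_one] at h2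
    conv_rhs => rw [h2]
    rw [add_assoc, show (one : Fin 8 → F) + one = 0 from funext fun i => CharTwo.add_self_eq_zero _,
      add_zero]
  have h := (invariants g w).2
  rw [hgw, ← one_smul F (one : Fin 8 → F), nm_add_smul_one, hw0] at h
  simp at h

omit [CharP F 2] in
theorem span_pair_map (g : Cfsg.Lie.G2 F) (u : Fin 8 → F) :
    (Submodule.span F {(one : Fin 8 → F), u}).map (ρ g) = Submodule.span F {one, ρ g u} := by
  rw [Submodule.map_span, Set.image_pair, ρ_one]

theorem subStab_ne_top [Fintype F] (hq : 2 < Fintype.card F) (n : F) :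
    subStab (ρ (F := F)) (Submodule.span F {one, u0 n}) ≠ ⊤ := by
  classical
  obtain ⟨s, hs0, hs1⟩ : ∃ s : F, s ≠ 0 ∧ s ≠ 1 := by
    by_contra hcon
    push Not at hcon
    have h1 : (Finset.univ : Finset F) ⊆ {0, 1} := fun s _ => by
      rcases eq_or_ne s 0 with h | h <;> simp [h, hcon]
    have h2 := Finset.card_le_card h1
    simp only [Finset.card_univ] at h2
    exact absurd (h2.trans Finset.card_le_two) (by omega)
  intro htop
  let D : GL (Fin 2) F := ⟨!![s, 0; 0, 1], !![s⁻¹, 0; 0, 1], by simp [Matrix.mul_fin_two, Matrix.one_fin_two, hs0],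
    by simp [Matrix.mul_fin_two, Matrix.one_fin_two, hs0]⟩
  obtain ⟨g, hgD⟩ : ∃ g, g = G2Quaternion.toG2 F ⟨(D, D), show (D, D) ∈ G2Quaternion.pairs F from rfl⟩ := ⟨_, rfl⟩
  have hmem := apply_mem_of_mem_subStab ρ (g := g) (by rw [htop]; trivial)
    (show u0 n ∈ Submodule.span F {(one : Fin 8 → F), u0 n} from Submodule.subset_span (by simp))
  obtain ⟨a, b, hab⟩ := Submodule.mem_span_pair.mp hmem
  have e : ρ g (u0 n) = mk 0 ![s⁻¹, 0, 0] ![s * n, 0, 0] 1 := by
    apply G2Quaternion.enc.injective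
    rw [hgD, toG2_apply]
    refine Prod.ext ?_ ?_ <;> ext j k <;> fin_cases j <;> fin_cases k <;>
      simp [D, u0, mk, G2Quaternion.enc, Matrix.mul_apply, Fin.sum_univ_two]
  rw [e] at hab
  have h0 := congrFun hab 0
  have h7 := congrFun hab 7
  have h1 := congrFun hab 1
  simp [one, u0, mk] at h0 h7 h1
  rw [h0, zero_add] at h7
  rw [h7] at h1
  exact hs1 (inv_eq_one.mp h1.symm)

/-- The covering of `G₂` in characteristic two. -/
theorem hasCover {F : Type} [Field F] [Fintype F] {a : ℕ} (ha : 2 ≤ a) (h : Fintype.card F = 2 ^ a) :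
    HasCover (Cfsg.Lie.G2 F) := by
  classical
  haveI : Fact (Nat.Prime 2) := ⟨Nat.prime_two⟩
  haveI : CharP F 2 := charP_of_card_eq_prime_pow h
  have hq : 2 < Fintype.card F := by
    rw [h]
    calc 2 < 2 ^ 2 := by norm_num
      _ ≤ 2 ^ a := Nat.pow_le_pow_right (by norm_num) ha
  let AS : F →+ F :=
    { toFun := fun x => x + x * x
      map_zero' := by simp
      map_add' := fun x y => by linear_combination x * y * (CharTwo.two_eq_zero : (2 : F) = 0) }
  obtain ⟨ν, hν⟩ : ∃ ν, ν ∉ AS.range := by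
    by_contra hcon
    push Not at hcon
    have hsurj : Function.Surjective AS := fun y => hcon y
    exact zero_ne_one ((Finite.injective_iff_surjective.mpr hsurj)
      (show AS 0 = AS 1 by simp [AS, CharTwo.add_self_eq_zero]))
  have hidx : AS.range.index = 2 := by
    have h1 := AS.range.card_mul_index
    have h2 : Nat.card AS.ker * Nat.card AS.range = Nat.card F := by
      rw [← AddSubgroup.index_ker]
      exact AS.ker.card_mul_index
    have h3 : Nat.card AS.ker = 2 := by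
      rw [← SetLike.coe_sort_coe, show (AS.ker : Set F) = {0, 1} from Set.ext fun x => by
        simp only [SetLike.mem_coe, AddMonoidHom.mem_ker, Set.mem_insert_iff, Set.mem_singleton_iff]
        show x + x * x = 0 ↔ _
        rw [show x + x * x = x * (x + 1) by ring, mul_eq_zero, add_eq_zero_iff_eq_neg, CharTwo.neg_eq],
        Nat.card_coe_set_eq, Set.ncard_pair zero_ne_one]
    rw [← h2, h3, mul_comm 2] at h1
    exact Nat.eq_of_mul_eq_mul_left Nat.card_pos h1
  refine ⟨subStab ρ (Submodule.span F {one, u0 0}), subStab ρ (Submodule.span F {one, u0 ν}),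
    subStab_ne_top hq 0, subStab_ne_top hq ν, fun g => ?_⟩
  obtain ⟨u, μ, hu, hg⟩ := exists_fixed_line g
  obtain ⟨c, hc⟩ : ∃ c : F, nm u + (c + c * c) = 0 ∨ nm u + (c + c * c) = ν := by
    by_cases hmem : nm u ∈ AS.range
    · obtain ⟨c, hc⟩ := hmem
      exact ⟨c, Or.inl (by rw [← hc]; exact CharTwo.add_self_eq_zero (AS c))⟩
    · obtain ⟨c, hc⟩ := (AddSubgroup.add_mem_iff_of_index_two hidx).mpr
        (show nm u ∈ AS.range ↔ ν ∈ AS.range from iff_of_false hmem hν)
      refine ⟨c, Or.inr ?_⟩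
      rw [show c + c * c = nm u + ν from hc, ← add_assoc, CharTwo.add_self_eq_zero, zero_add]
  set u' := u + c • one with hu'
  have ht' : tr u' = 1 := by rw [map_add, map_smul, tr_one, smul_zero, add_zero, hu]
  have hn' : nm u' = nm u + (c + c * c) := by rw [hu', nm_add_smul_one, hu]; ring
  obtain ⟨x, hx⟩ := exists_move u' ht'
  have hinv : ∀ w ∈ Submodule.span F {(one : Fin 8 → F), u'}, ρ g w ∈ Submodule.span F {one, u'} := by
    intro w hw
    obtain ⟨p, q, rfl⟩ := Submodule.mem_span_pair.mp hw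
    rw [map_add, map_smul, map_smul, ρ_one, hu', map_add, map_smul, ρ_one, hg]
    refine Submodule.mem_span_pair.mpr ⟨p + q * μ, q, ?_⟩
    module
  have hmap : ∀ n, nm u + (c + c * c) = n →
      (Submodule.span F {(one : Fin 8 → F), u'}).map (ρ x) = Submodule.span F {one, u0 n} := by
    intro n hn
    rw [span_pair_map x u', hx, hn', hn]
  refine ⟨x, ?_⟩
  rcases hc with h0 | hν'
  · have h := conj_mem_subStab (g := g) (x := x) ρ hinv (hmap 0 h0)
    left
    exact h
  · have h := conj_mem_subStab (g := g) (x := x) ρ hinv (hmap ν hν')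
    right
    exact h

end CfsgLib.NormalCover.G2
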