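import Cfsg.Agent.Lib.NormalCover.FieldAction

/-!
`PSL_2`, `PSL_3` and `PSL_4` are unions of two classes of proper subgroups: a line stabiliser and
the centraliser of an extension field.
-/

set_option autoImplicit false
set_option linter.style.haveILetI false

namespace CfsgLib.NormalCover.Linear

open Matrix Polynomial

variable {F : Type*} [Field F] {n : ℕ}

local notation "SLn" => Matrix.SpecialLinearGroup (Fin n) F

/-- The natural action. -/
noncomputable def act (n : ℕ) (F : Type*) [Field F] :
    Matrix.SpecialLinearGroup (Fin n) F →* Module.End F (Fin n → F) where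
  toFun A := Matrix.toLin' (A : Matrix (Fin n) (Fin n) F)
  map_one' := by simp [Module.End.one_eq_id]
  map_mul' A B := by simp [Module.End.mul_eq_comp, Matrix.toLin'_mul]

lemma act_apply (A : SLn) (x : Fin n → F) : act n F A x = (A : Matrix (Fin n) (Fin n) F) *ᵥ x := rfl

/-- An automorphism of determinant one as an element of the special linear group. -/
noncomputable def ofDetOne (h : (Fin n → F) ≃ₗ[F] (Fin n → F))
    (hd : LinearMap.det (h : (Fin n → F) →ₗ[F] (Fin n → F)) = 1) : SLn :=
  ⟨LinearMap.toMatrix' (h : (Fin n → F) →ₗ[F] (Fin n → F)), by rw [LinearMap.det_toMatrix', hd]⟩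

lemma act_ofDetOne (h : (Fin n → F) ≃ₗ[F] (Fin n → F)) (hd) :
    act n F (ofDetOne h hd) = (h : (Fin n → F) →ₗ[F] (Fin n → F)) :=
  Matrix.toLin'_toMatrix' _

lemma center_le_subStab (W : Submodule F (Fin n → F)) :
    Subgroup.center SLn ≤ subStab (act n F) W := fun z hz => by
  obtain ⟨r, -, hr⟩ := Matrix.SpecialLinearGroup.mem_center_iff.mp hz
  refine mem_subStab_of_le _ fun w hw => ?_
  rw [act_apply, ← hr, Matrix.scalar_apply, ← Matrix.smul_one_eq_diagonal, Matrix.smul_mulVec,
    Matrix.one_mulVec]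
  exact W.smul_mem r hw

lemma center_le_opCentralizer (S : Set (Module.End F (Fin n → F))) :
    Subgroup.center SLn ≤ opCentralizer (act n F) S := fun z hz a _ => by
  obtain ⟨r, -, hr⟩ := Matrix.SpecialLinearGroup.mem_center_iff.mp hz
  refine LinearMap.ext fun x => ?_
  simp only [Module.End.mul_apply, act_apply, ← hr, Matrix.scalar_apply, ← Matrix.smul_one_eq_diagonal,
    Matrix.smul_mulVec, Matrix.one_mulVec, map_smul]

lemma commute_of_transvections {a : Module.End F (Fin n → F)} (hn : 2 ≤ n)
    (h : ∀ A : SLn, Commute (act n F A) a) : ∃ r : F, a = r • 1 := by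
  have hM : ∀ i j : Fin n, i ≠ j → Commute (Matrix.single i j (1 : F)) (LinearMap.toMatrix' a) := by
    intro i j hij
    have h1 := congrArg LinearMap.toMatrix'
      (h ⟨Matrix.transvection i j 1, Matrix.det_transvection_of_ne i j hij 1⟩).eq
    simp only [Module.End.mul_eq_comp, LinearMap.toMatrix'_comp] at h1
    change LinearMap.toMatrix' (Matrix.toLin' (Matrix.transvection i j (1 : F))) * _ = _ *
      LinearMap.toMatrix' (Matrix.toLin' (Matrix.transvection i j (1 : F))) at h1
    rw [LinearMap.toMatrix'_toLin', Matrix.transvection, add_mul, mul_add, one_mul, mul_one,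
      add_right_inj] at h1
    exact h1
  obtain ⟨r, hr⟩ := Matrix.mem_range_scalar_of_commute_single hM
  refine ⟨r, LinearMap.toMatrix'.injective ?_⟩
  rw [← hr, map_smul, LinearMap.toMatrix'_one, Matrix.scalar_apply, Matrix.smul_one_eq_diagonal]

/-- A line stabiliser is proper. -/
lemma subStab_line_ne_top (hn : 2 ≤ n) :
    subStab (act n F) (Submodule.span F {Pi.single (⟨0, by omega⟩ : Fin n) (1 : F)}) ≠ ⊤ := fun h => by
  set i : Fin n := ⟨0, by omega⟩
  set j : Fin n := ⟨1, by omega⟩
  have hji : j ≠ i := by simp [i, j]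
  let A : SLn := ⟨Matrix.transvection j i 1, Matrix.det_transvection_of_ne j i hji 1⟩
  have h1 := apply_mem_of_mem_subStab (act n F) (h ▸ Subgroup.mem_top A)
    (Submodule.mem_span_singleton_self (Pi.single i (1 : F)))
  obtain ⟨c, hc⟩ := Submodule.mem_span_singleton.mp h1
  have h2 := congrFun hc j
  rw [act_apply] at h2
  simp [A, Matrix.transvection, Matrix.add_mulVec, Matrix.single_apply, hji] at h2

/-- The special linear group is transitive on lines. -/
lemma exists_map_line (hn : 2 ≤ n) {v : Fin n → F} (hv : v ≠ 0) :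
    ∃ A : SLn, (Submodule.span F {v}).map (act n F A) =
      Submodule.span F {Pi.single (⟨0, by omega⟩ : Fin n) (1 : F)} := by
  classical
  set i : Fin n := ⟨0, by omega⟩
  set j : Fin n := ⟨1, by omega⟩
  have hji : j ≠ i := by simp [i, j]
  obtain ⟨b, hb⟩ : ∃ h : (Fin n → F) ≃ₗ[F] (Fin n → F), h v = Pi.single i 1 := by
    obtain ⟨k, hk⟩ := Function.ne_iff.mp hv
    let σ := LinearEquiv.funCongrLeft F F (Equiv.swap i k)
    set w := σ v with hw
    have ht : w i ≠ 0 := by simpa [hw, σ, LinearEquiv.funCongrLeft_apply, LinearMap.funLeft_apply] using hk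
    let e : Fin n → F := Pi.single i 1
    have hinv : ∀ x y : Fin n → F,
        (LinearMap.id + (LinearMap.proj i).smulRight ((w i)⁻¹ • (e - w)) : _ →ₗ[F] _) x = y ↔
        (LinearMap.id + (LinearMap.proj i).smulRight (w - e) : _ →ₗ[F] _) y = x := by
      intro x y
      simp only [LinearMap.add_apply, LinearMap.id_apply, LinearMap.smulRight_apply, LinearMap.proj_apply]
      constructor <;> rintro rfl <;> funext l <;> simp [e] <;> field_simp <;> ring
    let T : (Fin n → F) ≃ₗ[F] (Fin n → F) := LinearEquiv.ofLinearMap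
      (LinearMap.id + (LinearMap.proj i).smulRight ((w i)⁻¹ • (e - w)))
      (LinearMap.id + (LinearMap.proj i).smulRight (w - e))
      (LinearMap.ext fun x => (hinv _ x).mpr rfl) (LinearMap.ext fun x => (hinv x _).mp rfl)
    refine ⟨σ.trans T, ?_⟩
    show w + w i • ((w i)⁻¹ • (e - w)) = e
    rw [smul_smul, mul_inv_cancel₀ ht, one_smul, add_sub_cancel]
  set δ := LinearMap.det (b : (Fin n → F) →ₗ[F] (Fin n → F))
  have hδ : δ ≠ 0 := (LinearEquiv.isUnit_det' b).ne_zero
  let D : Matrix (Fin n) (Fin n) F := Matrix.diagonal (Function.update 1 j δ⁻¹)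
  let A : SLn := ⟨D * LinearMap.toMatrix' (b : (Fin n → F) →ₗ[F] (Fin n → F)), by
    rw [Matrix.det_mul, LinearMap.det_toMatrix', Matrix.det_diagonal,
      Finset.prod_update_of_mem (Finset.mem_univ j)]
    simp [δ, inv_mul_cancel₀ hδ]⟩
  refine ⟨A, ?_⟩
  rw [Submodule.map_span, Set.image_singleton, act_apply]
  congr 2
  show (D * LinearMap.toMatrix' (b : (Fin n → F) →ₗ[F] (Fin n → F))) *ᵥ v = _
  rw [← Matrix.mulVec_mulVec, LinearMap.toMatrix'_mulVec]
  show D *ᵥ b v = _
  rw [hb]
  funext k
  rw [Matrix.mulVec_diagonal]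
  by_cases hk : k = i
  · subst hk; simp [Function.update_of_ne hji.symm]
  · simp [hk]

/-- `PSL_n` is covered by two classes when every element without an eigenvector commutes with a
field of degree `d`. -/
theorem hasCover [Finite F] (hn : n = 2 ∨ n = 3 ∨ n = 4) :
    HasCover (SLn ⧸ Subgroup.center SLn) := by
  classical
  have h2 : 2 ≤ n := by omega
  haveI := Fact.mk (CharP.char_is_prime F (ringChar F))
  set d := if n = 3 then 3 else 2 with hd
  haveI : NeZero d := ⟨by rw [hd]; split_ifs <;> omega⟩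
  let K := FiniteField.Extension F (ringChar F) d
  have hdK : Module.finrank F K = d := by
    have h1 := FiniteField.natCard_extension F (ringChar F) d
    rw [Module.natCard_eq_pow_finrank (K := F)] at h1
    exact Nat.pow_right_injective Finite.one_lt_card h1
  have hV : Module.finrank F (Fin n → F) = n := Module.finrank_fin_fun F
  obtain ⟨φ₀⟩ : Nonempty (K →ₐ[F] Module.End F (Fin n → F)) := by
    obtain ⟨s, hs⟩ : d ∣ n := by rw [hd]; rcases hn with rfl | rfl | rfl <;> norm_num
    let e : (Fin n → F) ≃ₗ[F] (Fin s → K) := LinearEquiv.ofFinrankEq _ _ (by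
      rw [hV, Module.finrank_pi_fintype]; simp [hdK, hs, mul_comm])
    exact ⟨(e.symm.conjAlgEquiv F).toAlgHom.comp (Algebra.lsmul F F (Fin s → K))⟩
  refine hasCover_quotient _ (subStab_line_ne_top h2) (K := opCentralizer (act n F) (Set.range φ₀))
    (fun htop => ?_) (center_le_subStab _) (center_le_opCentralizer _) fun g => ?_
  · obtain ⟨θ, hθ⟩ : ∃ θ : K, ∀ r : F, θ ≠ algebraMap F K r := by
      by_contra hc
      push Not at hc
      have hsurj : Function.Surjective (algebraMap F K) := fun x => (hc x).imp fun r h => h.symm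
      have := (LinearEquiv.ofBijective (Algebra.linearMap F K) ⟨(algebraMap F K).injective, hsurj⟩).finrank_eq
      rw [hdK, Module.finrank_self] at this
      rw [hd] at this
      split_ifs at this <;> omega
    obtain ⟨r, hr⟩ := commute_of_transvections h2 fun A =>
      (htop ▸ Subgroup.mem_top A : A ∈ opCentralizer (act n F) (Set.range φ₀)) (φ₀ θ) ⟨θ, rfl⟩
    refine hθ r ?_
    haveI : Nonempty (Fin n) := ⟨⟨0, by omega⟩⟩
    haveI : Nontrivial (Module.End F (Fin n → F)) := inferInstance
    exact RingHom.injective φ₀.toRingHom (by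
      show φ₀ θ = φ₀ (algebraMap F K r)
      rw [hr, AlgHom.commutes, Algebra.algebraMap_eq_smul_one])
  by_cases hev : ∃ (v : Fin n → F) (c : F), v ≠ 0 ∧ act n F g v = c • v
  · obtain ⟨v, c, hv, hgv⟩ := hev
    obtain ⟨A, hA⟩ := exists_map_line h2 hv
    refine ⟨A, Or.inl (conj_mem_subStab _ (fun w hw => ?_) hA)⟩
    obtain ⟨t, rfl⟩ := Submodule.mem_span_singleton.mp hw
    rw [map_smul, hgv]
    exact Submodule.smul_mem _ _ (Submodule.smul_mem _ _ (Submodule.mem_span_singleton_self v))
  have hroot : ∀ c : F, ¬ (act n F g).charpoly.IsRoot c := fun c hc => hev (by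
    obtain ⟨v, hv⟩ := ((Module.End.hasEigenvalue_iff_isRoot_charpoly _ _).mpr hc).exists_hasEigenvector
    exact ⟨v, c, hv.2, hv.apply_eq_smul⟩)
  obtain ⟨φ, hφ⟩ := exists_field_action (K := K) (act n F g) fun P hP hdvd => by
    rw [hdK]
    have hmon := (act n F g).charpoly_monic
    have hdeg : (act n F g).charpoly.natDegree = n := by rw [LinearMap.charpoly_natDegree, hV]
    have hle : P.natDegree ≤ n := hdeg ▸ natDegree_le_of_dvd hdvd hmon.ne_zero
    have hpos : 0 < P.natDegree := hP.natDegree_pos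
    have h1 : P.natDegree ≠ 1 := fun h1 => by
      obtain ⟨c, hc⟩ := Polynomial.exists_root_of_degree_eq_one
        ((degree_eq_iff_natDegree_eq_of_pos one_pos).mpr h1)
      exact hroot c (hc.dvd hdvd)
    have h3 : P.natDegree + 1 ≠ n := fun h3 => by
      obtain ⟨Q, hQ⟩ := hdvd
      have hQ0 : Q ≠ 0 := fun h => hmon.ne_zero (by rw [hQ, h, mul_zero])
      have h4 := hdeg
      rw [hQ, natDegree_mul hP.ne_zero hQ0] at h4
      obtain ⟨c, hc⟩ := Polynomial.exists_root_of_degree_eq_one (p := Q)
        ((degree_eq_iff_natDegree_eq_of_pos one_pos).mpr (by omega))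
      exact hroot c (by rw [hQ]; exact hc.dvd (dvd_mul_left _ _))
    rw [hd]
    split_ifs with h
    · rw [show P.natDegree = 3 by omega]
    · rcases hn with rfl | rfl | rfl
      · rw [show P.natDegree = 2 by omega]
      · omega
      · rcases (show P.natDegree = 2 ∨ P.natDegree = 4 by omega) with h' | h' <;> rw [h'] <;> norm_num
  obtain ⟨h, hdet, hh⟩ := exists_conj_field_action φ φ₀ (by rw [hV]; omega)
  refine ⟨ofDetOne h hdet, Or.inr ?_⟩
  rintro _ ⟨a, rfl⟩
  have key : act n F (ofDetOne h hdet) * φ a = φ₀ a * act n F (ofDetOne h hdet) := by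
    rw [act_ofDetOne]; exact LinearMap.ext fun x => hh a x
  have hinv : act n F (ofDetOne h hdet)⁻¹ * φ₀ a = φ a * act n F (ofDetOne h hdet)⁻¹ := by
    set X := act n F (ofDetOne h hdet)
    set Y := act n F (ofDetOne h hdet)⁻¹
    have e1 : Y * X = 1 := by rw [← map_mul, inv_mul_cancel, map_one]
    have e2 : X * Y = 1 := by rw [← map_mul, mul_inv_cancel, map_one]
    calc Y * φ₀ a = Y * (φ₀ a * X) * Y := by rw [mul_assoc, mul_assoc, e2, mul_one]
      _ = Y * (X * φ a) * Y := by rw [key]
      _ = φ a * Y := by rw [← mul_assoc, e1, one_mul]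
  show act n F (ofDetOne h hdet * g * (ofDetOne h hdet)⁻¹) * φ₀ a = φ₀ a * _
  rw [map_mul, map_mul]
  calc act n F (ofDetOne h hdet) * act n F g * act n F (ofDetOne h hdet)⁻¹ * φ₀ a
      = act n F (ofDetOne h hdet) * (act n F g * φ a) * act n F (ofDetOne h hdet)⁻¹ := by
        rw [mul_assoc _ (act n F (ofDetOne h hdet)⁻¹), hinv]; simp only [mul_assoc]
    _ = act n F (ofDetOne h hdet) * (φ a * act n F g) * act n F (ofDetOne h hdet)⁻¹ := by rw [(hφ a).eq]
    _ = φ₀ a * (act n F (ofDetOne h hdet) * act n F g * act n F (ofDetOne h hdet)⁻¹) := by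
        rw [← mul_assoc, key]; simp only [mul_assoc]

end CfsgLib.NormalCover.Linear
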