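import Cfsg.Agent.Lib.NormalCover.UnitaryBasic

/-!
An irreducible factor of a unitary operator on a non-degenerate section has a root whose inverse is a
root of the conjugate polynomial; the resulting field automorphism forces its degree to be odd.
-/

set_option autoImplicit false
set_option linter.style.haveILetI false

namespace CfsgLib.NormalCover.Unitary

open ClassicalForms Polynomial

variable {F : Type} [Field F] [Fintype F] {q n : ℕ}

/-- The automorphism inverting `α` and extending the conjugation. -/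
lemma exists_semilinear {K : Type} [Field K] [Finite K] [Algebra F K] (c : Conj F q)
    (hF : Fintype.card F = q ^ 2) {α : K} (hgen : Function.Surjective (aeval (R := F) α))
    (hconj : aeval α⁻¹ ((minpoly F α).map c.σ) = 0) :
    ∃ (θ : K →+* K) (j : ℕ), (∀ r : F, θ (algebraMap F K r) = algebraMap F K (c.σ r)) ∧ θ α = α⁻¹ ∧
      j < Module.finrank F K ∧ (∀ x, θ x ^ q = x ^ (Fintype.card F ^ j)) ∧
      (2 * j) % Module.finrank F K = 1 % Module.finrank F K := by
  haveI : Module.Finite F K := Module.Finite.of_finite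
  have hint : IsIntegral F α := IsIntegral.of_finite F α
  haveI := Fact.mk (minpoly.irreducible hint)
  let ι : AdjoinRoot (minpoly F α) →ₐ[F] K :=
    AdjoinRoot.liftAlgHom _ (Algebra.ofId F K) α (minpoly.aeval F α)
  have hι : ι (AdjoinRoot.root _) = α := AdjoinRoot.liftAlgHom_root ..
  have hbij : Function.Bijective ι := ⟨RingHom.injective _, fun y => by
    obtain ⟨p, rfl⟩ := hgen y
    exact ⟨AdjoinRoot.mk _ p, by rw [← AdjoinRoot.aeval_eq, ← aeval_algHom_apply, hι]⟩⟩
  let e := AlgEquiv.ofBijective ι hbij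
  let θ : K →+* K := (AdjoinRoot.lift ((algebraMap F K).comp c.σ) α⁻¹ (by
    rw [← eval₂_map]; exact hconj)).comp (e.symm : K →+* AdjoinRoot (minpoly F α))
  have hθr : ∀ r, θ (algebraMap F K r) = algebraMap F K (c.σ r) := fun r => by
    simp only [θ, RingHom.comp_apply, RingHom.coe_coe]
    rw [AlgEquiv.commutes, AdjoinRoot.algebraMap_eq, AdjoinRoot.lift_of]
    rfl
  have hθα : θ α = α⁻¹ := by
    simp only [θ, RingHom.comp_apply, RingHom.coe_coe]
    rw [show e.symm α = AdjoinRoot.root _ from e.symm_apply_eq.mpr hι.symm, AdjoinRoot.lift_root]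
  have hθθ : ∀ x, θ (θ x) = x := fun x => by
    obtain ⟨p, rfl⟩ := hgen x
    have h : (θ.comp θ).comp (algebraMap F K) = algebraMap F K := RingHom.ext fun r => by
      show θ (θ _) = _
      rw [hθr, hθr, c.invol]
    show (θ.comp θ) (eval₂ (algebraMap F K) α p) = eval₂ (algebraMap F K) α p
    rw [hom_eval₂, h, RingHom.comp_apply, hθα, map_inv₀, hθα, inv_inv]
  obtain ⟨⟨ρ, hρ⟩⟩ : Nonempty {ρ : K →ₐ[F] K // ∀ x, ρ x = θ x ^ q} := by
    obtain ⟨p, hp⟩ := CharP.exists F
    haveI := hp
    obtain ⟨f, hpp, hcard⟩ := FiniteField.card F p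
    haveI := Fact.mk hpp
    haveI : CharP K p := charP_of_injective_algebraMap (algebraMap F K).injective p
    obtain ⟨k, -, hk⟩ := (Nat.dvd_prime_pow hpp).mp (hcard ▸ hF.symm ▸ dvd_pow_self q two_ne_zero)
    subst hk
    exact ⟨⟨{ (iterateFrobenius K p k).comp θ with
      commutes' := fun r => by
        show θ (algebraMap F K r) ^ p ^ k = _
        rw [hθr, ← map_pow, ← c.apply, c.invol] }, fun x => rfl⟩⟩
  obtain ⟨⟨j, hj⟩, hjρ⟩ := (FiniteField.bijective_frobeniusAlgHom_pow F K).2 ρ
  have hθq : ∀ x, θ x ^ q = x ^ (Fintype.card F ^ j) := fun x => by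
    rw [← hρ, ← hjρ]
    show (FiniteField.frobeniusAlgHom F K ^ j) x = _
    rw [AlgHom.coe_pow, FiniteField.coe_frobeniusAlgHom, pow_iterate]
  refine ⟨θ, j, hθr, hθα, hj, hθq, ?_⟩
  have key : FiniteField.frobeniusAlgHom F K ^ 1 = FiniteField.frobeniusAlgHom F K ^ (2 * j) := by
    refine AlgHom.ext fun x => ?_
    rw [AlgHom.coe_pow, AlgHom.coe_pow, FiniteField.coe_frobeniusAlgHom, pow_iterate, pow_iterate,
      pow_one]
    have h1 : x ^ q = θ x ^ Fintype.card F ^ j := by
      conv_lhs => rw [← hθθ x]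
      exact hθq _
    calc x ^ Fintype.card F = (θ x ^ Fintype.card F ^ j) ^ q := by rw [← h1, ← pow_mul, hF, sq]
      _ = (x ^ Fintype.card F ^ j) ^ Fintype.card F ^ j := by rw [pow_right_comm, hθq]
      _ = x ^ Fintype.card F ^ (2 * j) := by rw [← pow_mul, ← pow_add, two_mul]
  rw [← pow_mod_orderOf, ← pow_mod_orderOf _ (2 * j), FiniteField.orderOf_frobeniusAlgHom] at key
  have := (FiniteField.bijective_frobeniusAlgHom_pow F K).1
    (a₁ := ⟨1 % _, Nat.mod_lt _ Module.finrank_pos⟩) (a₂ := ⟨(2 * j) % _, Nat.mod_lt _ Module.finrank_pos⟩) key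
  exact (congrArg Fin.val this).symm

/-- If `P(g)` maps the section `U / R` to zero and the form is non-degenerate there, a root of `P` has
its inverse among the roots of the conjugate polynomial. -/
lemma aeval_root_inv (c : Conj F q) (g : Module.End F (Fin n → F))
    (hg : ∀ u v, Cfsg.hermForm n F q (g u) (g v) = Cfsg.hermForm n F q u v) {m : ℕ} (hm : 0 < m)
    (hgm : g ^ m = 1) {P : F[X]} (hP : Irreducible P) {U R : Submodule F (Fin n → F)}
    (hU : ∀ x ∈ U, g x ∈ U) (hR : ∀ x ∈ R, g x ∈ R) (hPU : ∀ x ∈ U, aeval g P x ∈ R)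
    (hrad : ∀ x ∈ U, (x ∈ R ↔ ∀ y ∈ U, Cfsg.hermForm n F q y x = 0)) {u : Fin n → F} (hu : u ∈ U)
    (huR : u ∉ R) :
    haveI := Fact.mk hP
    aeval (AdjoinRoot.root P)⁻¹ (P.map c.σ) = 0 := by
  haveI := Fact.mk hP
  have hpow : ∀ (W : Submodule F (Fin n → F)), (∀ x ∈ W, g x ∈ W) → ∀ (p : F[X]), ∀ x ∈ W, aeval g p x ∈ W := by
    intro W hW p x hx
    induction p using Polynomial.induction_on' with
    | add a b ha hb => rw [map_add, LinearMap.add_apply]; exact W.add_mem ha hb
    | monomial k a =>
      rw [aeval_monomial, ← Algebra.smul_def, LinearMap.smul_apply]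
      refine W.smul_mem a ?_
      induction k generalizing x with
      | zero => simpa using hx
      | succ k ih => rw [pow_succ, Module.End.mul_apply]; exact ih _ (hW x hx)
  set g' := g ^ (m - 1) with hg'
  have hgg' : g * g' = 1 := by rw [hg', ← pow_succ', Nat.sub_add_cancel hm, hgm]
  have hadj : ∀ w y, Cfsg.hermForm n F q (g w) y = Cfsg.hermForm n F q w (g' y) := fun w y => by
    conv_lhs => rw [show y = g (g' y) by rw [← Module.End.mul_apply, hgg', Module.End.one_apply]]
    rw [hg]
  have hp : ∀ (p : F[X]) w y, Cfsg.hermForm n F q (aeval g p w) y =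
      Cfsg.hermForm n F q w (aeval g' (p.map c.σ) y) := by
    intro p
    induction p using Polynomial.induction_on' with
    | add a b ha hb =>
      intro w y
      simp only [map_add, Polynomial.map_add, LinearMap.add_apply, c.add_left, c.add_right, ha, hb]
    | monomial k a =>
      intro w y
      rw [Polynomial.map_monomial, aeval_monomial, aeval_monomial, ← Algebra.smul_def, ← Algebra.smul_def,
        LinearMap.smul_apply, LinearMap.smul_apply, c.smul_left, c.smul_right, c.invol]
      congr 1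
      induction k generalizing w y with
      | zero => rfl
      | succ k ih =>
        rw [pow_succ, Module.End.mul_apply, ih, hadj, pow_succ' g', Module.End.mul_apply]
  set S := (P.map c.σ).comp (X ^ (m - 1)) with hS
  have hSU : aeval g S u ∈ R := by
    have hmem := hpow U hU S u hu
    refine (hrad _ hmem).mpr fun y hy => ?_
    rw [hS, aeval_comp, map_pow, aeval_X, ← hg', ← hp]
    exact ((c.herm_symm _ _).trans (by rw [(hrad _ (hpow U hU P y hy)).mp (hPU y hy) u hu, map_zero]))
  have hdvd : P ∣ S := by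
    by_contra hndvd
    obtain ⟨a, b, hab⟩ := hP.coprime_iff_not_dvd.mpr hndvd
    refine huR ?_
    have h := congrArg (fun p => aeval g p u) hab
    simp only [map_add, map_mul, map_one, LinearMap.add_apply, Module.End.mul_apply, Module.End.one_apply] at h
    rw [← h]
    exact R.add_mem (hpow R hR a _ (hPU u hu)) (hpow R hR b _ hSU)
  have hdvd' : P ∣ X ^ m - 1 := by
    by_contra hndvd
    obtain ⟨a, b, hab⟩ := hP.coprime_iff_not_dvd.mpr hndvd
    refine huR ?_
    have h := congrArg (fun p => aeval g p u) hab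
    simp only [map_add, map_mul, map_one, LinearMap.add_apply, Module.End.mul_apply, Module.End.one_apply,
      map_sub, map_pow, aeval_X, hgm, sub_self, LinearMap.zero_apply, map_zero, add_zero] at h
    rw [← h]
    exact hpow R hR a _ (hPU u hu)
  have h1 : AdjoinRoot.root P ^ m = 1 := by
    have := AdjoinRoot.mk_eq_zero.mpr hdvd'
    rwa [← AdjoinRoot.aeval_eq, map_sub, map_pow, aeval_X, map_one, sub_eq_zero] at this
  have h2 : (AdjoinRoot.root P)⁻¹ = AdjoinRoot.root P ^ (m - 1) :=
    inv_eq_of_mul_eq_one_right (by rw [← pow_succ', Nat.sub_add_cancel hm, h1])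
  have := AdjoinRoot.mk_eq_zero.mpr hdvd
  rw [← AdjoinRoot.aeval_eq, hS, aeval_comp, map_pow, aeval_X] at this
  rw [h2]
  exact this

/-- Such a polynomial has odd degree. -/
lemma natDegree_odd (c : Conj F q) (hF : Fintype.card F = q ^ 2) {P : F[X]} (hP : Irreducible P)
    (hmon : P.Monic)
    (h : haveI := Fact.mk hP; aeval (AdjoinRoot.root P)⁻¹ (P.map c.σ) = 0) : Odd P.natDegree := by
  haveI := Fact.mk hP
  haveI : Module.Finite F (AdjoinRoot P) := (AdjoinRoot.powerBasis hP.ne_zero).finite
  haveI : Finite (AdjoinRoot P) := Module.finite_of_finite F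
  have hmin : minpoly F (AdjoinRoot.root P) = P := by
    rw [AdjoinRoot.minpoly_root hP.ne_zero, hmon.leadingCoeff, inv_one, map_one, mul_one]
  obtain ⟨θ, j, -, -, -, -, hj⟩ := exists_semilinear c hF (α := AdjoinRoot.root P)
    (fun y => by
      obtain ⟨p, rfl⟩ := AdjoinRoot.mk_surjective y
      exact ⟨p, AdjoinRoot.aeval_eq p⟩) (by rw [hmin]; exact h)
  rw [show Module.finrank F (AdjoinRoot P) = P.natDegree by
    rw [(AdjoinRoot.powerBasis hP.ne_zero).finrank]; rfl] at hj
  rcases Nat.even_or_odd P.natDegree with he | ho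
  · have hpos := hP.natDegree_pos
    obtain ⟨s, hs⟩ := he
    rw [hs, Nat.mod_eq_of_lt (show 1 < s + s by omega)] at hj
    have := Nat.mod_add_div (2 * j) (s + s)
    rw [hj] at this
    have : (s + s) * (2 * j / (s + s)) = 2 * (s * (2 * j / (s + s))) := by ring
    omega
  · exact ho

end CfsgLib.NormalCover.Unitary
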