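import Cfsg.Agent.Lib.NormalCover.Basic
import Cfsg.Agent.Lib.ClassicalLinear.SympBasic

/-!
In characteristic two every element of `Sp_{2m}(q)` fixes one of the quadratic forms polarising to the
alternating form; these fall into two orbits, so `PSp_{2m}(q)` is covered by two classes.
-/

set_option autoImplicit false
set_option linter.style.haveILetI false

namespace CfsgLib.NormalCover.SympEven

open Matrix ClassicalLinear

universe u

variable {F : Type u} [Field F] {m : ℕ}

local notation "V" => (Fin m ⊕ Fin m → F)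
local notation "Sp" => Matrix.symplecticGroup (Fin m) F
local notation "ω" => Cfsg.sympForm m F

/-- `Q` is quadratic with polar form `ω`. -/
def Polarises (Q : (Fin m ⊕ Fin m → F) → F) : Prop :=
  (∀ x y, Q (x + y) = Q x + Q y + Cfsg.sympForm m F x y) ∧ ∀ (c : F) x, Q (c • x) = c ^ 2 * Q x

/-- The stabiliser of a function. -/
def funStab (Q : (Fin m ⊕ Fin m → F) → F) : Subgroup (Matrix.symplecticGroup (Fin m) F) where
  carrier := {g | ∀ x, Q (g • x) = Q x}
  one_mem' x := by rw [one_smul]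
  mul_mem' {a b} ha hb x := by rw [mul_smul, ha, hb]
  inv_mem' {a} ha x := by rw [← ha, smul_inv_smul]

/-- Adding the square of a functional. -/
def shift (Q : (Fin m ⊕ Fin m → F) → F) (w x : Fin m ⊕ Fin m → F) : F :=
  Q x + Cfsg.sympForm m F x w ^ 2

/-- The standard form. -/
def Q₀ (x : Fin m ⊕ Fin m → F) : F := ∑ i, x (.inl i) * x (.inr i)

lemma sympForm_eq (u v : V) : ω u v = ∑ i, (u (.inr i) * v (.inl i) - u (.inl i) * v (.inr i)) := by
  simp [Cfsg.sympForm, dotProduct, Matrix.mulVec, Matrix.J, Fintype.sum_sum_type, Matrix.one_apply,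
    Finset.sum_sub_distrib]
  ring

variable [CharP F 2]

lemma polarises_Q₀ : Polarises (F := F) (m := m) Q₀ := by
  refine ⟨fun x y => ?_, fun c x => ?_⟩
  · simp only [Q₀, sympForm_eq, CharTwo.sub_eq_add, Pi.add_apply, ← Finset.sum_add_distrib]
    exact Finset.sum_congr rfl fun i _ => by ring
  · simp only [Q₀, Finset.mul_sum, Pi.smul_apply, smul_eq_mul]
    exact Finset.sum_congr rfl fun i _ => by ring

omit [CharP F 2] in
lemma shift_add (Q : V → F) [CharP F 2] (v w x : V) : shift (shift Q v) w x = shift Q (v + w) x := by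
  simp only [shift, sympForm_add_right, CharTwo.add_sq]
  ring

lemma polarises_shift {Q : V → F} (h : Polarises Q) (w : V) : Polarises (shift Q w) := by
  refine ⟨fun x y => ?_, fun c x => ?_⟩
  · simp only [shift, h.1, sympForm_add_left, CharTwo.add_sq]
    ring
  · simp only [shift, h.2, sympForm_smul_left]
    ring

lemma apply_spT {Q : V → F} (h : Polarises Q) (w x : V) (c : F) :
    Q (spT w c • x) = Q x + (c ^ 2 * Q w + c) * ω x w ^ 2 := by
  rw [spT_smul, h.1, h.2, sympForm_smul_right]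
  ring

/-- Shifting by `w` is a change of coordinates when `Q w` lies in the image of `y ↦ y² + y`. -/
lemma exists_conj_shift {Q : V → F} (h : Polarises Q) {w : V} (hw : ∃ y : F, y ^ 2 + y = Q w) :
    ∃ T : Sp, ∀ x, Q (T • x) = shift Q w x := by
  obtain ⟨y, hy⟩ := hw
  classical
  refine ⟨spT w (if Q w = 0 then 1 else y / Q w), fun x => ?_⟩
  rw [apply_spT h, shift]
  split_ifs with h0
  · rw [h0]; ring
  · have : (y / Q w) ^ 2 * Q w + y / Q w = 1 := by field_simp; linear_combination hy
    rw [this, one_mul]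

variable [Fintype F]

lemma add_mem_range {a b : F} (ha : ¬∃ y : F, y ^ 2 + y = a) (hb : ¬∃ y : F, y ^ 2 + y = b) :
    ∃ y : F, y ^ 2 + y = a + b := by
  classical
  let f : F →+ F := AddMonoidHom.mk' (fun y => y ^ 2 + y) fun u v => by rw [CharTwo.add_sq]; ring
  have hker : (f.ker : Set F) = {0, 1} := by
    ext y
    simp only [SetLike.mem_coe, AddMonoidHom.mem_ker, Set.mem_insert_iff, Set.mem_singleton_iff, f,
      AddMonoidHom.mk'_apply]
    constructor
    · intro h
      rw [show y ^ 2 + y = y * (y + 1) by ring, mul_eq_zero, CharTwo.add_eq_zero] at h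
      exact h
    · rintro (rfl | rfl) <;> simp [CharTwo.add_self_eq_zero]
  have hk : Nat.card f.ker = 2 := by
    rw [show Nat.card f.ker = (f.ker : Set F).ncard from Nat.card_coe_set_eq _, hker,
      Set.ncard_pair zero_ne_one]
  have hidx : f.range.index = 2 := by
    have h1 := f.range.card_mul_index
    have h2 : Nat.card f.range * 2 = Nat.card F := by
      rw [← hk, ← AddSubgroup.index_ker, mul_comm, AddSubgroup.card_mul_index]
    exact mul_left_cancel₀ (Nat.card_pos.ne' : Nat.card f.range ≠ 0) (h1.trans h2.symm)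
  exact (AddSubgroup.add_mem_iff_of_index_two hidx).mpr ⟨fun h => absurd h ha, fun h => absurd h hb⟩

/-- Every element fixes a form polarising to `ω`. -/
lemma exists_shift_fixed (g : Sp) : ∃ v, g ∈ funStab (shift Q₀ v) := by
  classical
  have hsq : ∀ x : F, ∃ y : F, y ^ 2 = x := fun x =>
    ((PerfectRing.bijective_frobenius (R := F) (p := 2)).2 x)
  choose sq hsq using hsq
  have hinj : ∀ a b : F, a ^ 2 = b ^ 2 → a = b := fun a b h => frobenius_inj F 2 (by simpa [frobenius_def] using h)
  obtain ⟨hadd, hsmul⟩ := polarises_Q₀ (F := F) (m := m)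
  let M : Matrix (Fin m ⊕ Fin m) (Fin m ⊕ Fin m) F := g
  let δ : V →ₗ[F] F :=
    { toFun := fun x => sq (Q₀ (g • x) + Q₀ x)
      map_add' := fun a b => hinj _ _ (by
        rw [CharTwo.add_sq, hsq, hsq, hsq, smul_add, hadd, hadd, sympForm_smul]
        linear_combination CharTwo.add_self_eq_zero (ω a b))
      map_smul' := fun c a => hinj _ _ (by
        rw [RingHom.id_apply, smul_eq_mul, mul_pow, hsq, hsq, smul_comm, hsmul, hsmul]
        ring) }
  let T : V →ₗ[F] V := M.mulVecLin + LinearMap.id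
  have hT : ∀ x, T x = g • x + x := fun x => rfl
  have hmem : δ ∈ LinearMap.range T.dualMap := by
    rw [LinearMap.range_dualMap_eq_dualAnnihilator_ker, Submodule.mem_dualAnnihilator]
    intro x hx
    rw [LinearMap.mem_ker, hT] at hx
    replace hx : g • x = x := funext fun i => CharTwo.add_eq_zero.mp (congrFun hx i)
    refine hinj _ _ ?_
    show sq (Q₀ (g • x) + Q₀ x) ^ 2 = 0 ^ 2
    rw [hsq, hx, CharTwo.add_self_eq_zero]
    ring
  obtain ⟨φ, hφ⟩ := hmem
  have hsurj : Function.Surjective (Omega.sympBilin m F).flip := by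
    refine (LinearMap.injective_iff_surjective_of_finrank_eq_finrank Subspace.dual_finrank_eq.symm).mp ?_
    rw [← LinearMap.ker_eq_bot, LinearMap.ker_eq_bot']
    intro x hx
    refine Omega.sympBilin_nondegenerate x fun y => ?_
    have := LinearMap.congr_fun hx y
    change Omega.sympBilin m F y x = 0 at this
    rw [Omega.sympBilin_apply, sympForm_skew, ← Omega.sympBilin_apply, this, neg_zero]
  obtain ⟨v, rfl⟩ := hsurj φ
  refine ⟨v, fun x => ?_⟩
  have h1 : ω (g • x) v + ω x v = δ x := by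
    rw [← hφ, LinearMap.dualMap_apply]
    show _ = Omega.sympBilin m F (T x) v
    rw [Omega.sympBilin_apply, hT, sympForm_add_left]
  have h2 : δ x ^ 2 = Q₀ (g • x) + Q₀ x := hsq _
  rw [← h1, CharTwo.add_sq] at h2
  simp only [shift]
  linear_combination h2 + CharTwo.add_self_eq_zero (Q₀ (g • x)) - CharTwo.add_self_eq_zero (ω x v ^ 2)

omit [Fintype F] in
lemma exists_conj_mem {Q Q' : V → F} {g T : Sp} (hg : g ∈ funStab Q') (hT : ∀ x, Q (T • x) = Q' x) :
    T * g * T⁻¹ ∈ funStab Q := fun x => by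
  rw [mul_smul, mul_smul, hT, hg, ← hT, smul_inv_smul]

omit [Fintype F] in
lemma funStab_ne_top {Q : V → F} (h : Polarises Q) {w x : V} (hw : Q w = 0) (hx : ω x w ≠ 0) :
    funStab Q ≠ ⊤ := fun htop => by
  have h1 := (htop ▸ Subgroup.mem_top _ : spT w (1 : F) ∈ funStab Q) x
  rw [apply_spT h, hw] at h1
  simp [hx] at h1

/-- `PSp_{2m}(q)` is covered by two classes for even `q`. -/
theorem hasCover (hm : 2 ≤ m) : HasCover (Cfsg.PSp m F) := by
  classical
  obtain ⟨ν, hν⟩ : ∃ ν : F, ¬∃ y : F, y ^ 2 + y = ν := by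
    by_contra hc
    push Not at hc
    have := Finite.injective_iff_surjective.mpr (fun a => hc a : Function.Surjective fun y : F => y ^ 2 + y)
    exact zero_ne_one (this (show (0 : F) ^ 2 + 0 = 1 ^ 2 + 1 by simp [CharTwo.add_self_eq_zero]))
  let i₀ : Fin m := ⟨0, by omega⟩
  let i₁ : Fin m := ⟨1, by omega⟩
  have h01 : i₁ ≠ i₀ := by simp [i₀, i₁]
  let v₁ : V := Sum.elim (Pi.single i₀ ν) (Pi.single i₀ 1)
  have hv₁ : Q₀ v₁ = ν := by simp [Q₀, v₁, Pi.single_apply]
  set Q₁ : V → F := shift Q₀ v₁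
  let w : V := Sum.elim (Pi.single i₁ 1) 0
  let x : V := Sum.elim 0 (Pi.single i₁ 1)
  have hxw : ω x w ≠ 0 := by simp [sympForm_eq, x, w, Pi.single_apply]
  have hw₀ : Q₀ w = 0 := by simp [Q₀, w]
  have hw₁ : Q₁ w = 0 := by
    show Q₀ w + ω w v₁ ^ 2 = 0
    rw [hw₀, sympForm_eq]
    simp [v₁, w, Pi.single_apply, h01.symm]
  have hP₁ : Polarises Q₁ := polarises_shift polarises_Q₀ v₁
  have hcen : ∀ Q : V → F, Subgroup.center Sp ≤ funStab Q := fun Q z hz y => by
    rcases (mem_center_sp_iff (by omega)).mp hz with h | h <;>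
      rw [sp_smul_eq, h] <;> simp [Matrix.neg_mulVec]
    exact congrArg Q (funext fun i => CharTwo.neg_eq (y i))
  refine hasCover_quotient _ (funStab_ne_top polarises_Q₀ hw₀ hxw) (funStab_ne_top hP₁ hw₁ hxw)
    (hcen _) (hcen _) fun g => ?_
  obtain ⟨v, hv⟩ := exists_shift_fixed g
  by_cases hp : ∃ y : F, y ^ 2 + y = Q₀ v
  · obtain ⟨T, hT⟩ := exists_conj_shift polarises_Q₀ hp
    exact ⟨T, Or.inl (exists_conj_mem hv hT)⟩
  · have hp' : ∃ y : F, y ^ 2 + y = Q₁ (v₁ + v) := by
      obtain ⟨y, hy⟩ := add_mem_range hp hν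
      have e : Q₁ (v₁ + v) = Q₀ v + ν + (ω v₁ v ^ 2 + ω v₁ v) := by
        show Q₀ (v₁ + v) + ω (v₁ + v) v₁ ^ 2 = _
        rw [(polarises_Q₀ (F := F) (m := m)).1, hv₁, sympForm_add_left, sympForm_self, sympForm_skew v v₁,
          CharTwo.neg_eq]
        ring
      exact ⟨y + ω v₁ v, by rw [e, CharTwo.add_sq, ← hy]; ring⟩
    obtain ⟨T, hT⟩ := exists_conj_shift hP₁ hp'
    refine ⟨T, Or.inr (exists_conj_mem hv fun y => ?_)⟩
    rw [hT, shift_add, ← add_assoc]
    congr 1
    funext i
    simp [CharTwo.add_self_eq_zero]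

end CfsgLib.NormalCover.SympEven
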