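import Cfsg.Agent.Lib.NormalCover.SympSixCases
import Cfsg.Agent.Lib.ClassicalLinear.SympBasic
import Cfsg.Prelude.Def_Classical

/-!
`PSp₆(3^a)` is the union of the conjugates of a plane stabiliser and of the group of semilinear maps over the
cubic extension.
-/

set_option autoImplicit false
set_option linter.unusedSectionVars false
set_option linter.style.haveILetI false

namespace CfsgLib.NormalCover.SympSix

open Module Matrix ClassicalLinear

variable {F : Type} [Field F]

local notation "V6" => (Fin 3 ⊕ Fin 3 → F)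
local notation "Sp6" => Matrix.symplecticGroup (Fin 3) F

/-- The action of a symplectic matrix. -/
noncomputable def spLin (g : Sp6) : V6 ≃ₗ[F] V6 where
  toFun v := g • v
  invFun v := g⁻¹ • v
  map_add' u v := by simp [sp_smul_eq, Matrix.mulVec_add]
  map_smul' c v := by simp [sp_smul_eq, Matrix.mulVec_smul]
  left_inv v := inv_smul_smul g v
  right_inv v := smul_inv_smul g v

theorem spLin_apply (g : Sp6) (v : V6) : spLin g v = g • v := rfl

theorem spLin_symm_apply (g : Sp6) (v : V6) : (spLin g).symm v = g⁻¹ • v := rfl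

/-- The natural representation. -/
noncomputable def rep : Sp6 →* Module.End F V6 where
  toFun g := (spLin g).toLinearMap
  map_one' := LinearMap.ext fun v => one_smul _ v
  map_mul' g h := LinearMap.ext fun v => mul_smul g h v

theorem rep_apply (g : Sp6) (v : V6) : rep g v = g • v := rfl

variable {E : Type} [Field E] [Algebra F E]

/-- The maps semilinear in given coordinates. -/
def semiGroup (C : V6 ≃ₗ[F] E × E) : Subgroup Sp6 where
  carrier := {g | Semi C (spLin g)}
  one_mem' := ⟨1, fun a p => by simp [spLin_apply]⟩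
  mul_mem' {g h} := by
    rintro ⟨τ, hτ⟩ ⟨σ, hσ⟩
    refine ⟨τ * σ, fun a p => ?_⟩
    simp only [spLin_apply, mul_smul] at hτ hσ ⊢
    have e : h • C.symm (a • p) = C.symm (σ a • C (h • C.symm p)) := by rw [← hσ, C.symm_apply_apply]
    rw [e, hτ, C.symm_apply_apply]
    rfl
  inv_mem' {g} := by
    rintro ⟨τ, hτ⟩
    refine ⟨τ.symm, fun a p => ?_⟩
    simp only [spLin_apply] at hτ ⊢
    have h1 := hτ (τ.symm a) (C (g⁻¹ • C.symm p))
    rw [τ.apply_symm_apply, C.symm_apply_apply, smul_inv_smul, C.apply_symm_apply] at h1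
    rw [show C.symm (a • p) = g • C.symm (τ.symm a • C (g⁻¹ • C.symm p)) by rw [← h1, C.symm_apply_apply],
      inv_smul_smul, C.apply_symm_apply]

/-- The standard coordinates: dual bases of the cubic extension. -/
theorem exists_standard [Finite F] [Finite E] (hE : finrank F E = 3) :
    ∃ C : V6 ≃ₗ[F] E × E, ∀ x y, Cfsg.sympForm 3 F x y = detForm F E (C x) (C y) := by
  haveI : Module.Finite F E := Module.Finite.of_finite
  let b : Basis (Fin 3) F E := Module.finBasisOfFinrankEq F E hE
  let b' := (Algebra.traceForm F E).dualBasis (traceForm_nondegenerate F E) b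
  have hbb : ∀ i j, Algebra.trace F E (b i * b' j) = if i = j then 1 else 0 := fun i j => by
    rw [mul_comm, ← Algebra.traceForm_apply, LinearMap.BilinForm.apply_dualBasis_left]
  let C : V6 ≃ₗ[F] E × E :=
    ((LinearEquiv.sumArrowLequivProdArrow (Fin 3) (Fin 3) F F).trans (LinearEquiv.prodComm F _ _)).trans
      (b.equivFun.symm.prodCongr b'.equivFun.symm)
  refine ⟨C, fun x y => ?_⟩
  have h1 : ∀ z : V6, (C z).1 = ∑ i, z (.inr i) • b i ∧ (C z).2 = ∑ i, z (.inl i) • b' i := fun z => by
    simp [C, Basis.equivFun_symm_apply, LinearEquiv.sumArrowLequivProdArrow, Equiv.sumArrowEquivProdArrow]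
  rw [detForm_apply, (h1 x).1, (h1 x).2, (h1 y).1, (h1 y).2, Omega.sympForm_eq_sum, map_sub,
    Finset.sum_mul_sum, Finset.sum_mul_sum]
  simp only [map_sum, smul_mul_smul_comm, map_smul, mul_comm (b' _) (b _), hbb, smul_eq_mul, mul_ite, mul_one,
    mul_zero, Finset.sum_ite_eq, Finset.sum_ite_eq', Finset.mem_univ, if_true, Finset.sum_sub_distrib]

/-- The standard plane. -/
def plane : Submodule F V6 := Submodule.span F {Pi.single (.inr 0) 1, Pi.single (.inl 0) 1}

theorem plane_form (i : Fin 3) : Cfsg.sympForm 3 F (Pi.single (.inr i) 1) (Pi.single (.inl i) 1) = 1 := by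
  simp [Omega.sympForm_eq_sum, Pi.single_apply]

theorem indep_of_form {u v : V6} (h : Cfsg.sympForm 3 F u v ≠ 0) : LinearIndependent F ![u, v] := by
  have hu : u ≠ 0 := fun h0 => h (by rw [h0, ← zero_smul F u, sympForm_smul_left, zero_mul])
  rw [LinearIndependent.pair_iff' hu]
  intro a ha
  exact h (by rw [← ha, sympForm_smul_right, sympForm_self, mul_zero])

/-- `PSp₆(3^a)` has a normal covering by two subgroups. -/
theorem hasCover {F : Type} [Field F] [Fintype F] {a : ℕ} (ha : 1 ≤ a) (h : Fintype.card F = 3 ^ a) :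
    HasCover (Cfsg.PSp 3 F) := by
  classical
  haveI : Fact (Nat.Prime 3) := ⟨Nat.prime_three⟩
  haveI : CharP F 3 := charP_of_card_eq_prime_pow h
  have h3 : (3 : F) = 0 := CharP.ofNat_eq_zero F 3
  obtain ⟨E, _, _, _, hE⟩ : ∃ (E : Type) (_ : Field E) (_ : Algebra F E) (_ : Finite E), finrank F E = 3 := by
    refine ⟨FiniteField.Extension F 3 3, inferInstance, inferInstance, inferInstance, ?_⟩
    exact FiniteField.finrank_extension F 3 3
  haveI : Module.Finite F E := Module.Finite.of_finite
  obtain ⟨C₀, hC₀⟩ := exists_standard (F := F) hE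
  set H := subStab (rep (F := F)) plane with hH
  set K := semiGroup C₀ with hK
  have hNH : Subgroup.center (Matrix.symplecticGroup (Fin 3) F) ≤ H := by
    intro z hz
    refine mem_subStab_of_le (rep (F := F)) fun w hw => ?_
    rw [rep_apply, sp_smul_eq]
    rcases (mem_center_sp_iff (by norm_num)).mp hz with hz | hz <;> rw [hz]
    · rwa [Matrix.one_mulVec]
    · rw [Matrix.neg_mulVec, Matrix.one_mulVec]; exact neg_mem hw
  have hNK : Subgroup.center (Matrix.symplecticGroup (Fin 3) F) ≤ K := by
    intro z hz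
    refine ⟨1, fun a p => ?_⟩
    simp only [spLin_apply, sp_smul_eq]
    rcases (mem_center_sp_iff (by norm_num)).mp hz with hz | hz <;> rw [hz] <;>
      simp [Matrix.neg_mulVec, map_neg]
  have hHtop : H ≠ ⊤ := by
    intro htop
    obtain ⟨x, hx, -⟩ := exists_sp_map_indep (F := F) (m := 3) (Pi.single (.inr 0) 1) (Pi.single (.inl 0) 1)
      (Pi.single (.inr 1) 1) (Pi.single (.inl 1) 1) (indep_of_form (by rw [plane_form]; exact one_ne_zero))
      (indep_of_form (by rw [plane_form]; exact one_ne_zero)) (by rw [plane_form, plane_form])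
    have hmem := apply_mem_of_mem_subStab (rep (F := F)) (W := plane) (g := x) (show x ∈ H by rw [htop]; trivial)
      (show Pi.single (Sum.inr 0) 1 ∈ plane (F := F) from Submodule.subset_span (by simp))
    rw [rep_apply, hx] at hmem
    obtain ⟨p, q, hpq⟩ := Submodule.mem_span_pair.mp hmem
    simpa using congrFun hpq (.inr 1)
  have hKtop : K ≠ ⊤ := by
    intro htop
    set w : Fin 3 ⊕ Fin 3 → F := Pi.single (.inr 0) 1 with hwdef
    obtain ⟨τ, hτ⟩ := (show spT w 1 ∈ K by rw [htop]; trivial)
    simp only [spLin_apply, spT_smul, one_mul] at hτ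
    set q := C₀ w
    set ψ : E × E →ₗ[F] F := ((Omega.sympBilin 3 F).flip w).comp C₀.symm.toLinearMap with hψ
    have hψa : ∀ p, Cfsg.sympForm 3 F (C₀.symm p) w = ψ p := fun p => by
      simp [hψ, Omega.sympBilin_apply]
    simp only [hψa, map_add, map_smul, C₀.apply_symm_apply] at hτ
    have hτ1 : ∀ a, τ a = a := fun a => by
      obtain ⟨p, hp, hp0⟩ : ∃ p, (ψ.prod (ψ ∘ₗ DistribSMul.toLinearMap F (E × E) a)) p = 0 ∧ p ≠ 0 := by
        refine Submodule.exists_mem_ne_zero_of_ne_bot
          (p := LinearMap.ker _) (LinearMap.ker_ne_bot_of_finrank_lt ?_)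
        rw [Module.finrank_prod, Module.finrank_prod, Module.finrank_self, hE]
        norm_num
      simp only [LinearMap.prod_apply, Function.prod_apply, LinearMap.comp_apply, DistribSMul.toLinearMap_apply,
        Prod.mk_eq_zero] at hp
      have h1 := hτ a p
      rw [hp.1, hp.2, zero_smul, add_zero, add_zero] at h1
      by_contra hne
      exact hp0 ((smul_eq_zero.mp (show (τ a - a) • p = 0 by rw [sub_smul, ← h1, sub_self])).resolve_left
        (sub_ne_zero.mpr hne))
    obtain ⟨a, ha⟩ : ∃ a : E, a ∉ Set.range (algebraMap F E) := by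
      by_contra hcon
      push Not at hcon
      have h1 := LinearMap.finrank_le_finrank_of_surjective (f := Algebra.linearMap F E) (fun y => hcon y)
      rw [hE, Module.finrank_self] at h1
      omega
    obtain ⟨v, hv⟩ := exists_sympForm_eq_one (show w ≠ 0 by simp [hwdef])
    have hq : q ≠ 0 := fun h0 => by simp [q, hwdef] at h0
    have h1 := hτ a (C₀ v)
    rw [hτ1, show ψ (C₀ v) = -1 by rw [← hψa, C₀.symm_apply_apply, sympForm_skew, hv], neg_one_smul,
      smul_add, add_right_inj] at h1
    refine ha ⟨-ψ (a • C₀ v), ?_⟩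
    apply smul_left_injective E hq
    show algebraMap F E (-ψ (a • C₀ v)) • q = a • q
    rw [algebraMap_smul, neg_smul, show ψ (a • C₀ v) • q = a • -q from h1, smul_neg, neg_neg]
  refine hasCover_quotient _ hHtop hKtop hNH hNK fun g => ?_
  have S : Setting (Omega.sympBilin 3 F) (spLin g) :=
    { alt := Omega.sympBilin_self
      nd := Forms.sympBilin_nondeg 3 F
      dim := by rw [Module.finrank_fintype_fun_eq_card, Fintype.card_sum, Fintype.card_fin]
      iso := fun x y => by
        rw [Omega.sympBilin_apply, Omega.sympBilin_apply, spLin_apply, spLin_apply, sympForm_smul] }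
  rcases S.dichotomy (E := E) h3 hE with ⟨v, w, hvw, hgv, hgw⟩ | ⟨C, hC, τ, hτ⟩
  · rw [Omega.sympBilin_apply] at hvw
    obtain ⟨x, hx1, hx2⟩ := exists_sp_map_indep v w (Pi.single (.inr 0) 1) (Pi.single (.inl 0) 1)
      (indep_of_form (by rw [hvw]; exact one_ne_zero)) (indep_of_form (by rw [plane_form]; exact one_ne_zero))
      (by rw [hvw, plane_form])
    refine ⟨x, Or.inl ?_⟩
    have hh := conj_mem_subStab (W := plane) (W' := Submodule.span F {v, w}) (g := g) (x := x) (rep (F := F))
      (fun y hy => by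
        obtain ⟨p, q, rfl⟩ := Submodule.mem_span_pair.mp hy
        rw [map_add, map_smul, map_smul]
        exact add_mem (Submodule.smul_mem _ _ hgv) (Submodule.smul_mem _ _ hgw))
      (by rw [Submodule.map_span, Set.image_pair, rep_apply, rep_apply, hx1, hx2]; rfl)
    exact hh
  · have hX : ∀ u y, Cfsg.sympForm 3 F ((C.trans C₀.symm) u) ((C.trans C₀.symm) y) = Cfsg.sympForm 3 F u y :=
      fun u y => by
        rw [hC₀, LinearEquiv.trans_apply, LinearEquiv.trans_apply, C₀.apply_symm_apply, C₀.apply_symm_apply,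
          ← hC, Omega.sympBilin_apply]
    set x := Forms.spOfEquiv _ hX
    have hx : ∀ u, x • u = C₀.symm (C u) := fun u => by
      rw [sp_smul_eq]; exact Forms.spOfEquiv_mulVec _ hX u
    have hxi : ∀ p, x⁻¹ • C₀.symm p = C.symm p := fun p => by
      rw [inv_smul_eq_iff, hx, C.apply_symm_apply]
    refine ⟨x, Or.inr ⟨τ, fun a p => ?_⟩⟩
    simp only [spLin_apply, mul_smul, hxi, hx, C₀.apply_symm_apply] at hτ ⊢
    exact hτ a p

end CfsgLib.NormalCover.SympSix
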