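import Cfsg.Agent.Lib.NormalCover.Basic
import Cfsg.Agent.Lib.Omega.SympJordan

/-!
An isometry of a six-dimensional symplectic space in characteristic three fixes a hyperbolic plane or is
semilinear over the cubic extension: the vocabulary, the planes and the cubic extension.
-/

set_option autoImplicit false
set_option linter.unusedSectionVars false
set_option linter.style.haveILetI false

namespace CfsgLib.NormalCover.SympSix

open Module

variable {F : Type*} [Field F] {E : Type*} [Field E] [Algebra F E]
variable {V : Type*} [AddCommGroup V] [Module F V]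

/-- The trace of the determinant. -/
noncomputable def detForm (F E : Type*) [Field F] [Field E] [Algebra F E] : LinearMap.BilinForm F (E × E) :=
  LinearMap.mk₂ F (fun p q => Algebra.trace F E (p.1 * q.2 - p.2 * q.1))
    (fun p p' q => by rw [← map_add]; congr 1; simp; ring)
    (fun c p q => by rw [← map_smul]; congr 1; simp [smul_sub, smul_mul_assoc])
    (fun p q q' => by rw [← map_add]; congr 1; simp; ring)
    (fun c p q => by rw [← map_smul]; congr 1; simp [smul_sub, mul_smul_comm])

theorem detForm_apply (p q : E × E) : detForm F E p q = Algebra.trace F E (p.1 * q.2 - p.2 * q.1) := rfl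

theorem detForm_self (p : E × E) : detForm F E p p = 0 := by
  rw [detForm_apply, mul_comm, sub_self, map_zero]

/-- `g` is semilinear over `E` in the coordinates `C`. -/
def Semi (C : V ≃ₗ[F] E × E) (g : V ≃ₗ[F] V) : Prop :=
  ∃ τ : E ≃ₐ[F] E, ∀ (a : E) (p : E × E), C (g (C.symm (a • p))) = τ a • C (g (C.symm p))

/-- `g` is semilinear in some coordinates in which the form is the trace of the determinant. -/
def HasModel (E : Type*) [Field E] [Algebra F E] (B : LinearMap.BilinForm F V) (g : V ≃ₗ[F] V) : Prop :=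
  ∃ C : V ≃ₗ[F] E × E, (∀ x y, B x y = detForm F E (C x) (C y)) ∧ Semi C g

/-- `g` fixes a hyperbolic plane. -/
def HasPlane (B : LinearMap.BilinForm F V) (g : V ≃ₗ[F] V) : Prop :=
  ∃ v w, B v w = 1 ∧ g v ∈ Submodule.span F {v, w} ∧ g w ∈ Submodule.span F {v, w}

theorem hasPlane_of_ne {B : LinearMap.BilinForm F V} {g : V ≃ₗ[F] V} {v w : V} (h : B v w ≠ 0)
    (hv : g v ∈ Submodule.span F {v, w}) (hw : g w ∈ Submodule.span F {v, w}) : HasPlane B g := by
  have hc : (B v w)⁻¹ ≠ 0 := inv_ne_zero h
  have he : Submodule.span F {v, (B v w)⁻¹ • w} = Submodule.span F {v, w} := by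
    refine le_antisymm (Submodule.span_le.mpr ?_) (Submodule.span_le.mpr ?_)
    · rintro x (rfl | rfl)
      · exact Submodule.subset_span (by simp)
      · exact Submodule.smul_mem _ _ (Submodule.subset_span (by simp))
    · rintro x (rfl | rfl)
      · exact Submodule.subset_span (by simp)
      · have hm := Submodule.smul_mem (Submodule.span F {v, (B v x)⁻¹ • x}) (B v x)
          (Submodule.subset_span (show (B v x)⁻¹ • x ∈ ({v, (B v x)⁻¹ • x} : Set V) by simp))
        rwa [smul_inv_smul₀ h] at hm
  refine ⟨v, (B v w)⁻¹ • w, by simp [h], ?_, ?_⟩ <;> rw [he]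
  · exact hv
  · rw [map_smul]; exact Submodule.smul_mem _ _ hw

/-- A vector whose image is not orthogonal to it and which satisfies a quadratic relation. -/
theorem hasPlane_of_quad {B : LinearMap.BilinForm F V} {g : V ≃ₗ[F] V} {v : V} (h : B v (g v) ≠ 0) (a b : F)
    (hq : g (g v) = a • g v + b • v) : HasPlane B g :=
  hasPlane_of_ne h (Submodule.subset_span (by simp))
    (Submodule.mem_span_pair.mpr ⟨b, a, by rw [hq, add_comm]⟩)

theorem hasPlane_neg {B : LinearMap.BilinForm F V} {g g' : V ≃ₗ[F] V} (hg : ∀ x, g' x = -g x)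
    (h : HasPlane B g') : HasPlane B g := by
  obtain ⟨v, w, h1, h2, h3⟩ := h
  rw [hg] at h2 h3
  exact ⟨v, w, h1, neg_mem_iff.mp h2, neg_mem_iff.mp h3⟩

theorem hasModel_neg {B : LinearMap.BilinForm F V} {g g' : V ≃ₗ[F] V} (hg : ∀ x, g' x = -g x)
    (h : HasModel E B g') : HasModel E B g := by
  obtain ⟨C, hC, τ, hτ⟩ := h
  refine ⟨C, hC, τ, fun a p => ?_⟩
  have h1 := hτ a p
  rw [hg, hg, map_neg, map_neg, smul_neg] at h1
  exact neg_injective h1

/-- A non-degenerate alternating form on a six-dimensional space, and an isometry of it. -/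
structure Setting (B : LinearMap.BilinForm F V) (g : V ≃ₗ[F] V) : Prop where
  alt : ∀ x, B x x = 0
  nd : B.Nondegenerate
  dim : finrank F V = 6
  iso : ∀ x y, B (g x) (g y) = B x y

namespace Setting

variable {B : LinearMap.BilinForm F V} {g : V ≃ₗ[F] V}

theorem finiteDimensional (S : Setting B g) : FiniteDimensional F V :=
  Module.finite_of_finrank_pos (by rw [S.dim]; norm_num)

theorem skew (S : Setting B g) (x y : V) : B y x = -B x y := by
  have h := S.alt (x + y)
  simp only [map_add, LinearMap.add_apply, S.alt, zero_add, add_zero] at h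
  linear_combination h

theorem refl (S : Setting B g) : B.IsRefl := fun x y h => by rw [S.skew, h, neg_zero]

theorem adj (S : Setting B g) (x y : V) : B (g x) y = B x (g.symm y) := by
  conv_lhs => rw [← g.apply_symm_apply y, S.iso]

theorem symm (S : Setting B g) : Setting B g.symm :=
  ⟨S.alt, S.nd, S.dim, fun x y => by rw [← S.iso, g.apply_symm_apply, g.apply_symm_apply]⟩

theorem neg (S : Setting B g) : Setting B (g.trans (LinearEquiv.neg F)) :=
  ⟨S.alt, S.nd, S.dim, fun x y => by simp [S.iso]⟩

theorem exists_apply_ne (S : Setting B g) {v : V} (hv : v ≠ 0) : ∃ w, B v w ≠ 0 := by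
  by_contra h
  push Not at h
  exact hv (S.nd.1 v h)

/-- Totally isotropic subspaces have dimension at most three. -/
theorem finrank_le_three (S : Setting B g) {W : Submodule F V} (h : ∀ x ∈ W, ∀ y ∈ W, B x y = 0) :
    finrank F W ≤ 3 := by
  haveI := S.finiteDimensional
  have h1 : W ≤ B.orthogonal W := fun x hx y hy => h y hy x hx
  have h2 := Submodule.finrank_mono h1
  rw [LinearMap.BilinForm.finrank_orthogonal S.nd, S.dim] at h2
  omega

/-- A `g`-invariant plane on which the form does not vanish. -/
theorem hasPlane_of_invariant (S : Setting B g) {W : Submodule F V} (h2 : finrank F W = 2)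
    (hnd : ∀ x ∈ W, (∀ y ∈ W, B x y = 0) → x = 0) (hg : ∀ x ∈ W, g x ∈ W) : HasPlane B g := by
  haveI := S.finiteDimensional
  obtain ⟨v, hv, hv0⟩ := W.exists_mem_ne_zero_of_ne_bot (by
    intro h; rw [h, finrank_bot] at h2; omega)
  obtain ⟨w, hw, hvw⟩ : ∃ w ∈ W, B v w ≠ 0 := by
    by_contra hcon
    push Not at hcon
    exact hv0 (hnd v hv hcon)
  have hli : LinearIndependent F ![v, w] := by
    rw [LinearIndependent.pair_iff' hv0]
    intro a ha
    rw [← ha, map_smul, S.alt, smul_zero] at hvw
    exact hvw rfl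
  have hs : Submodule.span F {v, w} = W := by
    refine Submodule.eq_of_le_of_finrank_eq (Submodule.span_le.mpr ?_) ?_
    · rintro x (rfl | rfl) <;> assumption
    · rw [h2, ← Matrix.range_cons_cons_empty v w Matrix.vecEmpty, finrank_span_eq_card hli, Fintype.card_fin]
  exact hasPlane_of_ne hvw (hs ▸ hg v hv) (hs ▸ hg w hw)

/-- An involution, and more generally `g² = c g - 1`, fixes a plane. -/
theorem hasPlane_of_quadratic (S : Setting B g) (h2 : (2 : F) ≠ 0) (c : F)
    (hq : ∀ v, g (g v) = c • g v + (-1 : F) • v) : HasPlane B g := by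
  haveI := S.finiteDimensional
  by_cases h : ∃ v, B v (g v) ≠ 0
  · obtain ⟨v, hv⟩ := h
    exact hasPlane_of_quad hv _ _ (hq v)
  push Not at h
  have hinv : ∀ x, g (g x) = x := fun x => by
    refine sub_eq_zero.mp (S.nd.1 _ fun w => ?_)
    have h1 := h (g x + w)
    simp only [map_add, LinearMap.add_apply, S.iso, h, zero_add, add_zero] at h1
    rw [map_sub, LinearMap.sub_apply, S.skew w (g (g x))]
    linear_combination -h1
  obtain ⟨v, ε, hv0, hε, hεv⟩ : ∃ (v : V) (ε : F), v ≠ 0 ∧ ε * ε = 1 ∧ g v = ε • v := by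
    obtain ⟨x, hx⟩ : ∃ x : V, x ≠ 0 := by
      have : Nontrivial V := Module.nontrivial_of_finrank_pos (R := F) (by rw [S.dim]; norm_num)
      exact exists_ne 0
    by_cases hx' : g x + x = 0
    · exact ⟨x, -1, hx, by ring, by rw [neg_one_smul]; exact eq_neg_of_add_eq_zero_left hx'⟩
    · exact ⟨g x + x, 1, hx', mul_one 1, by rw [map_add, hinv, one_smul, add_comm]⟩
  obtain ⟨u, hu⟩ := S.exists_apply_ne hv0
  have he : B v (g u) = ε * B v u := by
    have h1 := S.iso v u
    rw [hεv, map_smul, LinearMap.smul_apply, smul_eq_mul] at h1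
    linear_combination ε * h1 - B v (g u) * hε
  refine hasPlane_of_ne (v := v) (w := u + ε • g u) ?_ ?_ ?_
  · rw [map_add, map_smul, he, smul_eq_mul, ← mul_assoc, hε, one_mul, ← two_mul]
    exact mul_ne_zero h2 hu
  · exact Submodule.mem_span_pair.mpr ⟨ε, 0, by rw [hεv]; simp⟩
  · refine Submodule.mem_span_pair.mpr ⟨0, ε, ?_⟩
    rw [map_add, map_smul, hinv]
    match_scalars <;> first | ring1 | linear_combination hε | linear_combination -hε

end Setting

/-- The Galois automorphism of a cubic extension and an element of trace one whose square has trace zero. -/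
structure Cubic (F E : Type*) [Field F] [Field E] [Algebra F E] where
  φ : E ≃ₐ[F] E
  θ : E
  basis : Basis (Fin 3) F E
  cube : ∀ x, φ (φ (φ x)) = x
  trace_eq : ∀ x, algebraMap F E (Algebra.trace F E x) = x + φ x + φ (φ x)
  trace_θ : Algebra.trace F E θ = 1
  trace_sq : Algebra.trace F E (θ * θ) = 0
  trace_one : Algebra.trace F E (θ * φ θ) = -1
  trace_two : Algebra.trace F E (θ * φ (φ θ)) = -1
  basis_eq : ⇑basis = ![θ, φ θ, φ (φ θ)]

theorem exists_cubic [Finite F] [Finite E] (h3 : (3 : F) = 0) (hE : finrank F E = 3) :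
    Nonempty (Cubic F E) := by
  classical
  haveI : Fintype F := Fintype.ofFinite F
  haveI : Fintype E := Fintype.ofFinite E
  set φ := FiniteField.frobeniusAlgEquivOfAlgebraic F E
  have hord : orderOf φ = 3 := (FiniteField.orderOf_frobeniusAlgEquivOfAlgebraic F E).trans hE
  have hpow : φ ^ 3 = 1 := hord ▸ pow_orderOf_eq_one φ
  have hcube : ∀ x, φ (φ (φ x)) = x := fun x => DFunLike.congr_fun hpow x
  have hcard : Fintype.card (E ≃ₐ[F] E) = 3 := by
    rw [← Nat.card_eq_fintype_card, IsGalois.card_aut_eq_finrank, hE]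
  have hinj : Function.Injective fun i : Fin 3 => φ ^ (i : ℕ) := fun i j h =>
    Fin.ext (pow_injOn_Iio_orderOf (by rw [hord]; exact i.2) (by rw [hord]; exact j.2) h)
  have htr : ∀ x, algebraMap F E (Algebra.trace F E x) = x + φ x + φ (φ x) := fun x => by
    rw [trace_eq_sum_automorphisms, ← Equiv.sum_comp (Equiv.ofBijective _
      ((Fintype.bijective_iff_injective_and_card _).mpr ⟨hinj, by rw [hcard, Fintype.card_fin]⟩))]
    simp [Fin.sum_univ_three, pow_succ]
  obtain ⟨θ₀, hθ₀⟩ := Algebra.trace_surjective F E 1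
  set θ := θ₀ + algebraMap F E (Algebra.trace F E (θ₀ * θ₀)) with hθ
  have h1 : ∀ c : F, Algebra.trace F E (algebraMap F E c) = 0 := fun c => by
    rw [Algebra.trace_algebraMap, hE, nsmul_eq_mul, Nat.cast_ofNat, h3, zero_mul]
  have ht : Algebra.trace F E θ = 1 := by rw [hθ, map_add, h1, add_zero, hθ₀]
  have hsq : Algebra.trace F E (θ * θ) = 0 := by
    set t := Algebra.trace F E (θ₀ * θ₀) with htdef
    rw [hθ, show (θ₀ + algebraMap F E t) * (θ₀ + algebraMap F E t) =
      θ₀ * θ₀ + (2 * t) • θ₀ + algebraMap F E (t * t) by rw [Algebra.smul_def, map_mul, map_mul, map_ofNat]; ring,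
      map_add, map_add, map_smul, h1, hθ₀, ← htdef, smul_eq_mul]
    linear_combination t * h3
  have hinv : ∀ x, Algebra.trace F E (φ x) = Algebra.trace F E x := fun x => Algebra.trace_eq_of_algEquiv φ x
  have h21 : Algebra.trace F E (θ * φ (φ θ)) = Algebra.trace F E (θ * φ θ) := by
    rw [← hinv (θ * φ (φ θ)), map_mul, hcube, mul_comm]
  have h11 : Algebra.trace F E (θ * φ θ) = -1 := by
    have h := congrArg (fun y => Algebra.trace F E (θ * y)) (htr θ)
    simp only [ht, map_one, mul_one, mul_add, map_add, hsq, h21] at h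
    linear_combination h + Algebra.trace F E (θ * φ θ) * h3
  have hli : LinearIndependent F ![θ, φ θ, φ (φ θ)] := by
    rw [Fintype.linearIndependent_iff]
    intro g hg
    rw [Fin.sum_univ_three] at hg
    simp only [Matrix.cons_val_zero, Matrix.cons_val_one, Matrix.cons_val] at hg
    have h0 := congrArg (fun y => Algebra.trace F E (θ * y)) hg
    have h1' := congrArg (fun y => Algebra.trace F E (θ * φ y)) hg
    have h2' := congrArg (fun y => Algebra.trace F E (θ * φ (φ y))) hg
    simp only [map_add, map_smul, map_zero, mul_add, mul_smul_comm, mul_zero, smul_eq_mul, hcube, hsq,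
      h21, h11] at h0 h1' h2'
    intro i
    fin_cases i
    · show g 0 = 0
      linear_combination h1' + h2' - h0 + g 0 * h3
    · show g 1 = 0
      linear_combination h0 + h1' - h2' + g 1 * h3
    · show g 2 = 0
      linear_combination h0 + h2' - h1' + g 2 * h3
  exact ⟨⟨φ, θ, basisOfLinearIndependentOfCardEqFinrank hli (by rw [hE]; rfl), hcube, htr, ht, hsq, h11,
    h21.trans h11, coe_basisOfLinearIndependentOfCardEqFinrank hli _⟩⟩

theorem Cubic.trace_φ (K : Cubic F E) (x : E) : Algebra.trace F E (K.φ x) = Algebra.trace F E x :=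
  Algebra.trace_eq_of_algEquiv K.φ x

theorem Cubic.finrank_eq (K : Cubic F E) : finrank F E = 3 := by
  rw [finrank_eq_card_basis K.basis, Fintype.card_fin]

/-- The form of the model is non-degenerate. -/
theorem detForm_nondegenerate [FiniteDimensional F E] [Algebra.IsSeparable F E] :
    (detForm F E).Nondegenerate := by
  have h0 : ∀ a : E, (∀ b, Algebra.trace F E (a * b) = 0) → a = 0 := fun a h =>
    (traceForm_nondegenerate F E).1 a h
  have h1 : ∀ p : E × E, (∀ q, detForm F E p q = 0) → p = 0 := fun p hp => by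
    refine Prod.ext (h0 _ fun b => ?_) (h0 _ fun b => ?_)
    · simpa [detForm_apply] using hp (0, b)
    · simpa [detForm_apply] using hp (b, 0)
  refine ⟨h1, fun p hp => h1 p fun q => ?_⟩
  have h := detForm_self (F := F) (p + q)
  simp only [map_add, LinearMap.add_apply, detForm_self, zero_add, add_zero] at h
  rw [hp q, zero_add] at h
  exact h

end CfsgLib.NormalCover.SympSix
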