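import Cfsg.Agent.Lib.NormalCover.SympSixBase

/-!
A regular unipotent isometry is semilinear over the cubic extension: it has the same normal form as the
semilinear map `(x, y) ↦ (φ x + θ φ y, φ y)`.
-/

set_option autoImplicit false
set_option linter.unusedSectionVars false
set_option linter.style.haveILetI false

namespace CfsgLib.NormalCover.SympSix

open Module

variable {F : Type*} [Field F] {E : Type*} [Field E] [Algebra F E]
variable {V : Type*} [AddCommGroup V] [Module F V]

/-- The normal form of a regular unipotent isometry. -/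
structure Chain (B : LinearMap.BilinForm F V) (g : V ≃ₗ[F] V) (z : Module.End F V)
    (v : Basis (Fin 6) F V) (ω : F) : Prop where
  ne_zero : ω ≠ 0
  gram : ∀ i j : Fin 6, B (v i) (v j) = if (i : ℕ) + j = 5 then (-1) ^ (i : ℕ) * ω else 0
  shift : ∀ i : Fin 6, z (v i) = if h : (i : ℕ) + 1 < 6 then v ⟨i + 1, h⟩ else 0
  formula : ∀ x, g x = x - z x - z (z x) + z (z (z (z x)))

theorem exists_chain (h3 : (3 : F) = 0) {B : LinearMap.BilinForm F V} {g : V ≃ₗ[F] V} (S : Setting B g)
    (h6 : ((g.toLinearMap : Module.End F V) - 1) ^ 6 = 0) (h5 : ((g.toLinearMap : Module.End F V) - 1) ^ 5 ≠ 0) :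
    ∃ (z : Module.End F V) (v : Basis (Fin 6) F V) (ω : F), Chain B g z v ω := by
  classical
  haveI := S.finiteDimensional
  have h2 : (2 : F) ≠ 0 := fun h => one_ne_zero (α := F) (by linear_combination h3 - h)
  have hne3 : ∀ X : Module.End F V, X + X + X = 0 := fun X => by
    rw [show X + X + X = (3 : F) • X by module, h3, zero_smul]
  set G : Module.End F V := g.toLinearMap with hG
  set Gi : Module.End F V := g.symm.toLinearMap with hGi
  have hgi : G * Gi = 1 := LinearMap.ext fun x => g.apply_symm_apply x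
  have hig : Gi * G = 1 := LinearMap.ext fun x => g.symm_apply_apply x
  set u := G - 1 with hu
  set z := G - Gi with hz
  set X := Gi * (u + 2) with hX
  have hzX : z = X * u := by
    rw [hX, hz, hu]
    calc G - Gi = Gi * G * G - Gi := by rw [hig, one_mul]
      _ = _ := by noncomm_ring
  have cGu : Commute u Gi := by
    show (G - 1) * Gi = Gi * (G - 1)
    rw [sub_mul, mul_sub, hgi, hig, one_mul, mul_one]
  have cXu : Commute X u := (Commute.mul_left cGu.symm ((Commute.refl u).add_left (Commute.ofNat_left 2 u)))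
  have hz6 : z ^ 6 = 0 := by rw [hzX, cXu.mul_pow, h6, mul_zero]
  have hu5u : u * u ^ 5 = 0 := by rw [← pow_succ', h6]
  have hX5 : X * u ^ 5 = 2 * u ^ 5 := by
    have hg5 : Gi * u ^ 5 = u ^ 5 := by
      calc Gi * u ^ 5 = Gi * (G * u ^ 5) := by
            congr 1
            rw [show G = u + 1 by rw [hu, sub_add_cancel], add_mul, hu5u, one_mul, zero_add]
        _ = u ^ 5 := by rw [← mul_assoc, hig, one_mul]
    rw [hX, mul_assoc, add_mul, hu5u, zero_add, two_mul, mul_add, hg5]
  have hz5 : z ^ 5 = 32 * u ^ 5 := by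
    rw [hzX, cXu.mul_pow]
    have hc : Commute X (2 : Module.End F V) := Commute.ofNat_right X 2
    calc X ^ 5 * u ^ 5 = X ^ 4 * (X * u ^ 5) := by rw [← mul_assoc, ← pow_succ]
      _ = 2 * (X ^ 4 * u ^ 5) := by rw [hX5, ← mul_assoc, (hc.pow_left 4).eq, mul_assoc]
      _ = 2 * (X ^ 3 * (X * u ^ 5)) := by rw [← mul_assoc (X ^ 3), ← pow_succ]
      _ = 2 * (2 * (X ^ 3 * u ^ 5)) := by rw [hX5, ← mul_assoc (X ^ 3), (hc.pow_left 3).eq, mul_assoc 2 (X ^ 3)]
      _ = 2 * (2 * (X ^ 2 * (X * u ^ 5))) := by rw [← mul_assoc (X ^ 2), ← pow_succ]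
      _ = 2 * (2 * (2 * (X ^ 2 * u ^ 5))) := by rw [hX5, ← mul_assoc (X ^ 2), (hc.pow_left 2).eq, mul_assoc 2 (X ^ 2)]
      _ = 2 * (2 * (2 * (X * (X * u ^ 5)))) := by rw [← mul_assoc X X, sq]
      _ = 2 * (2 * (2 * (2 * (X * u ^ 5)))) := by rw [hX5, ← mul_assoc X, hc.eq, mul_assoc 2 X, hX5]
      _ = _ := by rw [hX5]; noncomm_ring
  have hz5ne : z ^ 5 ≠ 0 := by
    rw [hz5]
    have h32 : (32 : Module.End F V) = algebraMap F (Module.End F V) 32 := (map_ofNat _ 32).symm
    have h2' : (32 : F) ≠ 0 := by rw [show (32 : F) = 2 ^ 5 by norm_num]; exact pow_ne_zero _ h2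
    rw [h32, ← Algebra.smul_def]
    exact smul_ne_zero h2' h5
  have hadj : ∀ x y, B (z x) y = -B x (z y) := fun x y => by
    simp only [hz, hG, hGi, LinearMap.sub_apply, map_sub, LinearEquiv.coe_coe]
    rw [S.adj, S.symm.adj, LinearEquiv.symm_symm]
    ring
  have hadjn : ∀ (n : ℕ) x y, B ((z ^ n) x) y = (-1) ^ n * B x ((z ^ n) y) := by
    intro n
    induction n with
    | zero => intro x y; simp
    | succ n ih =>
      intro x y
      rw [pow_succ, Module.End.mul_apply, ih, hadj, ← Module.End.mul_apply, ← pow_succ',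
        ← pow_succ, pow_succ (-1 : F) n]
      ring
  have heven : ∀ (n : ℕ) x, Even n → B x ((z ^ n) x) = 0 := by
    intro n x hn
    obtain ⟨m, rfl⟩ := hn
    have h := hadjn m x ((z ^ m) x)
    rw [← Module.End.mul_apply, ← pow_add, S.alt] at h
    exact (mul_eq_zero.mp h.symm).resolve_left (pow_ne_zero _ (by norm_num))
  obtain ⟨e, he⟩ : ∃ e, B e ((z ^ 5) e) ≠ 0 := by
    by_contra h
    push Not at h
    refine hz5ne (LinearMap.ext fun y => S.nd.2 _ fun x => ?_)
    have hp := h (x + y)
    simp only [map_add, LinearMap.add_apply, h, zero_add, add_zero] at hp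
    have hs : B y ((z ^ 5) x) = B x ((z ^ 5) y) := by
      rw [S.skew ((z ^ 5) x) y, hadjn]; ring
    exact (mul_eq_zero.mp (show (2 : F) * B x ((z ^ 5) y) = 0 by linear_combination hp - hs)).resolve_left h2
  -- normalise the odd moments
  set b₁ := B e (z e)
  set b₃ := B e ((z ^ 3) e)
  set ω := B e ((z ^ 5) e) with hω
  set α := b₃ / ω with hα
  set β := (b₁ + 2 * α * b₃ + α ^ 2 * ω) / ω with hβ
  have hαω : α * ω = b₃ := div_mul_cancel₀ _ he
  have hβω : β * ω = b₁ + 2 * α * b₃ + α ^ 2 * ω := div_mul_cancel₀ _ he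
  set e' := e + α • (z ^ 2) e + β • (z ^ 4) e with he'
  have hzp : ∀ (i j : ℕ) x, (z ^ i) ((z ^ j) x) = (z ^ (i + j)) x := fun i j x => by
    rw [← Module.End.mul_apply, ← pow_add]
  have hbig : ∀ (n : ℕ) x, 6 ≤ n → (z ^ n) x = 0 := fun n x hn => by
    rw [← Nat.sub_add_cancel hn, pow_add, hz6, mul_zero, LinearMap.zero_apply]
  have hmom : ∀ n, B e' ((z ^ n) e') = B e ((z ^ n) e) + 2 * α * B e ((z ^ (n + 2)) e) +
      (α ^ 2 + 2 * β) * B e ((z ^ (n + 4)) e) := fun n => by
    have hb : ∀ m, 6 ≤ m → B e ((z ^ m) e) = 0 := fun m hm => by rw [hbig m e hm, map_zero]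
    simp only [he', map_add, map_smul, LinearMap.add_apply, LinearMap.smul_apply, smul_eq_mul, hadjn, hzp]
    simp only [show 2 + n = n + 2 by ring, show 4 + n = n + 4 by ring, show 2 + (n + 2) = n + 4 by ring,
      show 2 + (n + 4) = n + 6 by ring, show 4 + (n + 2) = n + 6 by ring, show 4 + (n + 4) = n + 8 by ring,
      hb (n + 6) (by omega), hb (n + 8) (by omega)]
    ring
  have hmom' : ∀ n, B e' ((z ^ n) e') = if n = 5 then ω else 0 := by
    intro n
    rcases Nat.even_or_odd n with hn | hn
    · rw [heven n e' hn, if_neg (by rintro rfl; exact absurd hn (by decide))]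
    rw [hmom]
    by_cases h : 6 ≤ n
    · rw [hbig n e h, hbig (n + 2) e (by omega), hbig (n + 4) e (by omega), map_zero, if_neg (by omega)]
      ring
    have : n = 1 ∨ n = 3 ∨ n = 5 := by obtain ⟨m, rfl⟩ := hn; omega
    rcases this with rfl | rfl | rfl
    · rw [if_neg (by omega), pow_one]
      show b₁ + 2 * α * b₃ + (α ^ 2 + 2 * β) * ω = 0
      linear_combination 2 * hβω + (b₁ + 2 * α * b₃ + α ^ 2 * ω) * h3
    · rw [if_neg (by omega)]
      show b₃ + 2 * α * ω + (α ^ 2 + 2 * β) * B e ((z ^ 7) e) = 0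
      rw [hbig 7 e (by omega), map_zero]
      linear_combination 2 * hαω + b₃ * h3
    · rw [if_pos rfl, hbig 7 e (by omega), hbig 9 e (by omega), map_zero]; ring
  have hgram : ∀ i j : Fin 6, B ((z ^ (i : ℕ)) e') ((z ^ (j : ℕ)) e') =
      if (i : ℕ) + j = 5 then (-1) ^ (i : ℕ) * ω else 0 := fun i j => by
    rw [hadjn, hzp, hmom', mul_ite, mul_zero]
  have hli : LinearIndependent F fun i : Fin 6 => (z ^ (i : ℕ)) e' := by
    rw [Fintype.linearIndependent_iff]
    intro c hc i
    have hfun := congrArg (fun x => B x ((z ^ (i.rev : ℕ)) e')) hc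
    simp only [map_sum, LinearMap.sum_apply, map_smul, LinearMap.smul_apply, hgram, map_zero,
      LinearMap.zero_apply, smul_eq_mul] at hfun
    rw [Finset.sum_eq_single i] at hfun
    · rw [if_pos (by rw [Fin.val_rev]; omega)] at hfun
      exact (mul_eq_zero.mp hfun).resolve_right (mul_ne_zero (pow_ne_zero _ (by norm_num)) he)
    · intro j _ hj
      rw [if_neg (fun h => hj (Fin.ext (by rw [Fin.val_rev] at h; omega))), mul_zero]
    · simp
  let v := basisOfLinearIndependentOfCardEqFinrank hli (by rw [S.dim]; rfl)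
  have hv : ∀ i, v i = (z ^ (i : ℕ)) e' := fun i => by
    simp [v, coe_basisOfLinearIndependentOfCardEqFinrank]
  refine ⟨z, v, ω, he, fun i j => by rw [hv, hv, hgram], fun i => ?_, ?_⟩
  · rw [hv, ← Module.End.mul_apply, ← pow_succ']
    split_ifs with h
    · rw [hv]
    · exact hbig _ _ (by omega)
  · have czG : Commute z G := by
      show (G - Gi) * G = G * (G - Gi)
      rw [sub_mul, mul_sub, hig, hgi]
    set P := 1 - z - z ^ 2 + z ^ 4 with hP
    have cPG : Commute P G :=
      (((Commute.one_left G).sub_left czG).sub_left (czG.pow_left 2)).add_left (czG.pow_left 4)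
    have cPz : Commute P z := (((Commute.one_left z).sub_left (Commute.refl z)).sub_left
      ((Commute.refl z).pow_left 2)).add_left ((Commute.refl z).pow_left 4)
    have hP2 : P * P - z * P = 1 := by
      have e1 : P * P - z * P - 1 = (z ^ 4 + z ^ 4 + z ^ 4) - (z + z + z) + (z ^ 3 + z ^ 3 + z ^ 3) -
          (z ^ 5 + z ^ 5 + z ^ 5) - z ^ 6 - z ^ 6 + z ^ 6 * z ^ 2 := by
        rw [hP]; noncomm_ring
      rw [hne3, hne3, hne3, hne3, hz6] at e1
      simpa [sub_eq_zero] using e1
    have hG2 : G * G - G * z = 1 := by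
      rw [← mul_sub, hz, sub_sub_cancel, hgi]
    have hprod : (G - P) * (G + P - z) = 0 := by
      calc (G - P) * (G + P - z) = (G * G - G * z) - (P * P - z * P) + (G * P - P * G) + (P * z - z * P) := by
            noncomm_ring
        _ = 0 := by rw [hG2, hP2, cPG.eq, cPz.eq]; simp
    have hnu : IsNilpotent u := ⟨6, h6⟩
    have hnz : IsNilpotent z := ⟨6, hz6⟩
    have cuz : Commute u z := by rw [hu]; exact (czG.symm).sub_left (Commute.one_left z)
    have hunit : IsUnit (G + P - z) := by
      have e1 : G + P - z = algebraMap F (Module.End F V) 2 + (u + z * (-2 - z + z ^ 3)) := by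
        rw [map_ofNat, hP, hu, show (2 : Module.End F V) = 1 + 1 from one_add_one_eq_two.symm]; noncomm_ring
      rw [e1]
      refine IsNilpotent.isUnit_add_left_of_commute ?_ ((Ne.isUnit h2).map _)
        (Algebra.commutes' _ _).symm
      have c1 : Commute z (-2 - z + z ^ 3) :=
        (((Commute.ofNat_right z 2).neg_right).sub_right (Commute.refl z)).add_right
          ((Commute.refl z).pow_right 3)
      refine Commute.isNilpotent_add ?_ hnu (c1.isNilpotent_mul_right hnz)
      exact cuz.mul_right ((((Commute.ofNat_right u 2).neg_right).sub_right cuz).add_right (cuz.pow_right 3))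
    have hGP : G = P := sub_eq_zero.mp (hunit.mul_left_eq_zero.mp hprod)
    intro x
    calc g x = G x := rfl
      _ = P x := by rw [hGP]
      _ = _ := by simp [hP, pow_succ, Module.End.mul_apply]

/-- The semilinear regular unipotent element. -/
noncomputable def regularMap (K : Cubic F E) : (E × E) ≃ₗ[F] (E × E) where
  toFun p := (K.φ p.1 + K.θ * K.φ p.2, K.φ p.2)
  map_add' p q := by refine Prod.ext ?_ ?_ <;> simp [mul_add]; abel
  map_smul' a p := by refine Prod.ext ?_ ?_ <;> simp [mul_smul_comm]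
  invFun p := (K.φ.symm (p.1 - K.θ * p.2), K.φ.symm p.2)
  left_inv p := by simp
  right_inv p := by simp

theorem regularMap_apply (K : Cubic F E) (p : E × E) :
    regularMap K p = (K.φ p.1 + K.θ * K.φ p.2, K.φ p.2) := rfl

theorem exists_chain_regular [FiniteDimensional F E] [Algebra.IsSeparable F E] (h3 : (3 : F) = 0)
    (K : Cubic F E) :
    ∃ (z : Module.End F (E × E)) (v : Basis (Fin 6) F (E × E)) (ω : F),
      Chain (detForm F E) (regularMap K) z v ω := by
  have S : Setting (detForm F E) (regularMap K) :=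
    { alt := detForm_self
      nd := detForm_nondegenerate
      dim := by rw [Module.finrank_prod, K.finrank_eq]
      iso := fun p q => by
        rw [regularMap_apply, regularMap_apply, detForm_apply, detForm_apply,
          ← K.trace_φ (p.1 * q.2 - p.2 * q.1)]
        congr 1
        simp only [map_sub, map_mul]
        ring }
  set Y : Module.End F (E × E) := (regularMap K).toLinearMap with hY
  have h3' : ∀ p : E × E, (3 : F) • p = 0 := fun p => by rw [h3, zero_smul]
  have hY3 : ∀ p : E × E, ((Y - 1) ^ (3 : ℕ) : Module.End F (E × E)) p = (p.2, 0) := by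
    intro p
    have e : ((Y - 1) ^ (3 : ℕ) : Module.End F (E × E)) p = Y (Y (Y p)) - p + (3 : F) • (Y p - Y (Y p)) := by
      simp only [pow_succ, pow_zero, Module.End.mul_apply, Module.End.one_apply, LinearMap.sub_apply, map_sub]
      module
    rw [e, h3', add_zero, hY]
    have ht := K.trace_eq K.θ
    rw [K.trace_θ, map_one] at ht
    refine Prod.ext ?_ ?_
    · simp [regularMap_apply, K.cube]
      linear_combination -p.2 * ht
    · simp [regularMap_apply, K.cube]
  refine exists_chain h3 S ?_ ?_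
  · refine LinearMap.ext fun p => ?_
    rw [show 6 = 3 + 3 from rfl, pow_add, Module.End.mul_apply, hY3, hY3]
    rfl
  · intro h
    have h1 := LinearMap.congr_fun h ((0, K.θ) : E × E)
    rw [show 5 = 2 + 3 from rfl, pow_add, Module.End.mul_apply, hY3, LinearMap.zero_apply] at h1
    have h2 := congrArg Prod.fst h1
    have ht := K.trace_eq K.θ
    rw [K.trace_θ, map_one] at ht
    have h3E : (3 : E) = 0 := by rw [← map_ofNat (algebraMap F E) 3, h3, map_zero]
    simp [hY, pow_succ, Module.End.mul_apply, regularMap_apply] at h2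
    exact one_ne_zero (α := E) (by linear_combination h2 + ht + K.φ K.θ * h3E)

/-- A regular unipotent isometry has a model. -/
theorem hasModel_of_regular [FiniteDimensional F E] [Algebra.IsSeparable F E] (h3 : (3 : F) = 0)
    (K : Cubic F E) {B : LinearMap.BilinForm F V} {g : V ≃ₗ[F] V} (S : Setting B g)
    (h6 : ((g.toLinearMap : Module.End F V) - 1) ^ 6 = 0) (h5 : ((g.toLinearMap : Module.End F V) - 1) ^ 5 ≠ 0) :
    HasModel E B g := by
  obtain ⟨z, v, ω, hc⟩ := exists_chain h3 S h6 h5
  obtain ⟨z', v', ω', hc'⟩ := exists_chain_regular h3 K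
  set ρ := ω / ω' with hρ
  have hρ0 : ρ ≠ 0 := div_ne_zero hc.ne_zero hc'.ne_zero
  let T : V ≃ₗ[F] E × E := v.equiv v' (Equiv.refl _)
  have hT : ∀ i, T (v i) = v' i := fun i => by simp [T]
  have hzT : ∀ x, T (z x) = z' (T x) := by
    refine LinearMap.congr_fun (v.ext fun i => ?_ : T.toLinearMap ∘ₗ z = z' ∘ₗ T.toLinearMap)
    simp only [LinearMap.comp_apply, LinearEquiv.coe_coe, hT, hc.shift, hc'.shift]
    split_ifs <;> simp [hT]
  have hgT : ∀ x, T (g x) = regularMap K (T x) := fun x => by
    rw [hc.formula, hc'.formula]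
    simp only [map_add, map_sub, hzT]
  have hBT : ∀ x y, B x y = ρ * detForm F E (T x) (T y) := by
    intro x y
    refine LinearMap.congr_fun (LinearMap.congr_fun (LinearMap.ext_basis v v
      (B := B) (B' := ρ • (detForm F E).compl₁₂ T.toLinearMap T.toLinearMap) fun i j => ?_) x) y
    simp only [LinearMap.smul_apply, LinearMap.compl₁₂_apply, LinearEquiv.coe_coe, hT, hc.gram, hc'.gram,
      smul_eq_mul, hρ]
    split_ifs
    · field_simp [hc'.ne_zero]
    · rw [mul_zero]
  let D : (E × E) ≃ₗ[F] (E × E) :=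
    { toFun := fun p => (ρ • p.1, p.2)
      invFun := fun p => (ρ⁻¹ • p.1, p.2)
      map_add' := fun p q => by simp
      map_smul' := fun a p => by simp [smul_comm a ρ]
      left_inv := fun p => by simp [hρ0]
      right_inv := fun p => by simp [hρ0] }
  refine ⟨T.trans D, fun x y => ?_, K.φ, fun a p => ?_⟩
  · rw [hBT, detForm_apply, detForm_apply, ← smul_eq_mul, ← map_smul]
    congr 1
    simp [D, smul_sub, smul_mul_assoc, mul_smul_comm]
  · have hs : ∀ q, T ((T.trans D).symm q) = D.symm q := fun q => by simp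
    simp only [LinearEquiv.trans_apply, hgT, hs, regularMap_apply]
    refine Prod.ext ?_ ?_ <;>
      simp [D, mul_add, smul_add, mul_smul_comm, mul_left_comm, hρ0]

end CfsgLib.NormalCover.SympSix
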