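import Cfsg.Agent.Lib.NormalCover.SympSixFree
import Cfsg.Agent.Lib.NormalCover.SympSixRegular
import Cfsg.Agent.Lib.Omega.SympPieces

/-!
The dichotomy for isometries of a six-dimensional symplectic space in characteristic three, by the primary
decomposition of `t = g + g⁻¹`.
-/

set_option autoImplicit false
set_option linter.unusedSectionVars false
set_option linter.style.haveILetI false

namespace CfsgLib.NormalCover.SympSix

open Module Polynomial

variable {F : Type*} [Field F] {E : Type*} [Field E] [Algebra F E]
variable {V : Type*} [AddCommGroup V] [Module F V]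
variable {B : LinearMap.BilinForm F V} {g : V ≃ₗ[F] V}

/-- `g + g⁻¹`. -/
def tee (g : V ≃ₗ[F] V) : Module.End F V := g.toLinearMap + g.symm.toLinearMap

theorem tee_apply (g : V ≃ₗ[F] V) (x : V) : tee g x = g x + g.symm x := rfl

theorem tee_g (g : V ≃ₗ[F] V) (x : V) : tee g (g x) = g (tee g x) := by
  simp [tee_apply]

theorem aeval_tee_g (g : V ≃ₗ[F] V) (p : F[X]) (x : V) : aeval (tee g) p (g x) = g (aeval (tee g) p x) := by
  induction p using Polynomial.induction_on' with
  | add a b ha hb => simp [ha, hb]
  | monomial n a =>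
    simp only [aeval_monomial, Module.End.mul_apply, Module.algebraMap_end_apply, map_smul]
    congr 1
    induction n with
    | zero => rfl
    | succ n ih => rw [pow_succ', Module.End.mul_apply, Module.End.mul_apply, ih, tee_g]

theorem Setting.aeval_adj (S : Setting B g) (p : F[X]) (x y : V) :
    B (aeval (tee g) p x) y = B x (aeval (tee g) p y) := by
  induction p using Polynomial.induction_on' with
  | add a b ha hb => simp [ha, hb]
  | monomial n a =>
    simp only [aeval_monomial, Module.End.mul_apply, Module.algebraMap_end_apply, map_smul,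
      LinearMap.smul_apply]
    congr 1
    induction n generalizing x with
    | zero => rfl
    | succ n ih =>
      rw [pow_succ, Module.End.mul_apply, ih, ← pow_succ, pow_succ', Module.End.mul_apply, tee_apply, tee_apply,
        map_add, map_add, LinearMap.add_apply, S.adj, S.symm.adj, LinearEquiv.symm_symm, add_comm]

theorem Setting.aeval_alt (S : Setting B g) (p : F[X]) (x : V) : B (aeval (tee g) p x) x = 0 := by
  induction p using Polynomial.induction_on' with
  | add a b ha hb => simp [ha, hb]
  | monomial n a =>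
    have hT : ∀ y, B (tee g y) y = 0 := fun y => by
      rw [tee_apply, map_add, LinearMap.add_apply, S.symm.adj, LinearEquiv.symm_symm, S.skew (g y) y]
      ring
    have hT' : ∀ (m : ℕ) u v, B ((tee g ^ m) u) v = B u ((tee g ^ m) v) := fun m u v => by
      simpa [aeval_X_pow] using S.aeval_adj (X ^ m) u v
    have key : B ((tee g ^ n) x) x = 0 := by
      obtain ⟨m, rfl | rfl⟩ : ∃ m, n = m + m ∨ n = m + (m + 1) := by
        rcases Nat.even_or_odd n with ⟨m, hm⟩ | ⟨m, hm⟩
        · exact ⟨m, Or.inl hm⟩
        · exact ⟨m, Or.inr (by omega)⟩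
      · rw [pow_add, Module.End.mul_apply, hT', S.alt]
      · rw [pow_add, Module.End.mul_apply, hT', pow_succ', Module.End.mul_apply, hT]
    simp [aeval_monomial, Module.End.mul_apply, Module.algebraMap_end_apply, key]

/-- Either a plane is fixed or the minimal polynomial of `g + g⁻¹` is a prime power. -/
theorem Setting.primary (S : Setting B g) :
    HasPlane B g ∨ ∃ (h : F[X]) (j : ℕ), Irreducible h ∧ h.Monic ∧ 1 ≤ j ∧ minpoly F (tee g) = h ^ j := by
  classical
  haveI := S.finiteDimensional
  haveI : Nontrivial V := Module.nontrivial_of_finrank_pos (R := F) (by rw [S.dim]; norm_num)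
  set T := tee g
  set m := minpoly F T with hm
  have hint : IsIntegral F T := IsIntegral.of_finite F T
  have hmon : m.Monic := minpoly.monic hint
  have hnu : ¬IsUnit m := minpoly.not_isUnit F T
  obtain ⟨h, hhm, hirr, hdvd⟩ := exists_monic_irreducible_factor m hnu
  obtain ⟨r, hr, hnr⟩ := (FiniteMultiplicity.of_prime_left hirr.prime hmon.ne_zero).exists_eq_pow_mul_and_not_dvd
  set j := multiplicity h m
  have hrmon : r.Monic := (hhm.pow j).of_mul_monic_left (hr ▸ hmon)
  have hj : 1 ≤ j := by
    by_contra h0
    rw [show j = 0 by omega, pow_zero, one_mul] at hr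
    exact hnr (hr ▸ hdvd)
  by_cases hr1 : r = 1
  · exact Or.inr ⟨h, j, hirr, hhm, hj, by rw [hr, hr1, mul_one]⟩
  left
  have hcop : IsCoprime (h ^ j) r := (hirr.coprime_iff_not_dvd.mpr hnr).pow_left
  set K₁ := LinearMap.ker (aeval T (h ^ j))
  set K₂ := LinearMap.ker (aeval T r)
  have hsup : K₁ ⊔ K₂ = ⊤ := by
    rw [Polynomial.sup_ker_aeval_eq_ker_aeval_mul_of_coprime T hcop, ← hr, hm, minpoly.aeval, LinearMap.ker_zero]
  have hdis : Disjoint K₁ K₂ := Polynomial.disjoint_ker_aeval_of_isCoprime T hcop
  obtain ⟨a, b, hab⟩ := hcop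
  have horth : ∀ x ∈ K₁, ∀ y ∈ K₂, B x y = 0 := by
    intro x hx y hy
    have hy' : y = aeval T (h ^ j) (aeval T a y) := by
      rw [← Module.End.mul_apply, ← map_mul, mul_comm]
      conv_lhs => rw [show y = aeval T (a * h ^ j + b * r) y by rw [hab, map_one, Module.End.one_apply]]
      rw [map_add, map_mul, map_mul, LinearMap.add_apply, Module.End.mul_apply (aeval T b),
        LinearMap.mem_ker.mp hy, map_zero, add_zero]
    rw [hy', ← S.aeval_adj, LinearMap.mem_ker.mp hx, map_zero, LinearMap.zero_apply]
  have hnd1 : ∀ x ∈ K₁, (∀ y ∈ K₁, B x y = 0) → x = 0 := by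
    intro x hx hxy
    refine S.nd.1 x fun z => ?_
    obtain ⟨p, hp, q, hq, rfl⟩ := Submodule.mem_sup.mp (show z ∈ K₁ ⊔ K₂ by rw [hsup]; trivial)
    rw [map_add, hxy p hp, horth x hx q hq, add_zero]
  have hnd2 : ∀ x ∈ K₂, (∀ y ∈ K₂, B x y = 0) → x = 0 := by
    intro x hx hxy
    refine S.nd.1 x fun z => ?_
    obtain ⟨p, hp, q, hq, rfl⟩ := Submodule.mem_sup.mp (show z ∈ K₁ ⊔ K₂ by rw [hsup]; trivial)
    rw [map_add, hxy q hq, S.skew p x, horth p hp x hx, neg_zero, zero_add]
  have h1 : K₁ ≠ ⊥ := by
    intro hb
    have : aeval T r = 0 := by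
      refine LinearMap.ext fun v => LinearMap.ker_eq_bot.mp hb ?_
      rw [LinearMap.zero_apply, map_zero, ← Module.End.mul_apply, ← map_mul, ← hr, hm, minpoly.aeval,
        LinearMap.zero_apply]
    have hd := natDegree_le_of_dvd (minpoly.dvd F T this) hrmon.ne_zero
    rw [← hm, hr, natDegree_mul (pow_ne_zero _ hirr.ne_zero) hrmon.ne_zero, natDegree_pow] at hd
    have := Nat.mul_pos (show 0 < j by omega) hirr.natDegree_pos
    omega
  have h2 : K₂ ≠ ⊥ := by
    intro hb
    have : aeval T (h ^ j) = 0 := by
      refine LinearMap.ext fun v => LinearMap.ker_eq_bot.mp hb ?_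
      rw [LinearMap.zero_apply, map_zero, ← Module.End.mul_apply, ← map_mul, mul_comm, ← hr, hm, minpoly.aeval,
        LinearMap.zero_apply]
    have hd := natDegree_le_of_dvd (minpoly.dvd F T this) (pow_ne_zero _ hirr.ne_zero)
    rw [← hm, hr, natDegree_mul (pow_ne_zero _ hirr.ne_zero) hrmon.ne_zero] at hd
    have := hrmon.natDegree_pos.mpr hr1
    omega
  have hsum : finrank F K₁ + finrank F K₂ = 6 := by
    rw [Submodule.finrank_add_eq_of_isCompl ⟨hdis, codisjoint_iff.mpr hsup⟩, S.dim]
  have e1 := Omega.SympPieces.even_finrank_of_nondegOn S.alt hnd1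
  have e2 := Omega.SympPieces.even_finrank_of_nondegOn S.alt hnd2
  have p1 : 0 < finrank F K₁ := Nat.pos_of_ne_zero fun h0 => h1 (Submodule.finrank_eq_zero.mp h0)
  have p2 : 0 < finrank F K₂ := Nat.pos_of_ne_zero fun h0 => h2 (Submodule.finrank_eq_zero.mp h0)
  have hinv : ∀ (p : F[X]) x, x ∈ LinearMap.ker (aeval T p) → g x ∈ LinearMap.ker (aeval T p) := fun p x hx => by
    rw [LinearMap.mem_ker] at hx ⊢
    rw [aeval_tee_g, hx, map_zero]
  obtain ⟨a1, ha1⟩ := e1
  obtain ⟨a2, ha2⟩ := e2
  by_cases hK : finrank F K₁ = 2
  · exact S.hasPlane_of_invariant hK hnd1 (hinv _)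
  · exact S.hasPlane_of_invariant (by omega : finrank F K₂ = 2) hnd2 (hinv _)

/-- The degree of the minimal polynomial is at most three. -/
theorem Setting.degree_le (S : Setting B g) {h : F[X]} {j : ℕ} (hirr : Irreducible h) (hj : 1 ≤ j)
    (hm : minpoly F (tee g) = h ^ j) : j * h.natDegree ≤ 3 := by
  classical
  haveI := S.finiteDimensional
  set T := tee g
  obtain ⟨v, hv⟩ : ∃ v, aeval T (h ^ (j - 1)) v ≠ 0 := by
    by_contra hcon
    push Not at hcon
    have hd := natDegree_le_of_dvd (minpoly.dvd F T (LinearMap.ext hcon : aeval T (h ^ (j - 1)) = 0))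
      (pow_ne_zero _ hirr.ne_zero)
    rw [hm, natDegree_pow, natDegree_pow] at hd
    have := Nat.mul_lt_mul_of_pos_right (show j - 1 < j by omega) hirr.natDegree_pos
    omega
  let ev : F[X] →ₗ[F] V := (LinearMap.applyₗ (R := F) v).comp (aeval (R := F) T).toLinearMap
  have hev : ∀ p, ev p = aeval T p v := fun p => rfl
  let evd := ev.comp (Polynomial.degreeLT F (j * h.natDegree)).subtype
  have hinj : Function.Injective evd := by
    rw [injective_iff_map_eq_zero]
    rintro ⟨p, hp⟩ hpv
    change aeval T p v = 0 at hpv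
    by_contra hne
    have hp0 : p ≠ 0 := fun h0 => hne (Subtype.ext h0)
    obtain ⟨i, hi, hass⟩ := (dvd_prime_pow hirr.prime j).mp (EuclideanDomain.gcd_dvd_right p (h ^ j))
    have hlt : i < j := by
      by_contra hge
      have hij : i = j := by omega
      have hd : h ^ j ∣ p := (hij ▸ hass).symm.dvd.trans (EuclideanDomain.gcd_dvd_left p (h ^ j))
      have hd' := natDegree_le_of_dvd hd hp0
      rw [natDegree_pow] at hd'
      have hp' := (natDegree_lt_iff_degree_lt hp0).mpr (Polynomial.mem_degreeLT.mp hp)
      omega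
    obtain ⟨u, hu⟩ := hass
    have hg : aeval T (EuclideanDomain.gcd p (h ^ j)) v = 0 := by
      rw [EuclideanDomain.gcd_eq_gcd_ab, map_add, map_mul, map_mul, LinearMap.add_apply, Module.End.mul_apply,
        Module.End.mul_apply, ← Module.End.mul_apply, ← map_mul, mul_comm p, map_mul, Module.End.mul_apply, hpv,
        map_zero, zero_add, ← hm, minpoly.aeval, LinearMap.zero_apply]
    apply hv
    have : h ^ (j - 1) = (h ^ (j - 1 - i) * u) * EuclideanDomain.gcd p (h ^ j) := by
      rw [show h ^ (j - 1) = h ^ (j - 1 - i) * h ^ i by rw [← pow_add]; congr 1; omega, ← hu]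
      ring
    rw [this, map_mul, Module.End.mul_apply, hg, map_zero]
  have hdim : finrank F (Polynomial.degreeLT F (j * h.natDegree)) = j * h.natDegree :=
    (LinearEquiv.finrank_eq (Polynomial.degreeLTEquiv F _)).trans (Module.finrank_fin_fun F)
  rw [← hdim, ← LinearMap.finrank_range_of_inj hinj]
  refine S.finrank_le_three ?_
  rintro _ ⟨p, rfl⟩ _ ⟨q, rfl⟩
  show B (aeval T p.1 v) (aeval T q.1 v) = 0
  rw [← S.aeval_adj, ← Module.End.mul_apply, ← map_mul, S.aeval_alt]

/-- An irreducible factor of degree three gives a model; degree two is impossible. -/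
theorem Setting.hasModel_of_field [Finite F] [Finite E] (S : Setting B g) (hE : finrank F E = 3)
    {h : F[X]} (hirr : Irreducible h) (hh : aeval (tee g) h = 0) (hk : 2 ≤ h.natDegree)
    (hk' : h.natDegree ≤ 3) : HasModel E B g := by
  classical
  haveI := S.finiteDimensional
  haveI : Fintype F := Fintype.ofFinite F
  haveI : Fintype E := Fintype.ofFinite E
  haveI : Module.Finite F E := Module.Finite.of_finite
  set T := tee g
  set k := h.natDegree with hkdef
  have haa : ∀ p x, B (aeval T p x) x = 0 := S.aeval_alt
  have haj : ∀ p u v, B (aeval T p u) v = B u (aeval T p v) := S.aeval_adj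
  have pair : ∀ e y, B e y ≠ 0 → ∀ p q : F[X], aeval T p e + aeval T q y = 0 → h ∣ p ∧ h ∣ q := by
    intro e y hey p q hpq
    have unit : ∀ r, ¬ h ∣ r → ∃ a, aeval T (a * r) = 1 := fun r hr => by
      obtain ⟨a, b, hab⟩ := (hirr.coprime_iff_not_dvd.mpr hr).symm
      refine ⟨a, ?_⟩
      have h1 := congrArg (aeval T) hab
      rw [map_add, map_mul (aeval T) b, hh, mul_zero, add_zero, map_one] at h1
      exact h1
    constructor
    · by_contra hp
      obtain ⟨a, ha⟩ := unit p hp
      have h1 := congrArg (fun x => B (aeval T a x) y) hpq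
      simp only [map_add, map_zero, LinearMap.add_apply, LinearMap.zero_apply, ← Module.End.mul_apply, ← map_mul,
        ha, Module.End.one_apply, haa, add_zero] at h1
      exact hey h1
    · by_contra hq
      obtain ⟨a, ha⟩ := unit q hq
      have h1 := congrArg (fun x => B e (aeval T a x)) hpq
      simp only [map_add, map_zero, ← Module.End.mul_apply, ← map_mul, ha, Module.End.one_apply,
        ← haj, haa, zero_add] at h1
      exact hey h1
  obtain ⟨e, he⟩ : ∃ e : V, e ≠ 0 := by
    have : Nontrivial V := Module.nontrivial_of_finrank_pos (R := F) (by rw [S.dim]; norm_num)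
    exact exists_ne 0
  obtain ⟨y, hy⟩ := S.exists_apply_ne he
  rcases (show k = 2 ∨ k = 3 by omega) with hk2 | hk3
  · exfalso
    -- two orthogonal copies of the regular module would fill more than the space
    have hlt : ∀ p : F[X], p.degree < (k : WithBot ℕ) → h ∣ p → p = 0 := fun p hp hd => by
      refine eq_zero_of_dvd_of_degree_lt hd (hp.trans_le ?_)
      rw [degree_eq_natDegree hirr.ne_zero]
    let L : ∀ (_ _ : V), (Polynomial.degreeLT F k × Polynomial.degreeLT F k) →ₗ[F] V := fun e y =>
      ((LinearMap.applyₗ (R := F) e).comp ((aeval (R := F) T).toLinearMap.comp (Submodule.subtype _))).coprod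
      ((LinearMap.applyₗ (R := F) y).comp ((aeval (R := F) T).toLinearMap.comp (Submodule.subtype _)))
    have hLinj : ∀ e y, B e y ≠ 0 → Function.Injective (L e y) := fun e y hey => by
      rw [injective_iff_map_eq_zero]
      rintro ⟨⟨p, hp⟩, q, hq⟩ hpq
      obtain ⟨h1, h2⟩ := pair e y hey p q hpq
      simp only [hlt p (Polynomial.mem_degreeLT.mp hp) h1, hlt q (Polynomial.mem_degreeLT.mp hq) h2]
      rfl
    have hdimL : ∀ e y, B e y ≠ 0 → finrank F (LinearMap.range (L e y)) = 4 := fun e y hey => by
      rw [LinearMap.finrank_range_of_inj (hLinj e y hey), Module.finrank_prod,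
        (LinearEquiv.finrank_eq (Polynomial.degreeLTEquiv F _)).trans (Module.finrank_fin_fun F), hk2]
    have hmod : ∀ p : F[X], p %ₘ (h * C h.leadingCoeff⁻¹) ∈ Polynomial.degreeLT F k ∧
        aeval T (p %ₘ (h * C h.leadingCoeff⁻¹)) = aeval T p := fun p => by
      have hmo := monic_mul_leadingCoeff_inv hirr.ne_zero
      refine ⟨Polynomial.mem_degreeLT.mpr ((degree_modByMonic_lt p hmo).trans_le ?_), ?_⟩
      · rw [degree_mul_leadingCoeff_inv h hirr.ne_zero, degree_eq_natDegree hirr.ne_zero]
      · conv_rhs => rw [← modByMonic_add_div p (h * C h.leadingCoeff⁻¹)]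
        rw [map_add, map_mul, map_mul, hh, zero_mul, zero_mul, add_zero]
    set P := LinearMap.range (L e y) with hP
    have hPmem : ∀ p q, aeval T p e + aeval T q y ∈ P := fun p q =>
      ⟨(⟨_, (hmod p).1⟩, ⟨_, (hmod q).1⟩), show aeval T (p %ₘ (h * C h.leadingCoeff⁻¹)) e + aeval T (q %ₘ (h * C h.leadingCoeff⁻¹)) y = _ by rw [(hmod p).2, (hmod q).2]⟩
    have hPnd : ∀ x ∈ P, (∀ z ∈ P, B x z = 0) → x = 0 := by
      rintro _ ⟨⟨⟨p, hp⟩, q, hq⟩, rfl⟩ hx
      show aeval T p e + aeval T q y = 0
      have hx' : ∀ p' q', B (aeval T p e + aeval T q y) (aeval T p' e + aeval T q' y) = 0 :=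
        fun p' q' => hx _ (hPmem p' q')
      have hp0 : h ∣ p := by
        by_contra hpd
        obtain ⟨a, b, hab⟩ := (hirr.coprime_iff_not_dvd.mpr hpd).symm
        have h1 := hx' 0 a
        simp only [map_zero, LinearMap.zero_apply, zero_add, map_add, LinearMap.add_apply, ← haj,
          ← Module.End.mul_apply, ← map_mul, haa, add_zero] at h1
        have h2 := congrArg (aeval T) hab
        rw [map_add, map_mul (aeval T) b, hh, mul_zero, add_zero, map_one] at h2
        rw [h2, Module.End.one_apply] at h1
        exact hy h1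
      have hq0 : h ∣ q := by
        by_contra hqd
        obtain ⟨a, b, hab⟩ := (hirr.coprime_iff_not_dvd.mpr hqd).symm
        have h1 := hx' a 0
        simp only [map_zero, LinearMap.zero_apply, add_zero, map_add, LinearMap.add_apply, ← haj,
          ← Module.End.mul_apply, ← map_mul, haa, zero_add] at h1
        have h2 := congrArg (aeval T) hab
        rw [map_add, map_mul (aeval T) b, hh, mul_zero, add_zero, map_one] at h2
        rw [h2, Module.End.one_apply, S.skew, neg_eq_zero] at h1
        exact hy h1
      rw [hlt p (Polynomial.mem_degreeLT.mp hp) hp0, hlt q (Polynomial.mem_degreeLT.mp hq) hq0]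
      simp
    set Q := B.orthogonal P
    have hQ : finrank F Q = 2 := by
      rw [LinearMap.BilinForm.finrank_orthogonal S.nd, S.dim, hdimL e y hy]
    obtain ⟨e', he', he'0⟩ := Q.exists_mem_ne_zero_of_ne_bot (by intro h0; rw [h0, finrank_bot] at hQ; omega)
    obtain ⟨y', hy'⟩ := S.exists_apply_ne he'0
    have hcompl : IsCompl P Q := by
      refine (LinearMap.BilinForm.isCompl_orthogonal_iff_disjoint S.refl).mpr ?_
      rw [Submodule.disjoint_def]
      exact fun x hxP hxQ => hPnd x hxP fun z hz => S.refl _ _ (hxQ z hz)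
    obtain ⟨p₀, hp₀, q₀, hq₀, hsum⟩ := Submodule.mem_sup.mp
      (show y' ∈ P ⊔ Q by rw [hcompl.sup_eq_top]; trivial)
    have hy'' : B e' q₀ ≠ 0 := by
      rwa [← hsum, map_add, show B e' p₀ = 0 from S.refl _ _ (he' p₀ hp₀), zero_add] at hy'
    have hQinv : ∀ (a : F[X]) x, x ∈ Q → aeval T a x ∈ Q := by
      intro a x hx z hz
      obtain ⟨⟨⟨p, hp⟩, q, hq⟩, rfl⟩ := hz
      show B (aeval T p e + aeval T q y) (aeval T a x) = 0
      rw [← haj, map_add, ← Module.End.mul_apply, ← map_mul, ← Module.End.mul_apply, ← map_mul]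
      exact hx _ (hPmem (a * p) (a * q))
    have hle : LinearMap.range (L e' q₀) ≤ Q := by
      rintro _ ⟨⟨⟨p, hp⟩, q, hq⟩, rfl⟩
      exact add_mem (hQinv p e' he') (hQinv q q₀ hq₀)
    have := Submodule.finrank_mono hle
    rw [hdimL e' q₀ hy'', hQ] at this
    omega
  · haveI := Fact.mk hirr
    have hKE : finrank F E = finrank F (AdjoinRoot h) := by
      rw [hE, PowerBasis.finrank (AdjoinRoot.powerBasis hirr.ne_zero), AdjoinRoot.powerBasis_dim]
      omega
    haveI : Module.Finite F (AdjoinRoot h) := (AdjoinRoot.powerBasis hirr.ne_zero).finite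
    haveI : Finite (AdjoinRoot h) := Module.finite_of_finite F
    obtain ⟨ψ⟩ := FiniteField.nonempty_algHom_of_finrank_dvd (F := F) (K := E) (L := AdjoinRoot h)
      (dvd_of_eq hKE)
    choose rep hrep using fun a : E => AdjoinRoot.mk_surjective (ψ a)
    have hwd : ∀ a p, AdjoinRoot.mk h p = ψ a → aeval T (rep a) = aeval T p := by
      intro a p hp
      obtain ⟨r, hr⟩ := AdjoinRoot.mk_eq_mk.mp ((hrep a).trans hp.symm)
      rw [← sub_eq_zero, ← map_sub, hr, map_mul, hh, zero_mul]
    let ι : E →ₗ[F] Module.End F V :=
      { toFun := fun a => aeval T (rep a)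
        map_add' := fun a b => (hwd _ (rep a + rep b) (by rw [map_add, hrep, hrep, map_add])).trans (map_add _ _ _)
        map_smul' := fun c a => (hwd _ (c • rep a) (by
          rw [← AdjoinRoot.smul_mk, hrep, map_smul])).trans (map_smul _ _ _) }
    have hι : ∀ a, ι a = aeval T (rep a) := fun a => rfl
    have hιm : ∀ a b x, ι (a * b) x = ι a (ι b x) := fun a b x => by
      rw [hι, hι, hι, hwd _ (rep a * rep b) (by rw [map_mul, hrep, hrep, map_mul]), map_mul, Module.End.mul_apply]
    have hι1 : ι 1 = 1 := by rw [hι, hwd 1 1 (by rw [map_one, map_one]), map_one]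
    let D : E × E →ₗ[F] V :=
      ((LinearMap.applyₗ (R := F) e).comp ι).coprod ((LinearMap.applyₗ (R := F) y).comp ι)
    have hD : ∀ p, D p = ι p.1 e + ι p.2 y := fun p => rfl
    let f : Module.Dual F E := (B.flip y).comp ((LinearMap.applyₗ (R := F) e).comp ι)
    have hf : ∀ a, f a = B (ι a e) y := fun a => rfl
    obtain ⟨δ, hδ⟩ := ((Algebra.traceForm F E).toDual (traceForm_nondegenerate F E)).surjective f
    have hδ' : ∀ a, Algebra.trace F E (δ * a) = f a := fun a => by
      rw [← hδ, LinearMap.BilinForm.toDual_def, Algebra.traceForm_apply]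
    have hδ0 : δ ≠ 0 := fun h0 => hy (by
      have h1 := hδ' 1
      rwa [h0, zero_mul, map_zero, hf, hι1, Module.End.one_apply, eq_comm] at h1)
    have hadj : ∀ a x z, B (ι a x) z = B x (ι a z) := fun a x z => haj _ x z
    have halt : ∀ a x, B (ι a x) x = 0 := fun a x => haa _ x
    have hBD : ∀ p q, B (D p) (D q) = Algebra.trace F E (δ * (p.1 * q.2 - p.2 * q.1)) := fun p q => by
      rw [mul_sub, map_sub, hδ', hδ', hf, hf]
      simp only [hD, map_add, LinearMap.add_apply]
      have c1 : B (ι p.1 e) (ι q.2 y) = B (ι (p.1 * q.2) e) y := by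
        rw [mul_comm, hιm, hadj q.2 (ι p.1 e)]
      have c2 : B (ι p.2 y) (ι q.1 e) = -B (ι (p.2 * q.1) e) y := by
        rw [hιm, S.skew (ι q.1 e) (ι p.2 y), hadj p.2 (ι q.1 e)]
      have c3 : ∀ a b x, B (ι a x) (ι b x) = 0 := fun a b x => by rw [← hadj, ← hιm, halt]
      rw [c1, c2, c3, c3]
      ring
    let M : (E × E) ≃ₗ[F] (E × E) :=
      { toFun := fun p => (δ * p.1, p.2)
        invFun := fun p => (δ⁻¹ * p.1, p.2)
        map_add' := fun p q => by simp [mul_add]
        map_smul' := fun c p => by simp [mul_smul_comm]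
        left_inv := fun p => by simp [hδ0]
        right_inv := fun p => by simp [hδ0] }
    have hBM : ∀ p q, B (D p) (D q) = detForm F E (M p) (M q) := fun p q => by
      rw [hBD, detForm_apply]; congr 1; simp [M]; ring
    have hinj : Function.Injective D := by
      rw [injective_iff_map_eq_zero]
      intro x hx
      have : M x = 0 := detForm_nondegenerate.1 _ fun z => by
        rw [← M.apply_symm_apply z, ← hBM, hx, map_zero, LinearMap.zero_apply]
      exact M.map_eq_zero_iff.mp this
    let D' := D.linearEquivOfInjective hinj (by rw [Module.finrank_prod, hE, S.dim])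
    have hD' : ∀ p, D' p = D p := fun p => rfl
    refine ⟨D'.symm.trans M, fun x z => ?_, 1, fun a p => ?_⟩
    · obtain ⟨x, rfl⟩ := D'.surjective x
      obtain ⟨z, rfl⟩ := D'.surjective z
      rw [LinearEquiv.trans_apply, LinearEquiv.trans_apply, LinearEquiv.symm_apply_apply,
        LinearEquiv.symm_apply_apply, hD', hD', hBM]
    · have hC : ∀ q, (D'.symm.trans M).symm q = D (M.symm q) := fun q => rfl
      have hCD : ∀ q, (D'.symm.trans M) (D q) = M q := fun q => by
        rw [LinearEquiv.trans_apply, ← hD', LinearEquiv.symm_apply_apply]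
      have hsm : ∀ q : E × E, D (a • q) = ι a (D q) := fun q => by
        simp [hD, hιm, map_add]
      have hga : ∀ x, g (ι a x) = ι a (g x) := fun x => (aeval_tee_g g _ x).symm
      have hMs : ∀ q, M (a • q) = a • M q := fun q => by
        refine Prod.ext ?_ ?_ <;> simp [M, mul_left_comm]
      obtain ⟨r, hr⟩ := D'.surjective (g (D (M.symm p)))
      rw [hC, hC, show M.symm (a • p) = a • M.symm p by rw [M.symm_apply_eq, hMs, M.apply_symm_apply], hsm, hga,
        ← hr, hD', ← hsm, hCD, hCD, hMs]
      rfl

/-- `N = g + g⁻¹ - c`. -/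
def en (g : V ≃ₗ[F] V) (c : F) : Module.End F V := tee g - c • 1

theorem en_apply (g : V ≃ₗ[F] V) (c : F) (x : V) : en g c x = g x + g.symm x - c • x := rfl

theorem Setting.en_adj (S : Setting B g) (c : F) (x y : V) : B (en g c x) y = B x (en g c y) := by
  rw [en_apply, en_apply, map_sub, map_add, map_smul, map_sub, map_add, map_smul, LinearMap.sub_apply,
    LinearMap.add_apply, LinearMap.smul_apply, S.adj, S.symm.adj, LinearEquiv.symm_symm]
  ring

theorem Setting.even_rank (S : Setting B g) (h2 : (2 : F) ≠ 0) (T : Module.End F V)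
    (hT : ∀ x y, B (T x) y = B x (T y)) : Even (finrank F (LinearMap.range T)) :=
  haveI := S.finiteDimensional
  Omega.SympJordan.even_finrank_range_of_selfAdjoint h2 B S.alt S.nd.1 T hT

theorem two_ne_zero' (h3 : (3 : F) = 0) : (2 : F) ≠ 0 := fun h =>
  one_ne_zero (α := F) (by linear_combination h3 - h)

/-- On `ker N` either a plane is fixed or `g - g⁻¹` maps it to its orthogonal. -/
theorem Setting.plane_or_skew (S : Setting B g) (c : F) :
    HasPlane B g ∨ ∀ v w, en g c v = 0 → en g c w = 0 → B v (g w - g.symm w) = 0 := by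
  by_cases h : ∃ v, en g c v = 0 ∧ B v (g v) ≠ 0
  · obtain ⟨v, hv, hv'⟩ := h
    refine Or.inl (hasPlane_of_quad hv' c (-1) ?_)
    have h1 := congrArg g hv
    rw [en_apply, map_sub, map_add, g.apply_symm_apply, map_smul, map_zero] at h1
    linear_combination (norm := module) h1
  · push Not at h
    refine Or.inr fun v w hv hw => ?_
    have h1 := h (v + w) (by rw [map_add, hv, hw, add_zero])
    simp only [map_add, LinearMap.add_apply, h v hv, h w hw, zero_add, add_zero] at h1
    rw [map_sub, S.skew (g v) w, S.adj v w] at *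
    linear_combination h1

/-- The case of distinct eigenvalues. -/
theorem Setting.linear_regular [FiniteDimensional F E] [Algebra.IsSeparable F E] (S : Setting B g)
    (h3 : (3 : F) = 0) (K : Cubic F E) {c : F} (hc : c * c ≠ 1)
    (hN : ∀ x, en g c (en g c (en g c x)) = 0) : HasPlane B g ∨ HasModel E B g := by
  haveI := S.finiteDimensional
  have h2 := two_ne_zero' h3
  set N := en g c with hNd
  by_cases hN0 : ∀ x, N x = 0
  · refine Or.inl (S.hasPlane_of_quadratic h2 c fun v => ?_)
    have h := hN0 (g v)
    rw [hNd, en_apply, g.symm_apply_apply] at h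
    linear_combination (norm := module) h
  by_cases hN2 : ∀ x, N (N x) = 0
  · refine (S.plane_or_skew c).imp_right fun hskew => False.elim ?_
    have hz : ∀ x, N x = 0 → N (g x - g.symm x) = 0 := fun x hx => by
      have h1 : N (g x) = g (N x) := by simp [hNd, en_apply]
      have h2' : N (g.symm x) = g.symm (N x) := by simp [hNd, en_apply]
      rw [map_sub, h1, h2', hx, map_zero, map_zero, sub_self]
    have hzz : ∀ x, N x = 0 → g (g x - g.symm x) - g.symm (g x - g.symm x) = (c * c - 1) • x := fun x hx => by
      have e1 := congrArg g hx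
      have e2 := congrArg g.symm hx
      have h3x : (3 : F) • x = 0 := by rw [h3, zero_smul]
      rw [hNd, en_apply, map_sub, map_add, map_smul, map_zero, g.apply_symm_apply] at e1
      rw [hNd, en_apply, map_sub, map_add, map_smul, map_zero, g.symm_apply_apply] at e2
      have e3 := congrArg (c • ·) hx
      simp only [hNd, en_apply, smul_zero] at e3
      rw [map_sub, map_sub, g.apply_symm_apply, g.symm_apply_apply]
      linear_combination (norm := module) e1 + e2 + e3 - h3x
    have hiso : ∀ v ∈ LinearMap.ker N, ∀ w ∈ LinearMap.ker N, B v w = 0 := fun v hv w hw => by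
      rw [LinearMap.mem_ker] at hv hw
      have h1 := hskew v _ hv (hz w hw)
      rw [hzz w hw, map_smul, smul_eq_mul] at h1
      exact (mul_eq_zero.mp h1).resolve_left (sub_ne_zero.mpr hc)
    have hk := S.finrank_le_three hiso
    have hr : LinearMap.range N ≤ LinearMap.ker N := by
      rintro _ ⟨x, rfl⟩
      exact LinearMap.mem_ker.mpr (hN2 x)
    have hr' := Submodule.finrank_mono hr
    have hs := LinearMap.finrank_range_add_finrank_ker N
    obtain ⟨m, hm⟩ := S.even_rank h2 N (S.en_adj c)
    rw [S.dim] at hs
    omega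
  refine Or.inr ?_
  have hD : c * c - 1 ≠ 0 := sub_ne_zero.mpr hc
  let g' : Module.End F V := g.toLinearMap
  let gi : Module.End F V := g.symm.toLinearMap
  let s : Module.End F V := (c * c - 1)⁻¹ • (g' * g' * g' + c • 1)
  let si : Module.End F V := (c * c - 1)⁻¹ • (gi * gi * gi + c • 1)
  have hsA : ∀ x, s x = (c * c - 1)⁻¹ • (g (g (g x)) + c • x) := fun x => rfl
  have hsiA : ∀ x, si x = (c * c - 1)⁻¹ • (g.symm (g.symm (g.symm x)) + c • x) := fun x => rfl
  have cube : ∀ x, g (g (g x)) + g.symm (g.symm (g.symm x)) = (c * c * c) • x := by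
    intro x
    have h := hN x
    have h3y : ∀ y : V, (3 : F) • y = 0 := fun y => by rw [h3, zero_smul]
    simp only [hNd, en_apply, map_add, map_sub, map_smul, g.apply_symm_apply, g.symm_apply_apply] at h
    linear_combination (norm := module) h -
      h3y ((1 + c * c) • (g x + g.symm x) - c • (g (g x) + g.symm (g.symm x) + (2 : F) • x))
  have hsum : ∀ x, s x + si x = c • x := fun x => by
    rw [hsA, hsiA, ← smul_add]
    have e : g (g (g x)) + c • x + (g.symm (g.symm (g.symm x)) + c • x) = ((c * c - 1) * c) • x := by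
      have h3y : (3 : F) • (c • x) = 0 := by rw [h3, zero_smul]
      linear_combination (norm := module) cube x + h3y
    rw [e, smul_smul, ← mul_assoc, inv_mul_cancel₀ hD, one_mul]
  have hsg : ∀ x, s (g x) = g (s x) := fun x => by simp [hsA]
  have hsig : ∀ x, si (g x) = g (si x) := fun x => by simp [hsiA]
  have hssi : ∀ x, si (s x) = x := by
    intro x
    rw [hsA, hsiA, map_smul, map_smul, map_smul, map_add, map_add, map_add, map_smul, map_smul, map_smul,
      g.symm_apply_apply, g.symm_apply_apply, g.symm_apply_apply]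
    have e : (x + c • g.symm (g.symm (g.symm x)) + c • (g (g (g x)) + c • x)) = ((c * c - 1) * (c * c - 1)) • x := by
      have h3y : (3 : F) • ((c * c) • x) = 0 := by rw [h3, zero_smul]
      linear_combination (norm := module) c • cube x + h3y
    calc (c * c - 1)⁻¹ • ((c * c - 1)⁻¹ • (x + c • g.symm (g.symm (g.symm x))) +
          c • (c * c - 1)⁻¹ • (g (g (g x)) + c • x))
        = ((c * c - 1)⁻¹ * (c * c - 1)⁻¹) • (x + c • g.symm (g.symm (g.symm x)) + c • (g (g (g x)) + c • x)) := by
          module
      _ = x := by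
          rw [e, smul_smul, show (c * c - 1)⁻¹ * (c * c - 1)⁻¹ * ((c * c - 1) * (c * c - 1)) = 1 by
            rw [mul_mul_mul_comm, inv_mul_cancel₀ hD, one_mul],
            one_smul]
  have hsi' : ∀ x, si x = c • x - s x := fun x => eq_sub_of_add_eq' (hsum x)
  have hquad : ∀ x, s (s x) = c • s x + (-1 : F) • x := fun x => by
    have h := hssi x
    rw [hsi'] at h
    rw [← hssi x] at *
    linear_combination (norm := module) -h
  have hssi' : ∀ x, s (si x) = x := fun x => by
    rw [hsi', map_sub, map_smul, hquad]; module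
  have hquad' : ∀ x, si (si x) = c • si x - x := fun x => by
    rw [hsi' (si x), hssi']
  have hsiadj : ∀ x y, B (s x) y = B x (si y) := fun x y => by
    rw [hsA, hsiA, map_smul, map_add, map_smul, LinearMap.smul_apply, LinearMap.add_apply, LinearMap.smul_apply,
      S.adj, S.adj, S.adj, map_smul, map_add, map_smul]
  let w : Module.End F V := g' * si
  have hw : ∀ x, w x = g (si x) := fun x => rfl
  have hgsw : ∀ x, g x = s (w x) := fun x => by rw [hw, hsg, hssi']
  have hw3 : ∀ x, w (w (w x)) = x := fun x => by
    have e0 : si (si (si x)) = c • (c • si x - x) - si x := by rw [hquad' x, map_sub, map_smul, hquad' x]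
    rw [hw, hw, hw, hsig, hsig, hsig, e0]
    have e : c • (c • si x - x) - si x = g.symm (g.symm (g.symm x)) := by
      have e' : (c * c - 1) • si x = g.symm (g.symm (g.symm x)) + c • x := by
        rw [hsiA, smul_inv_smul₀ hD]
      linear_combination (norm := module) e'
    rw [e, g.apply_symm_apply, g.apply_symm_apply, g.apply_symm_apply]
  have hf : Free B s w c :=
    { cube := hw3
      isoW := fun x y => by rw [hw, hw, S.iso, ← hsiadj, hssi']
      isoS := fun x y => by rw [hsiadj, hssi]
      comm := fun x => by rw [hw, hw, hsg, hssi', hssi]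
      quad := hquad
      ne_zero := by
        by_contra hcon
        push Not at hcon
        refine hN2 fun x => ?_
        have hNw : ∀ y, N y = s (w y - y) - si (w y - y) := fun y => by
          have h1 : g.symm y = si (w (w y)) := by
            apply g.injective
            rw [g.apply_symm_apply, ← hw, hw3]
          have h2w : w (w y) = -y - w y := by linear_combination (norm := module) hcon y
          have h3y : (3 : F) • si y = 0 := by rw [h3, zero_smul]
          rw [hNd, en_apply, h1, hgsw y, h2w, map_sub, map_neg, map_sub, map_sub, ← hsum y]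
          linear_combination (norm := module) -h3y
        have hsw : ∀ y, w (s y) = s (w y) := fun y => by rw [hw, hw, hsg, hssi', hssi]
        have hsiw : ∀ y, w (si y) = si (w y) := fun y => by rw [hw, hw, hsig]
        have h0 : ∀ y, w (w y - y) - (w y - y) = 0 := fun y => by
          have h3y : (3 : F) • w y = 0 := by rw [h3, zero_smul]
          rw [map_sub]
          linear_combination (norm := module) hcon y - h3y
        rw [hNw, hNw x]
        have e : w (s (w x - x) - si (w x - x)) - (s (w x - x) - si (w x - x)) =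
            s (w (w x - x) - (w x - x)) - si (w (w x - x) - (w x - x)) := by
          simp only [map_sub, hsw, hsiw]; abel
        rw [e, h0]
        simp }
  exact hf.hasModel h3 K S hgsw (Or.inr hc)

/-- The unipotent case. -/
theorem Setting.linear_unipotent [FiniteDimensional F E] [Algebra.IsSeparable F E] (S : Setting B g)
    (h3 : (3 : F) = 0) (K : Cubic F E)
    (hN : ∀ x, en g (-1) (en g (-1) (en g (-1) x)) = 0) : HasPlane B g ∨ HasModel E B g := by
  haveI := S.finiteDimensional
  have h2 := two_ne_zero' h3
  set N := en g (-1 : F) with hNd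
  by_cases hN0 : ∀ x, N x = 0
  · refine Or.inl (S.hasPlane_of_quadratic h2 (-1) fun v => ?_)
    have h := hN0 (g v)
    rw [hNd, en_apply, g.symm_apply_apply] at h
    linear_combination (norm := module) h
  let u : Module.End F V := g.toLinearMap - 1
  have hu : ∀ x, u x = g x - x := fun x => rfl
  have hNg : ∀ x, N (g x) = g (N x) := fun x => by simp [hNd, en_apply]
  have huN : ∀ x, u (u x) = g (N x) := fun x => by
    have h3y : (3 : F) • g x = 0 := by rw [h3, zero_smul]
    rw [hu, hu, hNd, en_apply, map_sub, map_sub, map_add, g.apply_symm_apply, map_smul]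
    linear_combination (norm := module) -h3y
  have hug : ∀ x, u (g x) = g (u x) := fun x => by simp [hu]
  have hker : LinearMap.ker (u * u) = LinearMap.ker N := by
    ext x
    simp [Module.End.mul_apply, huN]
  by_cases hN2 : ∀ x, N (N x) = 0
  · by_cases hfix : ∃ v w, g v = v ∧ g w = w ∧ B v w ≠ 0
    · obtain ⟨v, w, hv, hw, hvw⟩ := hfix
      exact Or.inl (hasPlane_of_ne hvw (by rw [hv]; exact Submodule.subset_span (by simp))
        (by rw [hw]; exact Submodule.subset_span (by simp)))
    push Not at hfix
    refine (S.plane_or_skew (-1)).imp_right fun hskew => ?_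
    -- `ker u ⊆ u (ker u²) ⊆ im N`
    have hperp : ∀ (A : Module.End F V) (K' : Submodule F V), (∀ x, ∀ y ∈ K', B y (A x) = 0) →
        finrank F K' + finrank F (LinearMap.range A) = 6 → B.orthogonal K' = LinearMap.range A := by
      intro A K' hA hd
      refine (Submodule.eq_of_le_of_finrank_eq ?_ ?_).symm
      · rintro _ ⟨x, rfl⟩ y hy
        exact hA x y hy
      · rw [LinearMap.BilinForm.finrank_orthogonal S.nd, S.dim]; omega
    have hNperp : B.orthogonal (LinearMap.ker N) = LinearMap.range N := hperp N _
      (fun x y hy => by rw [← S.en_adj, LinearMap.mem_ker.mp hy, map_zero, LinearMap.zero_apply])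
      (by rw [add_comm, LinearMap.finrank_range_add_finrank_ker, S.dim])
    have huperp : B.orthogonal (LinearMap.ker u) = LinearMap.range u := hperp u _
      (fun x y hy => by
        have hy' : g y = y := sub_eq_zero.mp (LinearMap.mem_ker.mp hy)
        rw [hu, map_sub, sub_eq_zero]
        conv_lhs => rw [← hy', S.iso])
      (by rw [add_comm, LinearMap.finrank_range_add_finrank_ker, S.dim])
    have hkk : LinearMap.ker u ≤ LinearMap.range N := by
      intro v hv
      have hvr : v ∈ B.orthogonal (LinearMap.ker u) := fun y hy =>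
        hfix y v (sub_eq_zero.mp (LinearMap.mem_ker.mp hy)) (sub_eq_zero.mp (LinearMap.mem_ker.mp hv))
      rw [huperp] at hvr
      obtain ⟨w, rfl⟩ := hvr
      have hwN : N w = 0 := g.map_eq_zero_iff.mp (by rw [← huN]; exact LinearMap.mem_ker.mp hv)
      rw [← hNperp]
      intro y hy
      have h1 := hskew y w (LinearMap.mem_ker.mp hy) hwN
      have e : g w - g.symm w = (2 : F) • u w := by
        rw [hNd, en_apply] at hwN
        have h3w : (3 : F) • w = 0 := by rw [h3, zero_smul]
        rw [hu]
        linear_combination (norm := module) -hwN + h3w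
      rw [e, map_smul, smul_eq_mul] at h1
      exact (mul_eq_zero.mp h1).resolve_left h2
    have hrk : LinearMap.range N ≤ LinearMap.ker N := by
      rintro _ ⟨x, rfl⟩
      exact LinearMap.mem_ker.mpr (hN2 x)
    have hd1 : finrank F (LinearMap.ker N) ≤ finrank F (LinearMap.ker u) + finrank F (LinearMap.ker u) := by
      let u' := u.domRestrict (LinearMap.ker N)
      have h := LinearMap.finrank_range_add_finrank_ker u'
      have hr : LinearMap.range u' ≤ LinearMap.ker u := by
        rintro _ ⟨⟨x, hx⟩, rfl⟩
        rw [← hker, LinearMap.mem_ker, Module.End.mul_apply] at hx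
        exact LinearMap.mem_ker.mpr hx
      have hk : (LinearMap.ker u').map (LinearMap.ker N).subtype ≤ LinearMap.ker u := by
        rintro _ ⟨⟨x, hx⟩, hx', rfl⟩
        exact LinearMap.mem_ker.mpr (LinearMap.mem_ker.mp hx' : u x = 0)
      have h1 := Submodule.finrank_mono hk
      rw [Submodule.finrank_map_subtype_eq] at h1
      have h2' := Submodule.finrank_mono hr
      omega
    have hle := Submodule.finrank_mono hkk
    have hle' := Submodule.finrank_mono hrk
    have hs := LinearMap.finrank_range_add_finrank_ker N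
    rw [S.dim] at hs
    obtain ⟨m, hm⟩ := S.even_rank h2 N (S.en_adj _)
    have heq : LinearMap.ker u = LinearMap.range N := Submodule.eq_of_le_of_finrank_eq hkk (by omega)
    have hu3 : ∀ x, u (u (u x)) = 0 := fun x => by
      have h := LinearMap.mem_range_self N x
      rw [← heq, LinearMap.mem_ker] at h
      have hc' : N (u x) = u (N x) := by simp [hu, hNg]
      rw [huN, hc', h, map_zero]
    refine (show Free B (1 : Module.End F V) g.toLinearMap (-1) from
      { cube := fun x => ?_
        isoW := S.iso
        isoS := fun _ _ => rfl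
        comm := fun _ => rfl
        quad := fun x => ?_
        ne_zero := ?_ }).hasModel h3 K S (fun x => rfl) (Or.inl fun x => rfl)
    · have h := hu3 x
      have h3y : ∀ y : V, (3 : F) • y = 0 := fun y => by rw [h3, zero_smul]
      simp only [hu, map_sub] at h
      simp only [LinearEquiv.coe_coe]
      linear_combination (norm := module) h + h3y (g (g x) - g x)
    · have h3x : (3 : F) • x = 0 := by rw [h3, zero_smul]
      simp only [Module.End.one_apply]
      linear_combination (norm := module) h3x
    · by_contra hcon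
      push Not at hcon
      refine hN0 fun x => g.map_eq_zero_iff.mp ?_
      have h3y : (3 : F) • g x = 0 := by rw [h3, zero_smul]
      rw [← huN, hu, hu, map_sub]
      have h := hcon x
      simp only [LinearEquiv.coe_coe] at h
      linear_combination (norm := module) h - h3y
  · refine Or.inr (hasModel_of_regular h3 K S ?_ ?_)
    · refine LinearMap.ext fun x => ?_
      show (u ^ 6) x = 0
      simp only [pow_succ, pow_zero, Module.End.mul_apply, Module.End.one_apply]
      simp [huN, hNg, hN]
    · intro h5
      have h5' : u * u ^ 4 = 0 := by rw [← pow_succ']; exact h5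
      have hr4 : finrank F (LinearMap.range (u ^ 4)) ≠ 0 := fun h0 => hN2 fun x => by
        have h := LinearMap.congr_fun (LinearMap.range_eq_bot.mp (Submodule.finrank_eq_zero.mp h0)) x
        simp only [pow_succ, pow_zero, Module.End.mul_apply, Module.End.one_apply, huN, hNg,
          LinearMap.zero_apply] at h
        exact g.map_eq_zero_iff.mp (g.map_eq_zero_iff.mp h)
      have h4 : (u ^ 4 : Module.End F V) = (g.toLinearMap * g.toLinearMap) * (N * N) := LinearMap.ext fun x => by
        simp [pow_succ, Module.End.mul_apply, huN, hNg]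
      have hev : Even (finrank F (LinearMap.range (u ^ 4))) := by
        have hrange : finrank F (LinearMap.range (u ^ 4)) = finrank F (LinearMap.range (N * N)) := by
          rw [h4, Module.End.mul_eq_comp, LinearMap.range_comp]
          exact ((Submodule.equivMapOfInjective _ (by
            intro a b hab
            exact g.injective (g.injective hab)) _).finrank_eq).symm
        rw [hrange]
        exact S.even_rank h2 _ fun x y => by
          simp only [Module.End.mul_apply, hNd, S.en_adj]
      have step : ∀ i, i ≤ 4 → finrank F (LinearMap.range (u ^ (i + 1))) + finrank F (LinearMap.range (u ^ 4)) ≤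
          finrank F (LinearMap.range (u ^ i)) := by
        intro i hi
        let u' := u.domRestrict (LinearMap.range (u ^ i))
        have h := LinearMap.finrank_range_add_finrank_ker u'
        have hr : LinearMap.range u' = LinearMap.range (u ^ (i + 1)) := by
          rw [LinearMap.range_domRestrict, ← LinearMap.range_comp, ← Module.End.mul_eq_comp, ← pow_succ']
        have hk : LinearMap.range (u ^ 4) ≤ (LinearMap.ker u').map (LinearMap.range (u ^ i)).subtype := by
          rintro _ ⟨x, rfl⟩
          refine ⟨⟨(u ^ 4) x, (u ^ (4 - i)) x, by rw [← Module.End.mul_apply, ← pow_add, Nat.add_sub_cancel' hi]⟩,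
            ?_, rfl⟩
          rw [SetLike.mem_coe, LinearMap.mem_ker]
          exact LinearMap.congr_fun h5' x
        have h1 := Submodule.finrank_mono hk
        rw [Submodule.finrank_map_subtype_eq] at h1
        rw [hr] at h
        omega
      have s0 := step 0 (by omega)
      have s1 := step 1 (by omega)
      have s2 := step 2 (by omega)
      have s3 := step 3 (by omega)
      have s4 := step 4 (by omega)
      have hd := Submodule.finrank_le (LinearMap.range (u ^ 0))
      rw [S.dim] at hd
      obtain ⟨m, hm⟩ := hev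
      simp only [Nat.zero_add, Nat.reduceAdd] at s0 s1 s2 s3 s4
      omega

/-- Every isometry fixes a plane or has a model. -/
theorem Setting.dichotomy [Finite F] [Finite E] (S : Setting B g) (h3 : (3 : F) = 0) (hE : finrank F E = 3) :
    HasPlane B g ∨ HasModel E B g := by
  haveI : Module.Finite F E := Module.Finite.of_finite
  obtain ⟨K⟩ := exists_cubic h3 hE
  rcases S.primary with hP | ⟨h, j, hirr, hmon, hj, hm⟩
  · exact Or.inl hP
  have hle := S.degree_le hirr hj hm
  have hk0 := hirr.natDegree_pos
  by_cases hk : 2 ≤ h.natDegree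
  · have hj1 : j = 1 := by
      have : j * 2 ≤ j * h.natDegree := Nat.mul_le_mul_left j hk
      omega
    subst hj1
    rw [one_mul] at hle
    refine Or.inr (S.hasModel_of_field hE hirr ?_ hk hle)
    rw [pow_one] at hm
    rw [← hm, minpoly.aeval]
  have hk1 : h.natDegree = 1 := by omega
  set c := -h.coeff 0 with hc
  have hX : h = X - C c := by
    rw [hc, map_neg, sub_neg_eq_add]
    exact hmon.eq_X_add_C hk1
  have hj3 : j ≤ 3 := by rw [hk1, mul_one] at hle; exact hle
  have hN : ∀ x, en g c (en g c (en g c x)) = 0 := by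
    intro x
    have h0 : aeval (tee g) (h ^ 3) = 0 := by
      rw [← Nat.sub_add_cancel hj3, pow_add, map_mul, ← hm, minpoly.aeval, mul_zero]
    have e : aeval (tee g) h = en g c := by
      rw [hX, map_sub, aeval_X, aeval_C, Algebra.algebraMap_eq_smul_one]; rfl
    rw [map_pow, e] at h0
    simpa [pow_succ, Module.End.mul_apply] using LinearMap.congr_fun h0 x
  by_cases hc1 : c * c = 1
  · rcases mul_self_eq_one_iff.mp hc1 with hc' | hc'
    · set g' := g.trans (LinearEquiv.neg F) with hg'
      have hgn : ∀ x, g' x = -g x := fun x => rfl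
      have hen : ∀ x, en g' (-1 : F) x = -en g c x := fun x => by
        have hs : g'.symm x = -g.symm x := g'.symm_apply_eq.mpr (by rw [hgn, map_neg, g.apply_symm_apply, neg_neg])
        rw [en_apply, en_apply, hgn, hs, hc']
        module
      refine (S.neg.linear_unipotent h3 K fun x => ?_).imp (hasPlane_neg hgn) (hasModel_neg hgn)
      rw [← hg', hen, hen, map_neg, hen, map_neg, map_neg, neg_neg, hN, neg_zero]
    · exact S.linear_unipotent h3 K (fun x => by rw [← hc']; exact hN x)
  · exact S.linear_regular h3 K hc1 hN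

end CfsgLib.NormalCover.SympSix
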