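import Cfsg.Agent.Lib.NormalCover.SympSixBase

/-!
An isometry whose part of order three acts freely is semilinear over the cubic extension.
-/

set_option autoImplicit false
set_option linter.unusedSectionVars false
set_option linter.style.haveILetI false

namespace CfsgLib.NormalCover.SympSix

open Module

variable {F : Type*} [Field F] {E : Type*} [Field E] [Algebra F E]
variable {V : Type*} [AddCommGroup V] [Module F V]

/-- An isometry `w` of order three whose fixed space is the image of `(w - 1)²`, commuting with `s`. -/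
structure Free (B : LinearMap.BilinForm F V) (s w : Module.End F V) (c : F) : Prop where
  cube : ∀ x, w (w (w x)) = x
  isoW : ∀ x y, B (w x) (w y) = B x y
  isoS : ∀ x y, B (s x) (s y) = B x y
  comm : ∀ x, s (w x) = w (s x)
  quad : ∀ x, s (s x) = c • s x + (-1 : F) • x
  ne_zero : ∃ x, x + w x + w (w x) ≠ 0

/-- `w - w⁻¹`. -/
def zed (w : Module.End F V) : Module.End F V := w - w * w

theorem zed_apply (w : Module.End F V) (x : V) : zed w x = w x - w (w x) := rfl

variable {B : LinearMap.BilinForm F V} {g : V ≃ₗ[F] V} {s w : Module.End F V} {c : F}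

theorem Free.w_adj (hf : Free B s w c) (x y : V) : B (w x) y = B x (w (w y)) := by
  conv_lhs => rw [← hf.cube y, hf.isoW]

theorem Free.zed_adj (hf : Free B s w c) (x y : V) : B (zed w x) y = -B x (zed w y) := by
  rw [zed_apply, zed_apply, map_sub, map_sub, LinearMap.sub_apply, hf.w_adj, hf.w_adj, hf.w_adj, hf.cube]
  ring

theorem Free.zed_sq (hf : Free B s w c) (h3 : (3 : F) = 0) (x : V) :
    zed w (zed w x) = x + w x + w (w x) := by
  simp only [zed_apply, map_sub, hf.cube]
  have h : (3 : F) • x = 0 := by rw [h3, zero_smul]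
  linear_combination (norm := module) -h

theorem Free.zed_cube (hf : Free B s w c) (h3 : (3 : F) = 0) (x : V) : zed w (zed w (zed w x)) = 0 := by
  rw [hf.zed_sq h3]
  simp only [zed_apply, map_sub, hf.cube]
  match_scalars <;> ring

theorem Free.comm_zed (hf : Free B s w c) (x : V) : s (zed w x) = zed w (s x) := by
  simp only [zed_apply, map_sub, hf.comm]

/-- A pair with standard value of `f(·, z²·)`, spanning an `s`-invariant plane. -/
theorem Free.exists_start (hf : Free B s w c) (h3 : (3 : F) = 0) (S : Setting B g)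
    (hsc : (∀ x, s x = x) ∨ c * c ≠ 1) :
    ∃ e₁ e₂, B e₁ (zed w (zed w e₂)) = 1 ∧ s e₁ ∈ Submodule.span F {e₁, e₂} ∧
      s e₂ ∈ Submodule.span F {e₁, e₂} := by
  obtain ⟨x₀, hx₀⟩ := hf.ne_zero
  rw [← hf.zed_sq h3] at hx₀
  obtain ⟨y₀, hy₀⟩ := S.exists_apply_ne hx₀
  have hne : B y₀ (zed w (zed w x₀)) ≠ 0 := by rw [S.skew]; simpa using hy₀
  rcases hsc with hs | hc
  · refine ⟨(B y₀ (zed w (zed w x₀)))⁻¹ • y₀, x₀, by simp [hne], ?_, ?_⟩ <;> rw [hs] <;>
      exact Submodule.subset_span (by simp)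
  obtain ⟨e, he⟩ : ∃ e, B e (zed w (zed w (s e))) ≠ 0 := by
    by_contra h
    push Not at h
    have hsym : ∀ x y, B y (zed w (zed w x)) = -B x (zed w (zed w y)) := fun x y => by
      rw [S.skew (zed w (zed w x)) y, hf.zed_adj, hf.zed_adj]; ring
    have h1 : ∀ x y, 2 * B x (zed w (zed w (s y))) = c * B x (zed w (zed w y)) := fun x y => by
      have hp := h (x + y)
      simp only [map_add, LinearMap.add_apply, h, zero_add, add_zero] at hp
      have hs1 : s (c • y + (-1 : F) • s y) = y := by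
        rw [map_add, map_smul, map_smul, hf.quad]; module
      have hinv : B (s x) (zed w (zed w y)) = B x (zed w (zed w (c • y + (-1 : F) • s y))) := by
        conv_lhs => rw [← hs1, ← hf.comm_zed, ← hf.comm_zed, hf.isoS]
      rw [map_add, map_add, map_add, map_smul, map_smul, map_smul, map_smul, map_smul, map_smul,
        smul_eq_mul, smul_eq_mul] at hinv
      linear_combination hp - hsym (s x) y + hinv
    refine hne ?_
    have e2 := h1 y₀ (s x₀)
    rw [hf.quad, map_add, map_add, map_add, map_smul, map_smul, map_smul, map_smul, map_smul, map_smul,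
      smul_eq_mul, smul_eq_mul] at e2
    have e1 := h1 y₀ x₀
    have : (c * c - 1) * B y₀ (zed w (zed w x₀)) = 0 := by
      linear_combination 2 * e2 - c * e1 + B y₀ (zed w (zed w x₀)) * h3
    exact (mul_eq_zero.mp this).resolve_left (sub_ne_zero.mpr hc)
  refine ⟨(B e (zed w (zed w (s e))))⁻¹ • e, s e, by simp [he], ?_, Submodule.mem_span_pair.mpr ?_⟩
  · rw [map_smul]
    exact Submodule.smul_mem _ _ (Submodule.subset_span (by simp))
  · refine ⟨-B e (zed w (zed w (s e))), c, ?_⟩
    rw [smul_smul, neg_mul, mul_inv_cancel₀ he, hf.quad, add_comm]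

/-- A totally isotropic `s`-invariant pair freely moved by `w`, in standard position. -/
theorem Free.exists_pair (hf : Free B s w c) (h3 : (3 : F) = 0) (S : Setting B g)
    (hsc : (∀ x, s x = x) ∨ c * c ≠ 1) :
    ∃ e₁ e₂, (s e₁ ∈ Submodule.span F {e₁, e₂} ∧ s e₂ ∈ Submodule.span F {e₁, e₂}) ∧
      B e₁ e₂ = 0 ∧ B e₁ (w e₁) = 0 ∧ B e₂ (w e₂) = 0 ∧ B e₁ (w e₂) = -1 ∧ B e₁ (w (w e₂)) = -1 := by
  have h2 : (2 : F) ≠ 0 := fun h => one_ne_zero (α := F) (by linear_combination h3 - h)
  obtain ⟨e₁, e₂, h12, hs1, hs2⟩ := hf.exists_start h3 S hsc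
  set M := Submodule.span F {e₁, e₂} with hM
  set z := zed w with hz
  have hzz : ∀ x y, B x (z (z y)) = B (z (z x)) y := fun x y => by rw [hz, hf.zed_adj, hf.zed_adj]; ring
  have hωs : ∀ x y, B y (z (z x)) = -B x (z (z y)) := fun x y => by rw [hzz y x, S.skew]
  have hωd : ∀ x, B x (z (z x)) = 0 := fun x =>
    (mul_eq_zero.mp (show (2 : F) * B x (z (z x)) = 0 by linear_combination hωs x x)).resolve_left h2
  have h21 : B e₂ (z (z e₁)) = -1 := by rw [hωs, h12]
  have hbsym : ∀ x y, B y (z x) = B x (z y) := fun x y => by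
    rw [S.skew (z x) y, hz, hf.zed_adj, neg_neg]
  let A : Module.End F V := (B.flip (z e₂)).smulRight e₁ - (B.flip (z e₁)).smulRight e₂
  have hA : ∀ x, A x = B x (z e₂) • e₁ - B x (z e₁) • e₂ := fun x => rfl
  have hAM : ∀ x, A x ∈ M := fun x => Submodule.mem_span_pair.mpr
    ⟨B x (z e₂), -B x (z e₁), by rw [hA, neg_smul, ← sub_eq_add_neg]⟩
  have hAω : ∀ x, ∀ y ∈ M, B (A x) (z (z y)) = B x (z y) := by
    intro x y hy
    obtain ⟨a, b, rfl⟩ := Submodule.mem_span_pair.mp hy
    simp only [hA, map_add, map_smul, map_sub, LinearMap.sub_apply, LinearMap.smul_apply, smul_eq_mul, h12,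
      h21, hωd]
    ring
  have hext : ∀ p ∈ M, ∀ q ∈ M, (∀ y ∈ M, B p (z (z y)) = B q (z (z y))) → p = q := by
    intro p hp q hq h
    obtain ⟨a, b, rfl⟩ := Submodule.mem_span_pair.mp hp
    obtain ⟨a', b', rfl⟩ := Submodule.mem_span_pair.mp hq
    have hb := h e₁ (Submodule.subset_span (by simp))
    have ha := h e₂ (Submodule.subset_span (by simp))
    simp only [map_add, map_smul, LinearMap.add_apply, LinearMap.smul_apply, smul_eq_mul, h12, h21, hωd,
      mul_zero, zero_add, add_zero, mul_one, mul_neg, neg_inj] at ha hb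
    rw [ha, hb]
  have hsM : ∀ x ∈ M, s x ∈ M := by
    intro x hx
    obtain ⟨a, b, rfl⟩ := Submodule.mem_span_pair.mp hx
    rw [map_add, map_smul, map_smul]
    exact add_mem (M.smul_mem a hs1) (M.smul_mem b hs2)
  have hcommA : ∀ x ∈ M, A (s x) = s (A x) := by
    intro x hx
    refine hext _ (hAM _) _ (hsM _ (hAM x)) fun y hy => ?_
    set y' := c • y + (-1 : F) • s y with hy'
    have hy'M : y' ∈ M := add_mem (M.smul_mem _ hy) (M.smul_mem _ (hsM y hy))
    have hsy : s y' = y := by rw [hy', map_add, map_smul, map_smul, hf.quad]; module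
    rw [hAω _ y hy]
    conv_lhs => rw [← hsy, hz, ← hf.comm_zed, hf.isoS, ← hz]
    conv_rhs => rw [← hsy, hz, ← hf.comm_zed, ← hf.comm_zed, hf.isoS, ← hz]
    rw [hAω x y' hy'M]
  -- first correction
  let P : Module.End F V := 1 - z * A
  have hP : ∀ x, P x = x - z (A x) := fun x => rfl
  have hz3 : ∀ x, z (z (z x)) = 0 := hf.zed_cube h3
  have hza : ∀ x y, B (z x) y = -B x (z y) := hf.zed_adj
  have hPb : ∀ x ∈ M, ∀ y ∈ M, B (P x) (z (P y)) = 0 := by
    intro x hx y hy
    have e1 : B x (z (z (A y))) = -B y (z x) := by rw [hωs (A y) x, hAω y x hx]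
    have e2 := hAω x y hy
    simp only [hP, map_sub, LinearMap.sub_apply, hza, hz3, map_zero, neg_zero, sub_zero, e1, e2, hbsym x y]
    linear_combination B x (z y) * h3
  have hPω : ∀ x y, B (P x) (z (z (P y))) = B x (z (z y)) := by
    intro x y
    simp only [hP, map_sub, LinearMap.sub_apply, hza, hz3, map_zero, neg_zero, sub_zero]
  -- second correction
  set α := B (P e₁) (P e₂) with hα
  let Q : Module.End F V := 1 + α • (z * z)
  have hQ : ∀ x, Q x = x + α • z (z x) := fun x => rfl
  let R := Q * P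
  have hR : ∀ x, R x = Q (P x) := fun x => rfl
  have hsR : ∀ x ∈ M, s (R x) = R (s x) := by
    intro x hx
    simp only [hR, hQ, hP, map_add, map_sub, map_smul, hz, hf.comm_zed, hcommA x hx]
  have hRb : ∀ x ∈ M, ∀ y ∈ M, B (R x) (z (R y)) = 0 := by
    intro x hx y hy
    simp only [hR, hQ, map_add, map_smul, LinearMap.add_apply, LinearMap.smul_apply, hza, hz3, map_zero,
      neg_zero, smul_zero, add_zero, hPb x hx y hy]
  have hRω : ∀ x y, B (R x) (z (z (R y))) = B x (z (z y)) := by
    intro x y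
    simp only [hR, hQ, map_add, map_smul, LinearMap.add_apply, LinearMap.smul_apply, hza, hz3, map_zero,
      neg_zero, smul_zero, add_zero, hPω]
  have hR12 : B (R e₁) (R e₂) = 0 := by
    simp only [hR, hQ, map_add, map_smul, LinearMap.add_apply, LinearMap.smul_apply, smul_eq_mul, hza, hz3,
      map_zero, neg_zero, neg_neg, mul_zero, hPω, h12, ← hα]
    linear_combination α * h3
  refine ⟨R e₁, R e₂, ⟨?_, ?_⟩, hR12, ?_⟩
  · obtain ⟨a, b, hab⟩ := Submodule.mem_span_pair.mp hs1
    exact Submodule.mem_span_pair.mpr ⟨a, b, by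
      rw [hsR e₁ (Submodule.subset_span (by simp)), ← hab, map_add, map_smul, map_smul]⟩
  · obtain ⟨a, b, hab⟩ := Submodule.mem_span_pair.mp hs2
    exact Submodule.mem_span_pair.mpr ⟨a, b, by
      rw [hsR e₂ (Submodule.subset_span (by simp)), ← hab, map_add, map_smul, map_smul]⟩
  have hb11 := hRb e₁ (Submodule.subset_span (by simp)) e₁ (Submodule.subset_span (by simp))
  have hb22 := hRb e₂ (Submodule.subset_span (by simp)) e₂ (Submodule.subset_span (by simp))
  have hb12 := hRb e₁ (Submodule.subset_span (by simp)) e₂ (Submodule.subset_span (by simp))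
  have hw11 := (hRω e₁ e₁).trans (hωd e₁)
  have hw22 := (hRω e₂ e₂).trans (hωd e₂)
  have hw12 := hRω e₁ e₂
  rw [h12] at hw12
  rw [hz, zed_apply, map_sub] at hb11 hb22 hb12
  rw [hz, hf.zed_sq h3, map_add, map_add] at hw11 hw22 hw12
  rw [hR12] at hw12
  rw [S.alt] at hw11 hw22
  refine ⟨?_, ?_, ?_, ?_⟩
  · linear_combination (-1 : F) * hw11 - hb11 + B (R e₁) (w (R e₁)) * h3
  · linear_combination (-1 : F) * hw22 - hb22 + B (R e₂) (w (R e₂)) * h3
  · linear_combination (-1 : F) * hw12 - hb12 + B (R e₁) (w (R e₂)) * h3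
  · linear_combination (-1 : F) * hw12 + hb12 + B (R e₁) (w (w (R e₂))) * h3

/-- Such an isometry has a model. -/
theorem Free.hasModel [FiniteDimensional F E] [Algebra.IsSeparable F E] (hf : Free B s w c) (h3 : (3 : F) = 0)
    (K : Cubic F E) (S : Setting B g) (hg : ∀ x, g x = s (w x)) (hsc : (∀ x, s x = x) ∨ c * c ≠ 1) :
    HasModel E B g := by
  haveI := S.finiteDimensional
  obtain ⟨e₁, e₂, ⟨hs1, hs2⟩, h0, h11, h22, h12, h12'⟩ := hf.exists_pair h3 S hsc
  have h11' : B e₁ (w (w e₁)) = 0 := by rw [← hf.w_adj, S.skew, h11, neg_zero]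
  have h22' : B e₂ (w (w e₂)) = 0 := by rw [← hf.w_adj, S.skew, h22, neg_zero]
  have hti : ∀ x : E, Algebra.trace F E (K.φ x) = Algebra.trace F E x := K.trace_φ
  have hb0 : K.basis 0 = K.θ := by rw [K.basis_eq]; rfl
  have hb1 : K.basis 1 = K.φ K.θ := by rw [K.basis_eq]; rfl
  have hb2 : K.basis 2 = K.φ (K.φ K.θ) := by rw [K.basis_eq]; rfl
  let L : V → (E →ₗ[F] V) := fun e => K.basis.constr F ![e, w e, w (w e)]
  have hL : ∀ e i, L e (K.basis i) = ![e, w e, w (w e)] i := fun e i => K.basis.constr_basis F _ i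
  have hLw : ∀ e, w ∘ₗ L e = L e ∘ₗ K.φ.toLinearMap := fun e => K.basis.ext fun i => by
    fin_cases i
    · show w (L e (K.basis 0)) = L e (K.φ (K.basis 0))
      rw [hb0, ← hb1, ← hb0, hL, hL]; rfl
    · show w (L e (K.basis 1)) = L e (K.φ (K.basis 1))
      rw [hb1, ← hb2, ← hb1, hL, hL]; rfl
    · show w (L e (K.basis 2)) = L e (K.φ (K.basis 2))
      rw [show K.φ (K.basis 2) = K.basis 0 by rw [hb2, K.cube, hb0], hL, hL]
      exact hf.cube e
  have hLs : ∀ (e : V) (a b : F), s e = a • e₁ + b • e₂ → s ∘ₗ L e = a • L e₁ + b • L e₂ := fun e a b h => K.basis.ext fun i => by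
    show s (L e (K.basis i)) = a • L e₁ (K.basis i) + b • L e₂ (K.basis i)
    rw [hL, hL, hL]
    fin_cases i <;> simp [hf.comm, h]
  have hLL : ∀ p q, B (L e₁ p) (L e₂ q) = Algebra.trace F E (p * q) := by
    refine fun p q => LinearMap.congr_fun (LinearMap.congr_fun (LinearMap.ext_basis K.basis K.basis
      (B := B.compl₁₂ (L e₁) (L e₂)) (B' := Algebra.traceForm F E) fun i j => ?_) p) q
    rw [LinearMap.compl₁₂_apply, hL, hL, Algebra.traceForm_apply, K.basis_eq]
    fin_cases i <;> fin_cases j <;>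
      simp [hf.isoW, hf.w_adj, hf.cube, h0, h12, h12', K.trace_sq, K.trace_one, K.trace_two, mul_comm _ K.θ,
        ← map_mul, hti]
    all_goals
      first
      | (rw [mul_comm, ← K.trace_one, mul_comm])
      | (rw [mul_comm]; exact K.trace_one.symm)
      | (rw [mul_comm]; exact K.trace_two.symm)
  have hiso : ∀ e, B e e = 0 → B e (w e) = 0 → B e (w (w e)) = 0 → ∀ p q, B (L e p) (L e q) = 0 := by
    intro e ha hb hb' p q
    refine LinearMap.congr_fun (LinearMap.congr_fun (LinearMap.ext_basis K.basis K.basis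
      (B := B.compl₁₂ (L e) (L e)) (B' := 0) fun i j => ?_) p) q
    simp only [LinearMap.compl₁₂_apply, hL]
    fin_cases i <;> fin_cases j <;> simp [hf.isoW, hf.w_adj, hf.cube, ha, hb, hb']
  let D : E × E →ₗ[F] V := (L e₁).coprod (L e₂)
  have hD : ∀ x y, B (D x) (D y) = detForm F E x y := fun x y => by
    simp only [D, LinearMap.coprod_apply, map_add, LinearMap.add_apply, hLL, hiso e₁ (S.alt _) h11 h11',
      hiso e₂ (S.alt _) h22 h22', detForm_apply]
    rw [S.skew (L e₁ y.1) (L e₂ x.2), hLL, map_sub, mul_comm x.2]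
    ring
  have hinj : Function.Injective D := by
    rw [injective_iff_map_eq_zero]
    exact fun x hx => detForm_nondegenerate.1 x fun y => by rw [← hD, hx, map_zero, LinearMap.zero_apply]
  let D' := D.linearEquivOfInjective hinj (by rw [Module.finrank_prod, K.finrank_eq, S.dim])
  refine ⟨D'.symm, fun x y => ?_, K.φ, fun a p => ?_⟩
  · rw [← hD]
    exact congrArg₂ (fun u v => B u v) (D'.apply_symm_apply x).symm (D'.apply_symm_apply y).symm
  · obtain ⟨a₁, b₁, he₁⟩ := Submodule.mem_span_pair.mp hs1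
    obtain ⟨a₂, b₂, he₂⟩ := Submodule.mem_span_pair.mp hs2
    have key : ∀ p : E × E, g (D p) =
        D (a₁ • K.φ p.1 + a₂ • K.φ p.2, b₁ • K.φ p.1 + b₂ • K.φ p.2) := fun p => by
      rw [hg]
      have e := fun e x => LinearMap.congr_fun (hLw e) x
      simp only [LinearMap.comp_apply, AlgEquiv.toLinearMap_apply] at e
      have f1 := LinearMap.congr_fun (hLs e₁ a₁ b₁ he₁.symm) (K.φ p.1)
      have f2 := LinearMap.congr_fun (hLs e₂ a₂ b₂ he₂.symm) (K.φ p.2)
      simp only [LinearMap.comp_apply, LinearMap.add_apply, LinearMap.smul_apply] at f1 f2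
      simp only [D, LinearMap.coprod_apply, map_add, map_smul, e, f1, f2]
      abel
    show D'.symm (g (D (a • p))) = K.φ a • D'.symm (g (D p))
    rw [key, key, show ∀ q, D'.symm (D q) = q from D'.symm_apply_apply,
      show ∀ q, D'.symm (D q) = q from D'.symm_apply_apply]
    refine Prod.ext ?_ ?_ <;> simp [mul_add]

end CfsgLib.NormalCover.SympSix
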