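import Mathlib

/-!
A regular unipotent isometry of a three-dimensional Hermitian space in characteristic three permutes an
orthonormal basis cyclically.
-/

set_option autoImplicit false
set_option linter.style.haveILetI false

namespace CfsgLib.NormalCover

variable {F V : Type*} [Field F] [AddCommGroup V] [Module F V]

/-- A non-degenerate Hermitian form, linear in the first variable. -/
structure IsHerm (σ : F →+* F) (B : V → V → F) : Prop where
  add_left : ∀ x y z, B (x + y) z = B x z + B y z
  smul_left : ∀ (a : F) x z, B (a • x) z = a * B x z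
  symm : ∀ x y, B y x = σ (B x y)
  nondeg : ∀ x, (∀ y, B y x = 0) → x = 0

/-- The cyclic shift of the coordinates. -/
def shift3 : (Fin 3 → F) ≃ₗ[F] (Fin 3 → F) :=
  LinearEquiv.funCongrLeft F F (Equiv.subRight (1 : Fin 3))

lemma shift3_apply (x : Fin 3 → F) (i : Fin 3) : shift3 x i = x (i - 1) := rfl

/-- A regular unipotent isometry is the cyclic shift in a suitable orthonormal basis. -/
lemma exists_shift_equiv [Finite F] [CharP F 3] {σ : F →+* F}
    (hσ : ∀ x, σ (σ x) = x) (hθ : ∃ θ : F, θ + σ θ = 1) (hnorm : ∀ d, σ d = d → ∃ a, a * σ a = d)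
    {B : V → V → F} (hB : IsHerm σ B) [FiniteDimensional F V] (hV : Module.finrank F V = 3)
    {g : Module.End F V} (hg : ∀ u v, B (g u) (g v) = B u v) (hg3 : g ^ 3 = 1)
    {f : V} (hf : g (g f - f) - (g f - f) ≠ 0) :
    ∃ e : (Fin 3 → F) ≃ₗ[F] V, (∀ x y, B (e x) (e y) = ∑ i, x i * σ (y i)) ∧
      ∀ x, g (e x) = e (shift3 x) := by
  classical
  haveI := Fact.mk Nat.prime_three
  have h3 : (3 : F) = 0 := by exact_mod_cast CharP.cast_eq_zero F 3
  have z_left : ∀ z, B 0 z = 0 := fun z => by simpa using hB.smul_left 0 0 z
  have add_right : ∀ x y z, B x (y + z) = B x y + B x z := fun x y z => by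
    rw [hB.symm (y + z) x, hB.add_left, map_add, ← hB.symm y x, ← hB.symm z x]
  have smul_right : ∀ (a : F) x z, B x (a • z) = σ a * B x z := fun a x z => by
    rw [hB.symm (a • z) x, hB.smul_left, map_mul, ← hB.symm z x]
  have z_right : ∀ x, B x 0 = 0 := fun x => by rw [hB.symm 0 x, z_left, map_zero]
  set x := g f - f with hx
  set e := g x - x with he
  have hgf : g f = f + x := by rw [hx]; abel
  have hgx : g x = x + e := by rw [he]; abel
  have hge : g e = e := by
    have h1 : g (g (g f)) = f := by
      simpa [pow_succ, Module.End.mul_apply] using LinearMap.congr_fun hg3 f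
    have h2 : (3 : F) • (g f - g (g f)) = 0 := by rw [h3, zero_smul]
    rw [he, hx]
    simp only [map_sub, h1]
    linear_combination (norm := module) h2
  have hNe : ∀ u, B (g u) e = B u e := fun u => by conv_lhs => rw [← hge, hg]
  have hxe : B x e = 0 := by
    have := hNe f
    rw [hgf, hB.add_left] at this
    linear_combination this
  have hee : B e e = 0 := by
    have := hNe x
    rw [hgx, hB.add_left] at this
    linear_combination this
  set c := B f e with hc
  have hli : LinearIndependent F ![f, x, e] := by
    rw [Fintype.linearIndependent_iff]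
    intro s hs
    simp only [Fin.sum_univ_three, Matrix.cons_val_zero, Matrix.cons_val_one, Matrix.cons_val] at hs
    have h1 := congrArg g hs
    simp only [map_add, map_smul, hgf, hgx, hge, map_zero] at h1
    have h2 : s 0 • x + s 1 • e = 0 := by linear_combination (norm := module) h1 - hs
    have h3 := congrArg g h2
    simp only [map_add, map_smul, hgx, hge, map_zero] at h3
    have h4 : s 0 • e = 0 := by linear_combination (norm := module) h3 - h2
    have s0 : s 0 = 0 := (smul_eq_zero.mp h4).resolve_right hf
    rw [s0, zero_smul, zero_add] at h2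
    have s1 : s 1 = 0 := (smul_eq_zero.mp h2).resolve_right hf
    rw [s0, s1, zero_smul, zero_smul, zero_add, zero_add] at hs
    intro i
    fin_cases i
    · exact s0
    · exact s1
    · exact (smul_eq_zero.mp hs).resolve_right hf
  have hc0 : c ≠ 0 := fun h0 => hf (hB.nondeg e fun y => by
    have htop := hli.span_eq_top_of_card_eq_finrank (by rw [Fintype.card_fin, hV])
    obtain ⟨s, rfl⟩ := (Submodule.mem_span_range_iff_exists_fun F).mp (htop ▸ Submodule.mem_top (x := y))
    simp only [Fin.sum_univ_three, Matrix.cons_val_zero, Matrix.cons_val_one, Matrix.cons_val,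
      hB.add_left, hB.smul_left, hxe, hee, h0, ← hc, mul_zero, add_zero])
  have hex : B e x = 0 := by rw [hB.symm x e, hxe, map_zero]
  have hxx : B x x = -c := by
    have := hg f x
    rw [hgf, hgx, hB.add_left, add_right, add_right, hxe] at this
    linear_combination this
  have hcσ : σ c = c := by
    have := hB.symm x x
    rw [hxx, map_neg] at this
    linear_combination this
  have hef : B e f = c := by rw [hB.symm f e, ← hc, hcσ]
  set b := B x f with hb
  have hfx : B f x = σ b := hB.symm x f
  have hbb : b + σ b = c := by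
    have := hg f f
    rw [hgf, hB.add_left, add_right, add_right, hxx, hfx, ← hb] at this
    linear_combination this
  set s := b / c with hs
  have hsc : s * c = b := div_mul_cancel₀ b hc0
  have hσsc : σ s * c = σ b := by rw [hs, map_div₀, hcσ, div_mul_cancel₀ _ hc0]
  set K := B f f + σ s * σ b + s * b - s * σ s * c with hK
  have hKσ : σ K = K := by
    rw [hK]
    simp only [map_sub, map_add, map_mul, hσ, hcσ, ← hB.symm f f]
    ring
  obtain ⟨θ, hθ⟩ := hθ
  set r := θ * ((c - K) / c) with hr
  have hrr : (r + σ r) * c = c - K := by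
    rw [hr, map_mul, map_div₀, map_sub, hcσ, hKσ, ← add_mul, hθ, one_mul, div_mul_cancel₀ _ hc0]
  set v₀ := f + s • x + r • e with hv₀
  have hgv₀ : g v₀ = f + x + s • (x + e) + r • e := by
    rw [hv₀, map_add, map_add, map_smul, map_smul, hgf, hgx, hge]
  have hnv : B v₀ v₀ = c := by
    rw [hv₀]
    simp only [hB.add_left, hB.smul_left, add_right, smul_right, hxe, hex, hee, hxx, hfx, hef, ← hc, ← hb]
    linear_combination hrr
  have hov : B v₀ (g v₀) = 0 := by
    rw [hgv₀, hv₀]
    simp only [hB.add_left, hB.smul_left, add_right, smul_right, hxe, hex, hee, hxx, hfx, hef, ← hc, ← hb]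
    linear_combination hrr + hσsc + 2 * hbb - hsc - b * h3 + c * h3
  obtain ⟨t, ht⟩ := hnorm c⁻¹ (by rw [map_inv₀, hcσ])
  set v := t • v₀ with hv
  have hvv : B v v = 1 := by
    rw [hv, hB.smul_left, smul_right, hnv, ← mul_assoc, ht, inv_mul_cancel₀ hc0]
  have hvg : B v (g v) = 0 := by rw [hv, map_smul, hB.smul_left, smul_right, hov, mul_zero, mul_zero]
  let w : Fin 3 → V := ![v, g v, g (g v)]
  have hwg : ∀ i, g (w i) = w (i + 1) := fun i => by
    fin_cases i
    · rfl
    · rfl
    · show g (g (g v)) = v
      simpa [pow_succ, Module.End.mul_apply] using LinearMap.congr_fun hg3 v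
  have hw : ∀ i j, B (w i) (w j) = if i = j then 1 else 0 := by
    have h20 : B (g (g v)) v = 0 := by
      have hv3 : g (g (g v)) = v := hwg 2
      rw [← hg, hv3, hvg]
    have h01 := hvg
    have h10 : B (g v) v = 0 := by rw [hB.symm v (g v), hvg, map_zero]
    have h02 : B v (g (g v)) = 0 := by rw [hB.symm (g (g v)) v, h20, map_zero]
    intro i j
    fin_cases i <;> fin_cases j <;> simp [w, hg, hvv, hvg, h10, h20, h02]
  let l : (Fin 3 → F) →ₗ[F] V := Fintype.linearCombination F w
  have hl : ∀ y, l y = ∑ i, y i • w i := fun y => Fintype.linearCombination_apply F w y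
  have hBl : ∀ y i, B (l y) (w i) = y i := fun y i => by
    rw [hl, Fin.sum_univ_three]
    simp only [hB.add_left, hB.smul_left, hw]
    fin_cases i <;> simp
  have hinj : Function.Injective l := fun y y' h => funext fun i => by rw [← hBl y, ← hBl y', h]
  let e₁ := LinearEquiv.ofBijective l ⟨hinj, (LinearMap.injective_iff_surjective_of_finrank_eq_finrank
    (by rw [Module.finrank_fin_fun, hV])).mp hinj⟩
  refine ⟨e₁, fun y z => ?_, fun y => ?_⟩
  · show B (l y) (l z) = _
    conv_lhs => arg 2; rw [hl, Fin.sum_univ_three]
    simp only [add_right, smul_right, hBl, Fin.sum_univ_three]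
    ring
  · show g (l y) = l (shift3 y)
    rw [hl, hl, map_sum]
    simp only [map_smul, hwg, shift3_apply]
    exact Fintype.sum_equiv (Equiv.addRight (1 : Fin 3)) _ _ (fun i => by simp)

end CfsgLib.NormalCover
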