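import Cfsg.Agent.Lib.NormalCover.Linear
import Cfsg.Agent.Lib.Forms.HermFrames
import Cfsg.Agent.Lib.ClassicalForms.Unitary.Center

/-!
Elements of `SU_n(q)` from isometries, determinant corrections, and transitivity on anisotropic lines
and on totally isotropic planes.
-/

set_option autoImplicit false
set_option linter.style.haveILetI false

namespace CfsgLib.NormalCover.Unitary

open ClassicalForms Matrix

variable {F : Type} [Field F] {q n : ℕ}

local notation "V" => (Fin n → F)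
local notation "h⟪" u ", " v "⟫" => Cfsg.hermForm n F q u v

/-- The natural action. -/
noncomputable def act (n : ℕ) (F : Type) [Field F] (q : ℕ) :
    Cfsg.SU n F q →* Module.End F (Fin n → F) :=
  (Linear.act n F).comp (Cfsg.SU n F q).subtype

lemma herm_act (s : Cfsg.SU n F q) (u v : V) : h⟪act n F q s u, act n F q s v⟫ = h⟪u, v⟫ := s.2 u v

/-- An isometry of determinant one as an element of `SU`. -/
noncomputable def ofIso (e : V ≃ₗ[F] V) (hd : LinearMap.det (e : V →ₗ[F] V) = 1)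
    (he : ∀ u v, h⟪e u, e v⟫ = h⟪u, v⟫) : Cfsg.SU n F q :=
  ⟨Linear.ofDetOne e hd, fun u v => by
    show h⟪LinearMap.toMatrix' (e : V →ₗ[F] V) *ᵥ u, LinearMap.toMatrix' (e : V →ₗ[F] V) *ᵥ v⟫ = _
    rw [LinearMap.toMatrix'_mulVec, LinearMap.toMatrix'_mulVec]
    exact he u v⟩

@[simp] lemma act_ofIso (e : V ≃ₗ[F] V) (hd he) :
    act n F q (ofIso e hd he) = (e : V →ₗ[F] V) := Linear.act_ofDetOne e hd

lemma exists_scalar_of_center [Finite F] (hF : Nat.card F = q ^ 2) (hn : 2 ≤ n) {z : Cfsg.SU n F q}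
    (hz : z ∈ Subgroup.center (Cfsg.SU n F q)) : ∃ a : F, ∀ x, act n F q z x = a • x := by
  obtain ⟨a, ha⟩ := exists_scalar_of_commute_su hF hn (suToGU z) fun s hs => by
    rw [← suToGU_suOfGU s hs]
    show suToGU z * suToGU _ = suToGU _ * suToGU z
    rw [← map_mul, ← map_mul, Subgroup.mem_center_iff.mp hz]
  exact ⟨a, fun x => ha x⟩

lemma center_le_subStab [Finite F] (hF : Nat.card F = q ^ 2) (hn : 2 ≤ n) (W : Submodule F V) :
    Subgroup.center (Cfsg.SU n F q) ≤ subStab (act n F q) W := fun z hz => by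
  obtain ⟨a, ha⟩ := exists_scalar_of_center hF hn hz
  exact mem_subStab_of_le _ fun w hw => by rw [ha]; exact W.smul_mem a hw

lemma det_mul_conj (c : Conj F q) (e : V ≃ₗ[F] V) (he : ∀ u v, h⟪e u, e v⟫ = h⟪u, v⟫) :
    LinearMap.det (e : V →ₗ[F] V) * c.σ (LinearMap.det (e : V →ₗ[F] V)) = 1 := by
  set M := LinearMap.toMatrix' (e : V →ₗ[F] V)
  have h1 : Mᵀ * M.map c.σ = 1 := by
    ext i j
    have h := he (Pi.single i 1) (Pi.single j 1)
    rw [c.single_right, c.herm_apply, Pi.single_apply] at h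
    rw [Matrix.mul_apply, Matrix.one_apply]
    simp only [M, Matrix.transpose_apply, Matrix.map_apply, LinearMap.toMatrix'_apply]
    refine h.trans ?_
    rcases eq_or_ne i j with rfl | hij
    · simp
    · rw [if_neg hij, if_neg hij.symm]
  have h2 := congrArg Matrix.det h1
  rw [Matrix.det_mul, Matrix.det_transpose, Matrix.det_one, ← RingHom.mapMatrix_apply,
    ← RingHom.map_det, LinearMap.det_toMatrix'] at h2
  exact h2

/-- A dilatation along an anisotropic vector. -/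
lemma exists_dilation (c : Conj F q) {d : V} (hd : h⟪d, d⟫ ≠ 0) {k : F} (hk : k * c.σ k = 1) :
    ∃ e : V ≃ₗ[F] V, LinearMap.det (e : V →ₗ[F] V) = k ∧ (∀ u v, h⟪e u, e v⟫ = h⟪u, v⟫) ∧
      e d = k • d ∧ ∀ x, h⟪x, d⟫ = 0 → e x = x := by
  set a := (k - 1) * h⟪d, d⟫⁻¹
  let f := LinearMap.transvection (a • c.hl d) d
  have ha : a * h⟪d, d⟫ = k - 1 := by rw [mul_assoc, inv_mul_cancel₀ hd, mul_one]
  have hdet : f.det = k := by
    rw [LinearMap.transvection.det, LinearMap.smul_apply, Conj.hl_apply, smul_eq_mul, ha]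
    ring
  have hk0 : k ≠ 0 := left_ne_zero_of_mul_eq_one hk
  have happ : ∀ x, f x = x + (a * h⟪x, d⟫) • d := fun x => rfl
  let e : V ≃ₗ[F] V := LinearEquiv.ofBijective f
    (by
      have := f.equivOfDetNeZero (by rw [hdet]; exact hk0)
      exact (Module.End.isUnit_iff f).mp ((LinearMap.isUnit_iff_isUnit_det f).mpr (by
        rw [hdet]; exact hk0.isUnit)))
  refine ⟨e, hdet, fun u v => ?_, ?_, fun x hx => ?_⟩
  · show h⟪f u, f v⟫ = _
    rw [happ, happ]
    simp only [c.add_left, c.add_right, c.smul_left, c.smul_right]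
    rw [c.herm_symm v d, map_mul]
    have hD := c.herm_self d
    have key : a + c.σ a + a * c.σ a * h⟪d, d⟫ = 0 := by
      have hσ : c.σ a * h⟪d, d⟫ = c.σ k - 1 := by
        conv_lhs => arg 2; rw [← hD]
        rw [← map_mul, ha, map_sub, map_one]
      refine (mul_right_inj' hd).mp ?_
      linear_combination (h⟪d, d⟫ * c.σ a + 1) * ha + k * hσ + hk
    linear_combination (h⟪u, d⟫ * c.σ (h⟪v, d⟫)) * key
  · show f d = _
    rw [happ, ha, sub_smul, one_smul, add_sub_cancel]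
  · show f x = _
    rw [happ, hx, mul_zero, zero_smul, add_zero]

/-- A hyperbolic torus element. -/
lemma exists_torus (c : Conj F q) {u w : V} (hu : h⟪u, u⟫ = 0) (hw : h⟪w, w⟫ = 0)
    (huw : h⟪u, w⟫ ≠ 0) {a : F} (ha : a ≠ 0) :
    ∃ e : V ≃ₗ[F] V, LinearMap.det (e : V →ₗ[F] V) = a / c.σ a ∧
      (∀ x y, h⟪e x, e y⟫ = h⟪x, y⟫) ∧ e u = a • u ∧ ∀ x, h⟪x, u⟫ = 0 → h⟪x, w⟫ = 0 → e x = x := by
  set b := (c.σ a)⁻¹
  have hσa : c.σ a ≠ 0 := fun h => ha (c.eq_zero h)
  have hba : b * c.σ a = 1 := inv_mul_cancel₀ hσa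
  set C := h⟪u, w⟫ with hC
  have hwu : h⟪w, u⟫ = c.σ C := c.herm_symm u w
  have hwu0 : h⟪w, u⟫ ≠ 0 := fun h => huw (c.eq_zero (hwu.symm.trans h))
  let φ₁ : V →ₗ[F] F := ((a - 1) * C⁻¹) • c.hl w
  let φ₂ : V →ₗ[F] F := ((b - 1) * h⟪w, u⟫⁻¹) • c.hl u
  let f := LinearMap.transvection φ₁ u * LinearMap.transvection φ₂ w
  have hdet : LinearMap.det f = a * b := by
    rw [map_mul, LinearMap.transvection.det, LinearMap.transvection.det]
    simp only [φ₁, φ₂, LinearMap.smul_apply, Conj.hl_apply, smul_eq_mul, mul_assoc,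
      inv_mul_cancel₀ hwu0, ← hC, inv_mul_cancel₀ huw]
    ring
  have happ : ∀ x, f x = x + ((a - 1) * C⁻¹ * h⟪x, w⟫) • u + ((b - 1) * h⟪w, u⟫⁻¹ * h⟪x, u⟫) • w := by
    intro x
    show LinearMap.transvection φ₁ u (LinearMap.transvection φ₂ w x) = _
    simp only [LinearMap.transvection.apply, φ₁, φ₂, LinearMap.smul_apply, Conj.hl_apply, smul_eq_mul,
      c.add_left, c.smul_left, hw, mul_zero, add_zero]
    abel
  let e : V ≃ₗ[F] V := LinearEquiv.ofBijective f
    ((Module.End.isUnit_iff f).mp ((LinearMap.isUnit_iff_isUnit_det f).mpr (by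
      rw [hdet]; exact (mul_ne_zero ha (inv_ne_zero hσa)).isUnit)))
  refine ⟨e, hdet.trans (div_eq_mul_inv _ _).symm, fun x y => ?_, ?_, fun x h1 h2 => ?_⟩
  · show h⟪f x, f y⟫ = _
    rw [happ, happ]
    simp only [c.add_left, c.add_right, c.smul_left, c.smul_right, map_mul, map_inv₀, map_sub,
      map_one, hu, hw, hwu, c.invol, ← hC, mul_zero, add_zero, zero_add]
    rw [c.herm_symm y u, c.herm_symm y w]
    have hσC : c.σ C ≠ 0 := fun h => huw (c.eq_zero h)
    have hσb : c.σ b = a⁻¹ := by rw [map_inv₀, c.invol]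
    rw [hσb, show b = (c.σ a)⁻¹ from rfl]
    field_simp
    ring
  · show f u = _
    rw [happ, hu, ← hC, mul_zero, zero_smul, add_zero, mul_assoc, inv_mul_cancel₀ huw, mul_one,
      sub_smul, one_smul, add_sub_cancel]
  · show f x = _
    rw [happ, h1, h2, mul_zero, mul_zero, zero_smul, zero_smul, add_zero, add_zero]

variable [Finite F]

lemma exists_map_aniso (c : Conj F q) {v u : V} (hv : h⟪v, v⟫ ≠ 0) (hu : h⟪u, u⟫ ≠ 0) :
    ∃ s : Cfsg.SU n F q, (Submodule.span F {v}).map (act n F q s) = Submodule.span F {u} := by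
  classical
  have hv0 : v ≠ 0 := fun h => hv (by rw [h, c.zero_left])
  obtain ⟨t, ht⟩ := c.exists_norm (d := h⟪v, v⟫ * h⟪u, u⟫⁻¹)
    (by rw [map_mul, map_inv₀, c.herm_self, c.herm_self])
  have htu : h⟪t • u, t • u⟫ = h⟪v, v⟫ := by
    rw [c.smul_left, c.smul_right, ← mul_assoc, ht, mul_assoc, inv_mul_cancel₀ hu, mul_one]
  have hw0 : t • u ≠ 0 := fun h => hv (by rw [← htu, h, c.zero_left])
  set X := Submodule.span F {v}
  let L := LinearEquiv.toSpanNonzeroSingleton F V v hv0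
  let f : X →ₗ[F] V := (LinearMap.toSpanSingleton F V (t • u)).comp L.symm.toLinearMap
  have hfL : ∀ r, f (L r) = r • t • u := fun r => by simp [f]
  obtain ⟨g, hg, hgx⟩ := Forms.witt_extension_hermitian c.σ c.ne c.invol (Forms.hermBundled n c.σ)
    (Forms.hermBundled_isSymm c.invol) (Forms.hermBundled_nondegenerate c.invol) X f
    ((smul_left_injective F hw0).comp L.symm.injective) fun x x' => by
      obtain ⟨r, rfl⟩ := L.surjective x
      obtain ⟨r', rfl⟩ := L.surjective x'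
      rw [hfL, hfL, Forms.hermBundled_eq c, Forms.hermBundled_eq c,
        show ((L r : X) : V) = r • v from rfl, show ((L r' : X) : V) = r' • v from rfl,
        c.smul_left r', c.smul_right r, htu, c.smul_left r', c.smul_right r]
  have hgiso : ∀ x y, h⟪g x, g y⟫ = h⟪x, y⟫ := fun x y => by
    rw [← Forms.hermBundled_eq c, ← Forms.hermBundled_eq c]; exact hg y x
  have hgv : g v = t • u := by
    have := hgx (L 1)
    rwa [hfL, one_smul, show ((L 1 : X) : V) = (1 : F) • v from rfl, one_smul] at this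
  obtain ⟨e, he, hei, heu, -⟩ := exists_dilation c hu (k := (LinearMap.det (g : V →ₗ[F] V))⁻¹) (by
    rw [map_inv₀, ← mul_inv, det_mul_conj c g hgiso, inv_one])
  refine ⟨ofIso (g.trans e) ?_ (fun x y => by simp [hei, hgiso]), ?_⟩
  · rw [LinearEquiv.coe_trans, LinearMap.det_comp, he,
      inv_mul_cancel₀ (LinearEquiv.isUnit_det' g).ne_zero]
  · rw [Submodule.map_span, Set.image_singleton, act_ofIso]
    show Submodule.span F {e (g v)} = _
    rw [hgv, map_smul, heu, smul_smul, Submodule.span_singleton_smul_eq]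
    refine (mul_ne_zero (fun h => hw0 (by rw [h, zero_smul])) ?_).isUnit
    exact inv_ne_zero (LinearEquiv.isUnit_det' g).ne_zero

omit [Finite F] in
lemma exists_div_conj (c : Conj F q) {k : F} (hk : k * c.σ k = 1) : ∃ a, a ≠ 0 ∧ a / c.σ a = k := by
  obtain ⟨θ, hθ⟩ : ∃ θ, θ + k * c.σ θ ≠ 0 := by
    by_contra hc
    push Not at hc
    have h1 := hc 1
    rw [map_one, mul_one] at h1
    refine c.ne (RingHom.ext fun x => ?_)
    linear_combination c.σ x * h1 - hc x
  refine ⟨_, hθ, ?_⟩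
  rw [div_eq_iff (fun h => hθ (c.eq_zero h)), map_add, map_mul, c.invol]
  linear_combination (-θ) * hk

/-- Transitivity on totally isotropic planes, relative to one admitting a hyperbolic partner. -/
lemma exists_map_plane (c : Conj F q) {v₁ v₂ u₁ u₂ w : V}
    (hv : Forms.IsHermFrame n q ![v₁, v₂]) (hu : Forms.IsHermFrame n q ![u₁, u₂])
    (hw : h⟪w, w⟫ = 0) (h1 : h⟪u₁, w⟫ ≠ 0) (h2 : h⟪u₂, w⟫ = 0) :
    ∃ s : Cfsg.SU n F q,
      (Submodule.span F {v₁, v₂}).map (act n F q s) = Submodule.span F {u₁, u₂} := by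
  obtain ⟨g, hg⟩ := Forms.exists_gu_map_frame c hv hu
  let e₀ : V ≃ₗ[F] V := Geometric.apEquiv (g : GL (Fin n) F)
  have h0 : ∀ x y, h⟪e₀ x, e₀ y⟫ = h⟪x, y⟫ := fun x y => gu_apply g x y
  obtain ⟨a, ha, hak⟩ := exists_div_conj c (k := (LinearMap.det (e₀ : V →ₗ[F] V))⁻¹) (by
    rw [map_inv₀, ← mul_inv, det_mul_conj c e₀ h0, inv_one])
  obtain ⟨e, he, hei, heu, hefix⟩ := exists_torus c (hu.2 0 0) hw h1 ha
  refine ⟨ofIso (e₀.trans e) ?_ (fun x y => by simp [hei, h0]), ?_⟩
  · rw [LinearEquiv.coe_trans, LinearMap.det_comp, he, hak,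
      inv_mul_cancel₀ (LinearEquiv.isUnit_det' e₀).ne_zero]
  · rw [Submodule.map_span, act_ofIso, Set.image_pair]
    show Submodule.span F {e (e₀ v₁), e (e₀ v₂)} = _
    have g1 : e₀ v₁ = u₁ := hg 0
    have g2 : e₀ v₂ = u₂ := hg 1
    rw [g1, g2, hefix u₂ (hu.2 1 0) h2]
    have : e u₁ = a • u₁ := heu
    rw [this, Submodule.span_insert, Submodule.span_insert, Submodule.span_singleton_smul_eq ha.isUnit]

end CfsgLib.NormalCover.Unitary
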