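import Cfsg.Agent.Lib.NormalCover.SelfConj

/-!
An element of `SU_4(q)` fixes an anisotropic line or a totally isotropic plane, so `PSU_4(q)` is covered
by two classes.
-/

set_option autoImplicit false
set_option linter.style.haveILetI false

namespace CfsgLib.NormalCover.Unitary

open ClassicalForms Polynomial

variable {F : Type} [Field F] {q n : ℕ}

local notation "h⟪" u ", " v "⟫" => Cfsg.hermForm _ F q u v

/-- The orthogonal of a subspace. -/
def perp (c : Conj F q) (W : Submodule F (Fin n → F)) : Submodule F (Fin n → F) where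
  carrier := {x | ∀ w ∈ W, Cfsg.hermForm n F q x w = 0}
  add_mem' {a b} ha hb w hw := by rw [c.add_left, ha w hw, hb w hw, add_zero]
  zero_mem' w _ := c.zero_left w
  smul_mem' a x hx w hw := by rw [c.smul_left, hx w hw, mul_zero]

lemma mem_perp_span_range (c : Conj F q) {k : ℕ} (v : Fin k → Fin n → F) (x : Fin n → F) :
    x ∈ perp c (Submodule.span F (Set.range v)) ↔ ∀ i, Cfsg.hermForm n F q x (v i) = 0 := by
  refine ⟨fun h i => h _ (Submodule.subset_span ⟨i, rfl⟩), fun h w hw => ?_⟩
  induction hw using Submodule.span_induction with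
  | mem y hy => obtain ⟨i, rfl⟩ := hy; exact h i
  | zero => exact c.zero_right x
  | add y z _ _ h1 h2 => rw [c.add_right, h1, h2, add_zero]
  | smul a y _ h1 => rw [c.smul_right, h1, mul_zero]

lemma finrank_perp (c : Conj F q) {k : ℕ} {v : Fin k → Fin n → F} (hv : LinearIndependent F v) :
    Module.finrank F (perp c (Submodule.span F (Set.range v))) + k = n := by
  rw [show perp c (Submodule.span F (Set.range v)) = LinearMap.ker (Forms.orthMap c v) from
    Submodule.ext fun x => (mem_perp_span_range c v x).trans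
      ⟨fun h => LinearMap.mem_ker.mpr (funext h), fun h i => congrFun (LinearMap.mem_ker.mp h) i⟩]
  have h1 := LinearMap.finrank_range_add_finrank_ker (Forms.orthMap c v)
  rw [LinearMap.range_eq_top.mpr (Forms.orthMap_surjective c hv), finrank_top, Module.finrank_fin_fun,
    Module.finrank_fin_fun] at h1
  omega

/-- An invariant subspace is preserved by a finite order map's powers; its orthogonal is invariant. -/
lemma perp_invariant (c : Conj F q) {g : Module.End F (Fin n → F)}
    (hg : ∀ u v, Cfsg.hermForm n F q (g u) (g v) = Cfsg.hermForm n F q u v) {m : ℕ} (hm : 0 < m)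
    (hgm : g ^ m = 1) {W : Submodule F (Fin n → F)} (hW : ∀ w ∈ W, g w ∈ W) :
    ∀ x ∈ perp c W, g x ∈ perp c W := fun x hx w hw => by
  have hpow : ∀ k, (g ^ k) w ∈ W := fun k => by
    induction k with
    | zero => simpa using hw
    | succ k ih => rw [pow_succ', Module.End.mul_apply]; exact hW _ ih
  have : g ((g ^ (m - 1)) w) = w := by
    rw [← Module.End.mul_apply, ← pow_succ', Nat.sub_add_cancel hm, hgm, Module.End.one_apply]
  rw [← this, hg]
  exact hx _ (hpow _)

variable [Fintype F]

/-- Without an eigenvector there is an invariant totally isotropic plane. -/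
lemma exists_plane_of_no_eigen (c : Conj F q) (hF : Fintype.card F = q ^ 2)
    (g : Module.End F (Fin 4 → F)) (hg : ∀ u v, h⟪g u, g v⟫ = h⟪u, v⟫) {m : ℕ} (hm : 0 < m)
    (hgm : g ^ m = 1) (hne : ∀ (v : Fin 4 → F) (t : F), g v = t • v → v = 0) :
    ∃ v₁ v₂, Forms.IsHermFrame 4 q ![v₁, v₂] ∧ g v₁ ∈ Submodule.span F {v₁, v₂} ∧
      g v₂ ∈ Submodule.span F {v₁, v₂} := by
  classical
  have hint : IsIntegral F g := Algebra.IsIntegral.isIntegral g
  set μ := minpoly F g with hμ
  have hμ0 : μ ≠ 0 := minpoly.ne_zero hint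
  have hμ4 : μ.natDegree ≤ 4 := by
    have := natDegree_le_of_dvd g.minpoly_dvd_charpoly g.charpoly_monic.ne_zero
    rwa [LinearMap.charpoly_natDegree, Module.finrank_fin_fun] at this
  have hroot : ∀ t, ¬ μ.IsRoot t := fun t ht => by
    obtain ⟨v, hv⟩ := (Module.End.hasEigenvalue_of_isRoot ht).exists_hasEigenvector
    exact hv.2 (hne v t hv.apply_eq_smul)
  obtain ⟨P, hPm, hP, Q, hQ⟩ := Polynomial.exists_monic_irreducible_factor μ
    (not_isUnit_of_natDegree_pos _ (minpoly.natDegree_pos hint))
  have hQ0 : Q ≠ 0 := fun h => hμ0 (by rw [hQ, h, mul_zero])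
  have hdeg : μ.natDegree = P.natDegree + Q.natDegree := by rw [hQ, natDegree_mul hP.ne_zero hQ0]
  obtain ⟨v, hv0, hPv⟩ : ∃ v, v ≠ 0 ∧ aeval g P v = 0 := by
    by_contra hc
    push Not at hc
    have h0 : aeval g Q = 0 := LinearMap.ext fun x => by
      by_contra hx
      refine hc _ hx ?_
      rw [← Module.End.mul_apply, ← map_mul, ← hQ, minpoly.aeval, LinearMap.zero_apply]
    have : μ.natDegree ≤ Q.natDegree := natDegree_le_of_dvd (minpoly.dvd F g h0) hQ0
    have := hP.natDegree_pos
    omega
  have h1 : P.natDegree ≠ 1 := fun h1 => by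
    obtain ⟨t, ht⟩ := exists_root_of_degree_eq_one ((degree_eq_iff_natDegree_eq_of_pos one_pos).mpr h1)
    exact hroot t (ht.dvd ⟨Q, hQ⟩)
  have hindep : ∀ p : F[X], p ≠ 0 → p.natDegree < P.natDegree → aeval g p v ≠ 0 := fun p hp hlt h => by
    obtain ⟨a, b, hab⟩ := hP.coprime_iff_not_dvd.mpr fun hd => absurd (natDegree_le_of_dvd hd hp) (by omega)
    have := congrArg (fun r => aeval g r v) hab
    simp only [map_add, map_mul, map_one, LinearMap.add_apply, Module.End.mul_apply, Module.End.one_apply,
      hPv, h, map_zero, add_zero] at this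
    exact hv0 this.symm
  have hpos := hP.natDegree_pos
  by_cases h4 : P.natDegree = 4
  · have hP0 : aeval g P = 0 := by
      rw [show P = μ from (eq_of_monic_of_dvd_of_natDegree_le hPm (minpoly.monic hint) ⟨Q, hQ⟩ (show μ.natDegree ≤ P.natDegree by omega)).symm]
      exact minpoly.aeval F g
    have hodd := natDegree_odd c hF hP hPm (aeval_root_inv c g hg hm hgm hP (U := ⊤) (R := ⊥)
      (fun x _ => trivial) (fun x hx => by rw [(Submodule.mem_bot F).mp hx, map_zero]; exact zero_mem _)
      (fun x _ => by rw [hP0]; exact zero_mem _)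
      (fun x _ => by
        rw [Submodule.mem_bot]
        refine ⟨fun hx y _ => by rw [hx, c.zero_right], fun hx => c.ext_right fun y => ?_⟩
        rw [c.zero_left, c.herm_symm, hx y trivial, map_zero]) (u := v) trivial (by simpa using hv0))
    rw [h4] at hodd
    exact absurd hodd (by decide)
  by_cases h3 : P.natDegree = 3
  · exfalso
    let w : Fin 3 → Fin 4 → F := fun i => (g ^ (i : ℕ)) v
    have hw : LinearIndependent F w := by
      rw [Fintype.linearIndependent_iff]
      intro s hs
      set p : F[X] := ∑ i : Fin 3, C (s i) * X ^ (i : ℕ) with hp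
      have hpv : aeval g p v = 0 := by
        rw [hp, map_sum, LinearMap.sum_apply, ← hs]
        exact Finset.sum_congr rfl fun i _ => by simp [w, Algebra.smul_def]
      have hp0 : p = 0 := by
        by_contra h
        refine hindep p h ?_ hpv
        rw [h3]
        refine (natDegree_lt_iff_degree_lt h).mpr ?_
        rw [hp]
        exact degree_sum_fin_lt _
      intro i
      have := congrArg (fun r => coeff r (i : ℕ)) hp0
      simpa [hp, coeff_C_mul_X_pow, Fin.val_inj, Finset.sum_ite_eq] using this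
    set W := Submodule.span F (Set.range w)
    have hWg : ∀ x ∈ W, g x ∈ W := fun x hx => by
      induction hx using Submodule.span_induction with
      | mem y hy =>
        obtain ⟨i, rfl⟩ := hy
        have hsucc : g (w i) = (g ^ ((i : ℕ) + 1)) v := by rw [pow_succ']; rfl
        rw [hsucc]
        by_cases hi : (i : ℕ) + 1 < 3
        · exact Submodule.subset_span ⟨⟨_, hi⟩, rfl⟩
        · have e : (g ^ 3) v = -∑ j : Fin 3, P.coeff j • w j := by
            have h := hPv
            rw [hPm.as_sum, h3] at h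
            simp only [map_add, map_sum, map_mul, map_pow, aeval_X, aeval_C, LinearMap.add_apply,
              LinearMap.sum_apply, ← Algebra.smul_def, LinearMap.smul_apply] at h
            rw [eq_neg_iff_add_eq_zero, ← h, add_left_cancel_iff, Finset.sum_range]
          rw [show (i : ℕ) + 1 = 3 by omega, e]
          exact neg_mem (Submodule.sum_mem _ fun j _ => Submodule.smul_mem _ _ (Submodule.subset_span ⟨j, rfl⟩))
      | zero => simp
      | add y z _ _ h1 h2 => rw [map_add]; exact add_mem h1 h2
      | smul a y _ h1 => rw [map_smul]; exact W.smul_mem a h1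
    have hd := finrank_perp c hw
    obtain ⟨⟨y, hy⟩, hy0, hspan⟩ := finrank_eq_one_iff'.mp
      (show Module.finrank F (perp c (Submodule.span F (Set.range w))) = 1 by omega)
    obtain ⟨t, ht⟩ := hspan ⟨g y, perp_invariant c hg hm hgm hWg y hy⟩
    exact hy0 (Subtype.ext (hne y t (congrArg Subtype.val ht).symm))
  have h2 : P.natDegree = 2 := by omega
  set W := Submodule.span F {v, g v} with hW
  have hg2 : g (g v) = (-P.coeff 0) • v + (-P.coeff 1) • g v := by
    have h := hPv
    rw [hPm.as_sum, h2] at h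
    simp only [Finset.sum_range_succ, Finset.sum_range_zero, map_add, map_mul, map_pow,
      aeval_X, aeval_C, LinearMap.add_apply, ← Algebra.smul_def, LinearMap.smul_apply, pow_zero, pow_one,
      zero_add, Module.End.one_apply] at h
    rw [pow_two, Module.End.mul_apply] at h
    rw [neg_smul, neg_smul, ← sub_eq_zero, ← h]
    simp only [map_one, Module.End.one_apply]
    abel
  have hWg : ∀ x ∈ W, g x ∈ W := fun x hx => by
    obtain ⟨a, b, rfl⟩ := Submodule.mem_span_pair.mp hx
    rw [map_add, map_smul, map_smul, hg2]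
    exact add_mem (W.smul_mem _ (Submodule.subset_span (by simp)))
      (W.smul_mem _ (add_mem (W.smul_mem _ (Submodule.subset_span (by simp)))
        (W.smul_mem _ (Submodule.subset_span (by simp)))))
  have hli : LinearIndependent F ![v, g v] :=
    (LinearIndependent.pair_iff' hv0).mpr fun t ht => hv0 (hne v t ht.symm)
  have hdim : Module.finrank F W = 2 := by
    rw [hW, ← Matrix.range_cons_cons_empty (v) (g v) ![]]
    exact (finrank_span_eq_card hli).trans (Fintype.card_fin 2)
  by_cases hti : ∀ x ∈ W, ∀ y ∈ W, h⟪x, y⟫ = 0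
  · have hv : v ∈ W := Submodule.subset_span (by simp)
    have hgv : g v ∈ W := Submodule.subset_span (by simp)
    refine ⟨v, g v, ⟨hli, fun i j => ?_⟩, hgv, hWg _ hgv⟩
    fin_cases i <;> fin_cases j <;> exact hti _ (by assumption) _ (by assumption)
  exfalso
  set R := W ⊓ perp c W with hR
  have hRg : ∀ x ∈ R, g x ∈ R := fun x hx => ⟨hWg x hx.1, perp_invariant c hg hm hgm hWg x hx.2⟩
  by_cases hR0 : R = ⊥
  · have hodd := natDegree_odd c hF hP hPm (aeval_root_inv c g hg hm hgm hP (U := W) (R := R) hWg hRg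
      (fun x hx => by
        obtain ⟨a, b, rfl⟩ := Submodule.mem_span_pair.mp hx
        rw [map_add, map_smul, map_smul, hPv, smul_zero, zero_add]
        have hcomm : aeval g P (g v) = g (aeval g P v) := by
          conv_lhs => arg 2; rw [← aeval_X (R := F) g]
          conv_rhs => enter [1]; rw [← aeval_X (R := F) g]
          rw [← Module.End.mul_apply, ← Module.End.mul_apply, ← map_mul, ← map_mul, mul_comm]
        rw [hcomm, hPv, map_zero, smul_zero]
        exact zero_mem _)
      (fun x hx => ⟨fun h y hy => by rw [c.herm_symm, h.2 y hy, map_zero],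
        fun h => ⟨hx, fun y hy => by rw [c.herm_symm, h y hy, map_zero]⟩⟩)
      (u := v) (Submodule.subset_span (by simp)) (by rw [hR0]; simpa using hv0))
    rw [h2] at hodd
    exact absurd hodd (by decide)
  have hlt : R < W := lt_of_le_of_ne inf_le_left fun h => hti fun x hx y hy => (h ▸ hx : x ∈ R).2 y hy
  have hd := Submodule.finrank_lt_finrank_of_lt hlt
  have hpos' : 0 < Module.finrank F R := Nat.pos_of_ne_zero fun h => hR0 (Submodule.finrank_eq_zero.mp h)
  obtain ⟨⟨y, hy⟩, hy0, hspan⟩ := finrank_eq_one_iff'.mp (show Module.finrank F R = 1 by omega)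
  obtain ⟨t, ht⟩ := hspan ⟨g y, hRg y hy⟩
  exact hy0 (Subtype.ext (hne y t (congrArg Subtype.val ht).symm))

/-- An isotropic eigenvector lies in an invariant totally isotropic plane, unless there is an
anisotropic eigenvector. -/
lemma exists_plane_of_eigen (c : Conj F q) (hF : Fintype.card F = q ^ 2)
    (g : Module.End F (Fin 4 → F)) (hg : ∀ u v, h⟪g u, g v⟫ = h⟪u, v⟫) {m : ℕ} (hm : 0 < m)
    (hgm : g ^ m = 1) (hne : ∀ (v : Fin 4 → F) (t : F), g v = t • v → h⟪v, v⟫ = 0)
    {e : Fin 4 → F} (he : e ≠ 0) {l : F} (hge : g e = l • e) :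
    ∃ v₁ v₂, Forms.IsHermFrame 4 q ![v₁, v₂] ∧ g v₁ ∈ Submodule.span F {v₁, v₂} ∧
      g v₂ ∈ Submodule.span F {v₁, v₂} := by
  classical
  have hee := hne e l hge
  have hspan : Submodule.span F {e} = Submodule.span F (Set.range ![e]) := by
    rw [Matrix.range_cons, Matrix.range_empty, Set.union_empty]
  set E := perp c (Submodule.span F {e}) with hE
  have hmem : ∀ x, x ∈ E ↔ h⟪x, e⟫ = 0 := fun x => by
    rw [hE, hspan, mem_perp_span_range]
    simp
  have hdimE : Module.finrank F E = 3 := by
    have := finrank_perp c ((linearIndependent_unique_iff (v := ![e])).mpr he : LinearIndependent F ![e])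
    rw [← hspan, ← hE] at this
    omega
  have hse : ∀ z ∈ Submodule.span F {e}, g z ∈ Submodule.span F {e} := fun z hz => by
    obtain ⟨t, rfl⟩ := Submodule.mem_span_singleton.mp hz
    rw [map_smul, hge]
    exact Submodule.smul_mem _ _ (Submodule.smul_mem _ _ (Submodule.mem_span_singleton_self e))
  have hEg : ∀ x ∈ E, g x ∈ E := perp_invariant c hg hm hgm hse
  have heE : e ∈ E := (hmem e).mpr hee
  -- a plane through `e` and `z`
  have finish : ∀ z ∈ E, z ∉ Submodule.span F {e} → (∃ μ t : F, g z = μ • z + t • e) → h⟪z, z⟫ = 0 →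
      ∃ v₁ v₂, Forms.IsHermFrame 4 q ![v₁, v₂] ∧ g v₁ ∈ Submodule.span F {v₁, v₂} ∧
        g v₂ ∈ Submodule.span F {v₁, v₂} := by
    rintro z hz hze ⟨μ, t, hgz⟩ hzz
    refine ⟨e, z, ⟨(LinearIndependent.pair_iff' he).mpr
      fun a ha => hze (Submodule.mem_span_singleton.mpr ⟨a, ha⟩), fun i j => ?_⟩, ?_, ?_⟩
    · have hze' := (hmem z).mp hz
      fin_cases i <;> fin_cases j
      · exact hee
      · exact (c.herm_symm z e).trans (by rw [hze', map_zero])
      · exact hze'
      · exact hzz
    · rw [hge]; exact Submodule.smul_mem _ _ (Submodule.subset_span (by simp))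
    · rw [hgz]
      exact add_mem (Submodule.smul_mem _ _ (Submodule.subset_span (by simp)))
        (Submodule.smul_mem _ _ (Submodule.subset_span (by simp)))
  -- an eigenvector of the action on `e⊥ / e`
  obtain ⟨x, hxE, hxe, μ, t, hgx⟩ : ∃ x ∈ E, x ∉ Submodule.span F {e} ∧ ∃ μ t : F, g x = μ • x + t • e := by
    obtain ⟨x, hxE, hxe⟩ : ∃ x ∈ E, x ∉ Submodule.span F {e} := by
      by_contra hc
      push Not at hc
      have := Submodule.finrank_mono (show E ≤ Submodule.span F {e} from hc)
      rw [hdimE, finrank_span_singleton he] at this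
      omega
    by_cases hgx : g x ∈ Submodule.span F {x, e}
    · obtain ⟨μ, t, h⟩ := Submodule.mem_span_pair.mp hgx
      exact ⟨x, hxE, hxe, μ, t, h.symm⟩
    have hli : LinearIndependent F ![g x, x, e] := by
      refine linearIndependent_fin_cons.mpr ⟨?_, ?_⟩
      · refine (LinearIndependent.pair_iff' (fun h => hxe (by rw [h]; exact zero_mem _))).mpr fun a ha => ?_
        rcases eq_or_ne a 0 with rfl | ha0
        · exact he (by rw [← ha, zero_smul])
        · exact hxe (Submodule.mem_span_singleton.mpr ⟨a⁻¹, by rw [← ha, smul_smul, inv_mul_cancel₀ ha0, one_smul]⟩)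
      · simpa [Set.pair_comm] using hgx
    have hEspan : E = Submodule.span F (Set.range ![g x, x, e]) := by
      refine (Submodule.eq_of_le_of_finrank_eq (Submodule.span_le.mpr ?_) ?_).symm
      · rintro _ ⟨i, rfl⟩
        fin_cases i
        · exact hEg x hxE
        · exact hxE
        · exact heE
      · rw [finrank_span_eq_card hli, hdimE, Fintype.card_fin]
    obtain ⟨s, hs⟩ := (Submodule.mem_span_range_iff_exists_fun F).mp (hEspan ▸ hEg _ (hEg x hxE) :
      g (g x) ∈ Submodule.span F (Set.range ![g x, x, e]))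
    rw [Fin.sum_univ_three] at hs
    simp only [Matrix.cons_val_zero, Matrix.cons_val_one, Matrix.cons_val] at hs
    set P : F[X] := X ^ 2 - C (s 0) * X - C (s 1) with hPdef
    by_cases hr : ∃ μ, P.IsRoot μ
    · obtain ⟨μ, hμ⟩ := hr
      simp [hPdef] at hμ
      refine ⟨g x - (s 0 - μ) • x, sub_mem (hEg x hxE) (E.smul_mem _ hxE), fun h => hgx ?_, μ, s 2, ?_⟩
      · obtain ⟨a, ha⟩ := Submodule.mem_span_singleton.mp h
        exact Submodule.mem_span_pair.mpr ⟨s 0 - μ, a, by rw [ha]; abel⟩
      · rw [map_sub, map_smul, ← hs]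
        linear_combination (norm := module) (-1 : F) • (congrArg (· • x) hμ)
    have hPm : P.Monic := by rw [hPdef]; monicity!
    have hP2 : P.natDegree = 2 := by rw [hPdef]; compute_degree!
    have hP : Irreducible P := by
      rw [hPm.irreducible_iff_roots_eq_zero_of_degree_le_three (by omega) (by omega)]
      exact Multiset.eq_zero_of_forall_notMem fun a ha => hr ⟨a, (mem_roots hPm.ne_zero).mp ha⟩
    have hPx : aeval g P x = s 2 • e := by
      simp only [hPdef, map_sub, map_mul, map_pow, aeval_X, aeval_C, pow_two, LinearMap.sub_apply,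
        Module.End.mul_apply, ← Algebra.smul_def, LinearMap.smul_apply, Module.algebraMap_end_apply]
      rw [← hs]
      abel
    have hcomm : ∀ z, aeval g P (g z) = g (aeval g P z) := fun z => by
      conv_lhs => arg 2; rw [← aeval_X (R := F) g]
      conv_rhs => enter [1]; rw [← aeval_X (R := F) g]
      rw [← Module.End.mul_apply, ← Module.End.mul_apply, ← map_mul, ← map_mul, mul_comm]
    have he' : e ∈ Submodule.span F {e} := Submodule.mem_span_singleton_self e
    have hodd := natDegree_odd c hF hP hPm (aeval_root_inv c g hg hm hgm hP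
      (U := E) (R := Submodule.span F {e}) hEg hse
      (fun z hz => by
        rw [hEspan] at hz
        obtain ⟨r, rfl⟩ := (Submodule.mem_span_range_iff_exists_fun F).mp hz
        rw [map_sum]
        refine Submodule.sum_mem _ fun i _ => ?_
        rw [map_smul]
        refine Submodule.smul_mem _ _ ?_
        have hPe : aeval g P e ∈ Submodule.span F {e} := by
          rw [hPdef]
          simp only [map_sub, map_mul, map_pow, aeval_X, aeval_C, pow_two, LinearMap.sub_apply,
            Module.End.mul_apply, Module.algebraMap_end_apply]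
          exact sub_mem (sub_mem (hse _ (hse _ he')) (Submodule.smul_mem _ _ (hse _ he')))
            (Submodule.smul_mem _ _ he')
        fin_cases i
        · show aeval g P (g x) ∈ _
          rw [hcomm, hPx]
          exact hse _ (Submodule.smul_mem _ _ he')
        · show aeval g P x ∈ _
          rw [hPx]
          exact Submodule.smul_mem _ _ he'
        · exact hPe)
      (fun z hz => ⟨fun h y hy => by
          obtain ⟨a, rfl⟩ := Submodule.mem_span_singleton.mp h
          rw [c.smul_right, (hmem y).mp hy, mul_zero],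
        fun h => by
          rw [hspan]
          refine Forms.mem_span_of_orth c ![e] fun y hy => h y ((hmem y).mpr ?_)
          exact congrFun (LinearMap.mem_ker.mp hy) 0⟩)
      (u := x) hxE hxe)
    rw [hP2] at hodd
    exact absurd hodd (by decide)
  by_cases hxx : h⟪x, x⟫ = 0
  · exact finish x hxE hxe ⟨μ, t, hgx⟩ hxx
  have hxe' : h⟪x, e⟫ = 0 := (hmem x).mp hxE
  have hex : h⟪e, x⟫ = 0 := by rw [c.herm_symm, hxe', map_zero]
  -- eigenvectors over an anisotropic vector are forced to share the eigenvalue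
  have same : ∀ z ∈ E, h⟪z, z⟫ ≠ 0 → ∀ ν s : F, g z = ν • z + s • e → ν = l ∧ s ≠ 0 := by
    intro z hz hzz ν s hgz
    have hze : h⟪z, e⟫ = 0 := (hmem z).mp hz
    have hez : h⟪e, z⟫ = 0 := by rw [c.herm_symm, hze, map_zero]
    refine ⟨?_, fun hs => hzz (hne z ν (by rw [hgz, hs, zero_smul, add_zero]))⟩
    by_contra hνl
    have h0 := hne (z + (s / (ν - l)) • e) ν (by
      rw [map_add, map_smul, hgz, hge]
      have : (s / (ν - l)) * ν = s + (s / (ν - l)) * l := by
        field_simp [sub_ne_zero.mpr hνl]; ring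
      linear_combination (norm := module) -(congrArg (· • e) this))
    rw [c.add_left, c.add_right, c.add_right, c.smul_left, c.smul_right, c.smul_left, c.smul_right,
      hze, hez, hee] at h0
    exact hzz (by linear_combination h0)
  obtain ⟨hμ, ht⟩ := same x hxE hxx μ t hgx
  -- the orthogonal direction
  obtain ⟨y, hyE, hyx, hye⟩ : ∃ y ∈ E, h⟪y, x⟫ = 0 ∧ y ∉ Submodule.span F {e} := by
    by_contra hc
    push Not at hc
    have hle : E ⊓ LinearMap.ker (c.hl x) ≤ Submodule.span F {e} := fun y hy =>
      hc y hy.1 (LinearMap.mem_ker.mp hy.2)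
    have h1 := Submodule.finrank_mono hle
    rw [finrank_span_singleton he] at h1
    have h2 := Submodule.finrank_sup_add_finrank_inf_eq E (LinearMap.ker (c.hl x))
    have h3 := LinearMap.finrank_range_add_finrank_ker (c.hl x)
    have h4 := Submodule.finrank_le (E ⊔ LinearMap.ker (c.hl x))
    have h5 := Submodule.finrank_le (LinearMap.range (c.hl x))
    rw [Module.finrank_fin_fun] at h3 h4
    rw [Module.finrank_self] at h5
    omega
  have hye' : h⟪y, e⟫ = 0 := (hmem y).mp hyE
  have hey : h⟪e, y⟫ = 0 := by rw [c.herm_symm, hye', map_zero]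
  have hxy : h⟪x, y⟫ = 0 := by rw [c.herm_symm, hyx, map_zero]
  have hli : LinearIndependent F ![y, x, e] := by
    refine linearIndependent_fin_cons.mpr ⟨?_, ?_⟩
    · refine (LinearIndependent.pair_iff' (fun h => hxx (by rw [h, c.zero_left]))).mpr fun a ha => ?_
      rcases eq_or_ne a 0 with rfl | ha0
      · exact he (by rw [← ha, zero_smul])
      · exact hxe (Submodule.mem_span_singleton.mpr ⟨a⁻¹, by rw [← ha, smul_smul, inv_mul_cancel₀ ha0, one_smul]⟩)
    · intro h
      have h' : y ∈ Submodule.span F {x, e} := by simpa [Set.pair_comm] using h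
      obtain ⟨a, b, hab⟩ := Submodule.mem_span_pair.mp h'
      have : a * h⟪x, x⟫ = 0 := by
        rw [← hyx, ← hab, c.add_left, c.smul_left, c.smul_left, hex, mul_zero, add_zero]
      rcases mul_eq_zero.mp this with ha | ha
      · exact hye (Submodule.mem_span_singleton.mpr ⟨b, by rw [← hab, ha, zero_smul, zero_add]⟩)
      · exact hxx ha
  have hgyE : g y ∈ Submodule.span F (Set.range ![y, x, e]) := by
    rw [Submodule.eq_of_le_of_finrank_eq (show Submodule.span F (Set.range ![y, x, e]) ≤ E from
      Submodule.span_le.mpr (by rintro _ ⟨i, rfl⟩; fin_cases i <;> assumption))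
      (by rw [finrank_span_eq_card hli, hdimE, Fintype.card_fin])]
    exact hEg y hyE
  obtain ⟨s, hs⟩ := (Submodule.mem_span_range_iff_exists_fun F).mp hgyE
  rw [Fin.sum_univ_three] at hs
  simp only [Matrix.cons_val_zero, Matrix.cons_val_one, Matrix.cons_val] at hs
  have hgy : g y = s 0 • y + s 2 • e := by
    have h0 := hg y x
    rw [hgx, ← hs] at h0
    simp only [c.add_left, c.add_right, c.smul_left, c.smul_right, hyx, hye', hex, hxe', hee] at h0
    have hμ0 : c.σ μ ≠ 0 := fun h => by
      have := hg x x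
      rw [hgx] at this
      simp only [c.add_left, c.add_right, c.smul_left, c.smul_right, hex, hxe', hee, h] at this
      exact hxx (by linear_combination -this)
    have hs1 : s 1 = 0 := by
      have : s 1 * (c.σ μ * h⟪x, x⟫) = 0 := by linear_combination h0
      exact (mul_eq_zero.mp this).resolve_right (mul_ne_zero hμ0 hxx)
    rw [← hs, hs1, zero_smul, add_zero]
  by_cases hyy : h⟪y, y⟫ = 0
  · exact finish y hyE hye ⟨_, _, hgy⟩ hyy
  obtain ⟨hα, -⟩ := same y hyE hyy _ _ hgy
  set z := (s 2) • x - t • y with hz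
  have hgz : g z = l • z := by
    rw [hz, map_sub, map_smul, map_smul, hgx, hgy, hμ, hα]
    module
  refine finish z (sub_mem (E.smul_mem _ hxE) (E.smul_mem _ hyE)) (fun h => ?_)
    ⟨l, 0, by rw [hgz, zero_smul, add_zero]⟩ (hne z l hgz)
  obtain ⟨a, ha⟩ := Submodule.mem_span_singleton.mp h
  have : t * h⟪y, y⟫ = 0 := by
    have := congrArg (fun w => h⟪w, y⟫) ha
    simp only [hz, c.sub_left, c.smul_left, hey, hxy] at this
    linear_combination this
  exact mul_ne_zero ht hyy this

/-- `PSU_4(q)` is covered by two classes. -/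
theorem hasCover_psu_four (hF : Fintype.card F = q ^ 2) : HasCover (Cfsg.PSU 4 F q) := by
  classical
  have hN : Nat.card F = q ^ 2 := by rw [Nat.card_eq_fintype_card, hF]
  obtain ⟨c⟩ := exists_conj hN
  obtain ⟨l, hl, hl1, -⟩ := exists_norm_one_ne hN c
  obtain ⟨ν, hν⟩ := c.exists_norm (d := -1) (by rw [map_neg, map_one])
  have hν0 : ν ≠ 0 := fun h => by rw [h, zero_mul] at hν; exact neg_ne_zero.mpr one_ne_zero hν.symm
  let e : Fin 4 → Fin 4 → F := fun i => Pi.single i 1
  have hee : ∀ i j, h⟪e i, e j⟫ = if j = i then 1 else 0 := fun i j => by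
    simp only [e]
    rw [c.single_right, Pi.single_apply]
  let u₁ := e 0 + ν • e 1
  let u₂ := e 2 + ν • e 3
  let w := e 0 + (ν * l) • e 1
  have hu11 : h⟪u₁, u₁⟫ = 0 := by
    simp [u₁, c.add_left, c.add_right, c.smul_left, c.smul_right, hee]
    linear_combination hν
  have hu22 : h⟪u₂, u₂⟫ = 0 := by
    simp [u₂, c.add_left, c.add_right, c.smul_left, c.smul_right, hee]
    linear_combination hν
  have hww : h⟪w, w⟫ = 0 := by
    simp [w, c.add_left, c.add_right, c.smul_left, c.smul_right, hee, map_mul]
    linear_combination (l * c.σ l) * hν - hl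
  have hu12 : h⟪u₁, u₂⟫ = 0 := by simp [u₁, u₂, c.add_left, c.add_right, c.smul_left, c.smul_right, hee]
  have hw2 : h⟪w, u₂⟫ = 0 := by simp [w, u₂, c.add_left, c.add_right, c.smul_left, c.smul_right, hee]
  have hu1w : h⟪u₁, w⟫ ≠ 0 := by
    simp [u₁, w, c.add_left, c.add_right, c.smul_left, c.smul_right, hee, map_mul]
    intro h
    refine hl1 ?_
    have : c.σ l = 1 := by linear_combination (-1 : F) * h + c.σ l * hν
    rw [← c.invol l, this, map_one]
  have hwu1 : h⟪w, u₁⟫ ≠ 0 := fun h => hu1w (by rw [c.herm_symm, h, map_zero])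
  have sym0 : ∀ {a b : Fin 4 → F}, h⟪a, b⟫ = 0 → h⟪b, a⟫ = 0 := fun h => by rw [c.herm_symm, h, map_zero]
  have frame : ∀ a, h⟪a, a⟫ = 0 → h⟪a, u₂⟫ = 0 → a 0 = 1 → Forms.IsHermFrame 4 q ![a, u₂] := by
    intro a haa ha2 ha0
    refine ⟨(LinearIndependent.pair_iff' (fun h => by simpa [h] using ha0)).mpr fun r hr => ?_, fun i j => ?_⟩
    · have h0 := congrFun hr 0
      have h2 := congrFun hr 2
      simp [u₂, e, ha0] at h0 h2
      simp [h0] at h2
    · fin_cases i <;> fin_cases j
      · exact haa
      · exact ha2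
      · exact sym0 ha2
      · exact hu22
  have hfu : Forms.IsHermFrame 4 q ![u₁, u₂] := frame u₁ hu11 hu12 (by simp [u₁, e])
  have hfw : Forms.IsHermFrame 4 q ![w, u₂] := frame w hww hw2 (by simp [w, e])
  have hH : subStab (act 4 F q) (Submodule.span F {e 0}) ≠ ⊤ := fun h => by
    obtain ⟨s, hs⟩ := exists_map_aniso c (v := e 0) (u := e 1) (by simp [hee]) (by simp [hee])
    have h0 : (Submodule.span F {e 0}).map (act 4 F q s) = Submodule.span F {e 0} :=
      (h ▸ Subgroup.mem_top s : s ∈ subStab (act 4 F q) (Submodule.span F {e 0}))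
    rw [hs] at h0
    obtain ⟨a, ha⟩ := Submodule.mem_span_singleton.mp (h0 ▸ Submodule.mem_span_singleton_self (e 1))
    simpa [e] using congrFun ha 1
  have hK : subStab (act 4 F q) (Submodule.span F {u₁, u₂}) ≠ ⊤ := fun h => by
    obtain ⟨s, hs⟩ := exists_map_plane c hfu hfw hu11 hwu1 (sym0 hu12)
    have h0 : (Submodule.span F {u₁, u₂}).map (act 4 F q s) = Submodule.span F {u₁, u₂} :=
      (h ▸ Subgroup.mem_top s : s ∈ subStab (act 4 F q) (Submodule.span F {u₁, u₂}))
    rw [hs] at h0
    obtain ⟨a, b, hab⟩ := Submodule.mem_span_pair.mp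
      (h0 ▸ Submodule.subset_span (by simp) : w ∈ Submodule.span F {u₁, u₂})
    have h0' := congrFun hab 0
    have h1' := congrFun hab 1
    simp [u₁, u₂, w, e] at h0' h1'
    rw [h0', one_mul] at h1'
    exact hl1 (mul_left_cancel₀ hν0 (h1'.symm.trans (mul_one ν).symm))
  refine hasCover_quotient _ hH hK (center_le_subStab hN (by norm_num) _)
    (center_le_subStab hN (by norm_num) _) fun g => ?_
  by_cases hev : ∃ (v : Fin 4 → F) (t : F), h⟪v, v⟫ ≠ 0 ∧ act 4 F q g v = t • v
  · obtain ⟨v, t, hv, hgv⟩ := hev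
    obtain ⟨s, hs⟩ := exists_map_aniso c (u := e 0) hv (by simp [hee])
    refine ⟨s, Or.inl (conj_mem_subStab _ (fun x hx => ?_) hs)⟩
    obtain ⟨r, rfl⟩ := Submodule.mem_span_singleton.mp hx
    rw [map_smul, hgv]
    exact Submodule.smul_mem _ _ (Submodule.smul_mem _ _ (Submodule.mem_span_singleton_self v))
  push Not at hev
  have hne : ∀ (v : Fin 4 → F) (t : F), act 4 F q g v = t • v → h⟪v, v⟫ = 0 := fun v t h => by
    by_contra hv
    exact hev v t hv h
  have hgm : act 4 F q g ^ orderOf g = 1 := by rw [← map_pow, pow_orderOf_eq_one, map_one]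
  haveI : Finite (Cfsg.SU 4 F q) := inferInstance
  obtain ⟨v₁, v₂, hv, h1, h2⟩ : ∃ v₁ v₂, Forms.IsHermFrame 4 q ![v₁, v₂] ∧
      act 4 F q g v₁ ∈ Submodule.span F {v₁, v₂} ∧ act 4 F q g v₂ ∈ Submodule.span F {v₁, v₂} := by
    by_cases hei : ∃ (v : Fin 4 → F) (t : F), v ≠ 0 ∧ act 4 F q g v = t • v
    · obtain ⟨v, t, hv, hgv⟩ := hei
      exact exists_plane_of_eigen c hF _ (herm_act g) (orderOf_pos g) hgm hne hv hgv
    · push Not at hei
      exact exists_plane_of_no_eigen c hF _ (herm_act g) (orderOf_pos g) hgm fun v t h => by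
        by_contra hv
        exact hei v t hv h
  obtain ⟨s, hs⟩ := exists_map_plane c hv hfu hww hu1w (sym0 hw2)
  refine ⟨s, Or.inr (conj_mem_subStab _ (fun x hx => ?_) hs)⟩
  obtain ⟨a, b, rfl⟩ := Submodule.mem_span_pair.mp hx
  rw [map_add, map_smul, map_smul]
  exact add_mem (Submodule.smul_mem _ _ h1) (Submodule.smul_mem _ _ h2)

end CfsgLib.NormalCover.Unitary
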