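import Cfsg.Agent.Lib.NormalCover.UnitaryFour
import Cfsg.Agent.Lib.NormalCover.UnipotentThree

/-!
For `q` a power of three every element of `SU_3(q)` fixes an anisotropic line or normalises a field of
`q^6` elements, so `PSU_3(q)` is covered by two classes.
-/

set_option autoImplicit false
set_option linter.style.haveILetI false

namespace CfsgLib.NormalCover.Unitary

open ClassicalForms Polynomial

variable {F : Type} [Field F] {q : ℕ}

local notation "V" => (Fin 3 → F)
local notation "h⟪" u ", " v "⟫" => Cfsg.hermForm 3 F q u v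

variable {E : Type} [Field E] [Finite E] [Algebra F E]

/-- Multiplication by `a` transported to coordinates. -/
noncomputable def fieldMul (ι : (Fin 3 → F) ≃ₗ[F] E) (a : E) : Module.End F (Fin 3 → F) :=
  ι.symm.toLinearMap ∘ₗ LinearMap.mulLeft F a ∘ₗ ι.toLinearMap

omit [Finite E] in
lemma fieldMul_apply (ι : (Fin 3 → F) ≃ₗ[F] E) (a : E) (x : V) : fieldMul ι a x = ι.symm (a * ι x) := rfl

/-- The elements semilinear over the field. -/
noncomputable def fieldNormaliser [Fintype F] (ι : (Fin 3 → F) ≃ₗ[F] E) : Subgroup (Cfsg.SU 3 F q) where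
  carrier := {s | ∃ i : ℕ, ∀ a x, act 3 F q s (fieldMul ι a x) =
    fieldMul ι (a ^ Fintype.card F ^ i) (act 3 F q s x)}
  one_mem' := ⟨0, fun a x => by simp [map_one]⟩
  mul_mem' := by
    rintro s t ⟨i, hi⟩ ⟨j, hj⟩
    exact ⟨j + i, fun a x => by
      rw [map_mul, Module.End.mul_apply, hj, hi, ← pow_mul, ← pow_add, Module.End.mul_apply]⟩
  inv_mem' := by
    rintro s ⟨i, hi⟩
    have hpow : ∀ k, ∃ j : ℕ, ∀ a x, act 3 F q (s ^ k) (fieldMul ι a x) =
        fieldMul ι (a ^ Fintype.card F ^ j) (act 3 F q (s ^ k) x) := fun k => by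
      induction k with
      | zero => exact ⟨0, fun a x => by simp⟩
      | succ k ih =>
        obtain ⟨j, hj⟩ := ih
        exact ⟨i + j, fun a x => by
          rw [pow_succ, map_mul, Module.End.mul_apply, hi, hj, ← pow_mul, ← pow_add, Module.End.mul_apply]⟩
    rw [show s⁻¹ = s ^ (orderOf s - 1) from inv_eq_of_mul_eq_one_right (by
      rw [← pow_succ', Nat.sub_add_cancel (orderOf_pos s), pow_orderOf_eq_one])]
    exact hpow _

variable [Fintype F]

section

variable (c : Conj F q) (hF : Fintype.card F = q ^ 2) (cE : Conj E (q ^ 3))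
include hF

omit [Finite E] in
lemma tau_algebraMap (r : F) : cE.σ (algebraMap F E r) = algebraMap F E (c.σ r) := by
  rw [cE.apply, c.apply, ← map_pow, show q ^ 3 = q * Fintype.card F by rw [hF]; ring, pow_mul,
    FiniteField.pow_card]

lemma trace_tau (x : E) : Algebra.trace F E (cE.σ x) = c.σ (Algebra.trace F E x) := by
  haveI : Module.Finite F E := Module.Finite.of_finite
  refine (algebraMap F E).injective ?_
  rw [← tau_algebraMap c hF cE, FiniteField.algebraMap_trace_eq_sum_pow,
    FiniteField.algebraMap_trace_eq_sum_pow, map_sum]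
  simp only [map_pow]

lemma norm_tau (x : E) : Algebra.norm F (cE.σ x) = c.σ (Algebra.norm F x) := by
  haveI : Module.Finite F E := Module.Finite.of_finite
  refine (algebraMap F E).injective ?_
  rw [← tau_algebraMap c hF cE, FiniteField.algebraMap_norm_eq_prod_pow,
    FiniteField.algebraMap_norm_eq_prod_pow, map_prod]
  simp only [map_pow]

lemma exists_unit_norm_one {δ : F} (hδ : δ * c.σ δ = 1) :
    ∃ u : E, u * cE.σ u = 1 ∧ Algebra.norm F u = δ := by
  obtain ⟨θ, hθ, hθδ⟩ := exists_div_conj c hδ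
  obtain ⟨w, hw⟩ := FiniteField.norm_surjective F E θ
  have hw0 : w ≠ 0 := fun h => hθ (by rw [← hw, h, Algebra.norm_zero])
  have hτw : cE.σ w ≠ 0 := fun h => hw0 (cE.eq_zero h)
  refine ⟨w / cE.σ w, ?_, ?_⟩
  · rw [map_div₀, cE.invol, div_mul_div_cancel₀ hτw, div_self hw0]
  · rw [div_eq_mul_inv, map_mul]
    have h := congrArg (Algebra.norm F) (mul_inv_cancel₀ hτw)
    rw [map_mul, map_one, norm_tau c hF cE, hw] at h
    rw [hw, eq_inv_of_mul_eq_one_right h, ← div_eq_mul_inv, hθδ]

lemma isHerm_trace : IsHerm c.σ fun x y : E => Algebra.trace F E (x * cE.σ y) where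
  add_left x y z := by rw [add_mul, map_add]
  smul_left a x z := by rw [smul_mul_assoc, map_smul, smul_eq_mul]
  symm x y := by rw [← trace_tau c hF cE (x * cE.σ y), cE.σ.map_mul, cE.invol, mul_comm]
  nondeg x h := by
    haveI : Module.Finite F E := Module.Finite.of_finite
    refine cE.eq_zero ((traceForm_nondegenerate F E).1 (cE.σ x) fun y => ?_)
    rw [Algebra.traceForm_apply, mul_comm]
    exact h y

include c in
lemma exists_iota [CharP F 3] (hdim : Module.finrank F E = 3) :
    ∃ ι : (Fin 3 → F) ≃ₗ[F] E, (∀ x y, Algebra.trace F E (ι x * cE.σ (ι y)) = h⟪x, y⟫) ∧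
      ∀ x, ι x ^ Fintype.card F = ι (shift3 x) := by
  haveI : Module.Finite F E := Module.Finite.of_finite
  set φ := FiniteField.frobeniusAlgHom F E with hφ
  have happ : ∀ x, φ x = x ^ Fintype.card F := fun x => rfl
  let φe : E ≃ₐ[F] E := FiniteField.frobeniusAlgEquivOfAlgebraic F E
  have hinv : ∀ z, Algebra.trace F E (φ z) = Algebra.trace F E z := fun z =>
    Algebra.trace_eq_of_algEquiv φe z
  have hiso : ∀ u v, Algebra.trace F E (φ u * cE.σ (φ v)) = Algebra.trace F E (u * cE.σ v) := fun u v => by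
    rw [show cE.σ (φ v) = φ (cE.σ v) by rw [happ, happ, map_pow], ← map_mul, hinv]
  have hφ3 : φ ^ 3 = 1 := by
    rw [← hdim, ← FiniteField.orderOf_frobeniusAlgHom F E, pow_orderOf_eq_one]
  obtain ⟨f, hf⟩ := Algebra.trace_surjective F E 1
  obtain ⟨e, he, heg⟩ := exists_shift_equiv (σ := c.σ) c.invol c.exists_trace_one (fun d hd => c.exists_norm hd)
    (isHerm_trace c hF cE) hdim (g := φ.toLinearMap) hiso
    (LinearMap.ext fun x => by
      simpa [pow_succ, Module.End.mul_apply] using AlgHom.congr_fun hφ3 x)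
    (f := f) (by
      have hsum := FiniteField.algebraMap_trace_eq_sum_pow (K := F) (L := E) (x := f)
      rw [hf, map_one, hdim, Nat.card_eq_fintype_card] at hsum
      simp only [Finset.sum_range_succ, Finset.sum_range_zero, zero_add, pow_zero, pow_one] at hsum
      haveI : CharP E 3 := charP_of_injective_algebraMap (algebraMap F E).injective 3
      have h3 : (3 : E) = 0 := by exact_mod_cast CharP.cast_eq_zero E 3
      show φ (φ f - f) - (φ f - f) ≠ 0
      rw [map_sub, happ, happ, ← pow_mul, ← pow_two]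
      intro h
      exact one_ne_zero (α := E) (by linear_combination h + hsum + (f ^ Fintype.card F) * h3))
  exact ⟨e, fun x y => by rw [he, c.herm_apply], fun x => heg x⟩

end

/-- An element with no eigenvector is conjugate into the field normaliser. -/
lemma exists_conj_of_irreducible (c : Conj F q) (hF : Fintype.card F = q ^ 2) [CharP F 3]
    (hq : ∃ k, q = 3 ^ k) (cE : Conj E (q ^ 3)) (hdim : Module.finrank F E = 3)
    (ι : (Fin 3 → F) ≃ₗ[F] E) (hι : ∀ x y, Algebra.trace F E (ι x * cE.σ (ι y)) = h⟪x, y⟫)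
    (g : Cfsg.SU 3 F q) (hne : ∀ (v : Fin 3 → F) (t : F), act 3 F q g v = t • v → v = 0) :
    ∃ s : Cfsg.SU 3 F q, s * g * s⁻¹ ∈ fieldNormaliser ι := by
  classical
  haveI : Module.Finite F E := Module.Finite.of_finite
  haveI := Fact.mk Nat.prime_three
  set G := act 3 F q g with hG
  have hroot : ∀ t, ¬ G.charpoly.IsRoot t := fun t ht => by
    obtain ⟨v, hv⟩ := ((Module.End.hasEigenvalue_iff_isRoot_charpoly _ _).mpr ht).exists_hasEigenvector
    exact hv.2 (hne v t hv.apply_eq_smul)
  obtain ⟨ψ, hψ⟩ := exists_field_action (K := E) G fun P hP hdvd => by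
    rw [hdim]
    have hdeg : G.charpoly.natDegree = 3 := by rw [LinearMap.charpoly_natDegree, Module.finrank_fin_fun]
    obtain ⟨Q, hQ⟩ := hdvd
    have hQ0 : Q ≠ 0 := fun h => G.charpoly_monic.ne_zero (by rw [hQ, h, mul_zero])
    have hsum := hdeg
    rw [hQ, natDegree_mul hP.ne_zero hQ0] at hsum
    have h1 : ∀ R : F[X], R ∣ G.charpoly → R.natDegree ≠ 1 := fun R hR h1 => by
      obtain ⟨t, ht⟩ := exists_root_of_degree_eq_one ((degree_eq_iff_natDegree_eq_of_pos one_pos).mpr h1)
      exact hroot t (ht.dvd hR)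
    have := h1 P ⟨Q, hQ⟩
    have := h1 Q ⟨P, by rw [hQ, mul_comm]⟩
    have := hP.natDegree_pos
    rw [show P.natDegree = 3 by omega]
  obtain ⟨n, e₁, hn, he₁⟩ := exists_model ψ
  rw [Module.finrank_fin_fun, hdim] at hn
  obtain rfl : n = 1 := by omega
  let e : (Fin 3 → F) ≃ₗ[F] E := e₁.trans (LinearEquiv.funUnique (Fin 1) F E)
  have he : ∀ a x, e (ψ a x) = a * e x := fun a x => by simp [e, he₁]
  set α : E := e (G (e.symm 1)) with hα
  have hgα : ∀ x, e (G x) = α * e x := fun x => by
    have hx : ψ (e x) (e.symm 1) = x := e.injective (by rw [he, e.apply_symm_apply, mul_one])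
    conv_lhs => rw [← hx, ← Module.End.mul_apply, (hψ (e x)).eq, Module.End.mul_apply, he]
    exact mul_comm _ _
  have hαF : ∀ r, α ≠ algebraMap F E r := fun r hr => by
    have h0 := hne (e.symm 1) r (e.injective (by
      rw [hgα, map_smul, e.apply_symm_apply, mul_one, hr, Algebra.algebraMap_eq_smul_one]))
    exact one_ne_zero (α := E) (by simpa using congrArg e h0)
  have hgen : Function.Surjective (aeval (R := F) α) := by
    haveI := Subalgebra.isSimpleOrder_of_finrank_prime F E (by rw [hdim]; exact Nat.prime_three)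
    have htop : Algebra.adjoin F {α} = ⊤ := by
      refine (eq_bot_or_eq_top _).resolve_left fun h => ?_
      obtain ⟨r, hr⟩ := Algebra.mem_bot.mp (h ▸ Algebra.self_mem_adjoin_singleton F α)
      exact hαF r hr.symm
    intro y
    have hy : y ∈ Algebra.adjoin F {α} := htop ▸ Algebra.mem_top
    rwa [Algebra.adjoin_singleton_eq_range_aeval, AlgHom.mem_range] at hy
  have hα0 : α ≠ 0 := fun h => hαF 0 (by rw [h, map_zero])
  -- the transported form
  set B : E → E → F := fun x y => h⟪e.symm x, e.symm y⟫ with hB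
  have hBinv : ∀ x y, B (α * x) (α * y) = B x y := fun x y => by
    have h : ∀ z, e.symm (α * z) = G (e.symm z) := fun z =>
      e.injective (by rw [hgα, e.apply_symm_apply, e.apply_symm_apply])
    simp only [hB, h]
    exact herm_act g _ _
  have hBadj : ∀ (p : F[X]) x y, B (aeval α p * x) y = B x (aeval α⁻¹ (p.map c.σ) * y) := by
    intro p
    induction p using Polynomial.induction_on' with
    | add a b ha hb =>
      intro x y
      simp only [hB, map_add, Polynomial.map_add, add_mul, c.add_left, c.add_right] at ha hb ⊢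
      rw [ha, hb]
    | monomial k r =>
      intro x y
      rw [Polynomial.map_monomial, aeval_monomial, aeval_monomial, mul_assoc, mul_assoc, ← Algebra.smul_def,
        ← Algebra.smul_def]
      simp only [hB, map_smul, c.smul_left, c.smul_right, c.invol]
      congr 1
      show B (α ^ k * x) y = B x (α⁻¹ ^ k * y)
      induction k generalizing x y with
      | zero => simp
      | succ k ih =>
        rw [pow_succ, mul_assoc, ih, pow_succ', mul_assoc]
        conv_lhs => rw [show α⁻¹ ^ k * y = α * (α⁻¹ * (α⁻¹ ^ k * y)) by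
          rw [← mul_assoc α, mul_inv_cancel₀ hα0, one_mul], hBinv]
  have hnd : ∀ y, (∀ x, B x y = 0) → y = 0 := fun y h => by
    have : e.symm y = 0 := c.ext_right fun v => by
      rw [c.zero_left, c.herm_symm]
      have := h (e v)
      simp only [hB, e.symm_apply_apply] at this
      rw [this, map_zero]
    simpa using congrArg e this
  have hconj : aeval α⁻¹ ((minpoly F α).map c.σ) = 0 := by
    have h : ∀ x, B x (aeval α⁻¹ ((minpoly F α).map c.σ) * 1) = 0 := fun x => by
      rw [← hBadj, minpoly.aeval, zero_mul]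
      simp only [hB, map_zero, c.zero_left]
    simpa using hnd _ h
  obtain ⟨θ, j, hθr, hθα, hj, hθq, hmod⟩ := exists_semilinear c hF hgen hconj
  rw [hdim] at hj hmod
  obtain rfl : j = 2 := by omega
  have hτα : cE.σ α = α⁻¹ := by
    haveI : CharP E 3 := charP_of_injective_algebraMap (algebraMap F E).injective 3
    obtain ⟨k, hk⟩ := hq
    rw [← hθα]
    refine (iterateFrobenius E 3 k).injective ?_
    rw [iterateFrobenius_def, iterateFrobenius_def, ← hk, hθq, cE.apply, ← pow_mul, hF]
    ring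
  obtain ⟨a, ha⟩ : ∃ a : E, ∀ x, B x 1 = Algebra.trace F E (a * x) := by
    obtain ⟨a, ha⟩ := ((Algebra.traceForm F E).toDual (traceForm_nondegenerate F E)).surjective
      ((c.hl (e.symm 1)).comp e.symm.toLinearMap)
    exact ⟨a, fun x => (LinearMap.congr_fun ha x).symm.trans (Algebra.traceForm_apply ..)⟩
  have hform : ∀ x y, B x y = Algebra.trace F E (a * (x * cE.σ y)) := fun x y => by
    obtain ⟨p, rfl⟩ := hgen y
    have hτ : ∀ p : F[X], cE.σ (aeval α p) = aeval α⁻¹ (p.map c.σ) := fun p => by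
      induction p using Polynomial.induction_on' with
      | add u v hu hv => simp [hu, hv]
      | monomial k r =>
        rw [Polynomial.map_monomial, aeval_monomial, aeval_monomial, map_mul, map_pow, hτα,
          tau_algebraMap c hF cE]
    rw [hτ]
    have hinv' : ∀ (p : F[X]) z, B z (aeval α p) = B (aeval α⁻¹ (p.map c.σ) * z) 1 := by
      intro p
      induction p using Polynomial.induction_on' with
      | add u v hu hv =>
        intro z
        simp only [hB, map_add, Polynomial.map_add, add_mul, c.add_left, c.add_right] at hu hv ⊢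
        rw [hu, hv]
      | monomial k r =>
        intro z
        rw [Polynomial.map_monomial, aeval_monomial, aeval_monomial, mul_assoc, ← Algebra.smul_def,
          ← Algebra.smul_def]
        simp only [hB, map_smul, c.smul_left, c.smul_right]
        congr 1
        show B z (α ^ k) = B (α⁻¹ ^ k * z) 1
        have hk := hBadj (X ^ k) (α⁻¹ ^ k * z) (α ^ k)
        rw [map_pow, aeval_X, ← mul_assoc, ← mul_pow, mul_inv_cancel₀ hα0, one_pow, one_mul,
          Polynomial.map_pow, Polynomial.map_X, map_pow, aeval_X, ← mul_pow, inv_mul_cancel₀ hα0,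
          one_pow] at hk
        exact hk
    rw [hinv', ha]
    congr 1
    ring
  have hτa : cE.σ a = a := by
    refine sub_eq_zero.mp ((traceForm_nondegenerate F E).1 _ fun z => ?_)
    rw [Algebra.traceForm_apply, sub_mul, map_sub, sub_eq_zero]
    have h1 : B 1 (cE.σ z) = c.σ (B (cE.σ z) 1) := c.herm_symm _ _
    rw [hform, hform, map_one, mul_one, one_mul, cE.invol, ← trace_tau c hF cE, cE.σ.map_mul, cE.invol] at h1
    exact h1.symm
  obtain ⟨z, hz⟩ := cE.exists_norm hτa
  have hz0 : z ≠ 0 := fun h => by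
    have := hnd 1 fun x => by rw [hform, ← hz, h, zero_mul, zero_mul, map_zero]
    exact one_ne_zero this
  let mz : E ≃ₗ[F] E := LinearEquiv.ofBijective (LinearMap.mulLeft F z) (mulLeft_bijective₀ z hz0)
  let L₀ : (Fin 3 → F) ≃ₗ[F] (Fin 3 → F) := e.trans (mz.trans ι.symm)
  have hιL : ∀ x, ι (L₀ x) = z * e x := fun x => by simp [L₀]; rfl
  have hL₀ : ∀ x y, h⟪L₀ x, L₀ y⟫ = h⟪x, y⟫ := fun x y => by
    rw [← hι, hιL, hιL]
    have := hform (e x) (e y)
    simp only [hB, e.symm_apply_apply] at this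
    rw [this, ← hz, cE.σ.map_mul]
    congr 1
    ring
  obtain ⟨u, hu, hun⟩ := exists_unit_norm_one c hF cE (δ := (LinearMap.det (L₀ : V →ₗ[F] V))⁻¹) (by
    rw [map_inv₀, ← mul_inv, det_mul_conj c L₀ hL₀, inv_one])
  have hu0 : u ≠ 0 := left_ne_zero_of_mul_eq_one hu
  let mu : E ≃ₗ[F] E := LinearEquiv.ofBijective (LinearMap.mulLeft F u) (mulLeft_bijective₀ u hu0)
  let L : (Fin 3 → F) ≃ₗ[F] (Fin 3 → F) := L₀.trans (ι.trans (mu.trans ι.symm))
  have hιL' : ∀ x, ι (L x) = u * z * e x := fun x => by simp [L, hιL, mul_assoc]; rfl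
  have hLd : LinearMap.det (L : V →ₗ[F] V) = 1 := by
    have h2 : LinearMap.det ((ι.trans (mu.trans ι.symm)) : V →ₗ[F] V) = Algebra.norm F u := by
      rw [← LinearMap.det_conj ((ι.trans (mu.trans ι.symm)) : V →ₗ[F] V) ι, Algebra.norm_apply]
      congr 1
      ext y
      simp
      rfl
    rw [show (L : V →ₗ[F] V) = ((ι.trans (mu.trans ι.symm)) : V →ₗ[F] V) ∘ₗ (L₀ : V →ₗ[F] V) from rfl,
      LinearMap.det_comp, h2, hun, inv_mul_cancel₀ (LinearEquiv.isUnit_det' L₀).ne_zero]
  have hL : ∀ x y, h⟪L x, L y⟫ = h⟪x, y⟫ := fun x y => by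
    rw [← hι, hιL', hιL', ← hL₀ x y, ← hι (L₀ x), hιL, hιL]
    simp only [cE.σ.map_mul]
    congr 1
    linear_combination (z * e x * (cE.σ z * cE.σ (e y))) * hu
  refine ⟨ofIso L hLd hL, 0, fun b x => ?_⟩
  set s := ofIso L hLd hL
  have hsinv : ∀ w, act 3 F q s⁻¹ w = L.symm w := fun w => by
    refine L.injective ?_
    rw [L.apply_symm_apply]
    calc L (act 3 F q s⁻¹ w) = act 3 F q s (act 3 F q s⁻¹ w) := by rw [act_ofIso]; rfl
      _ = w := by rw [← Module.End.mul_apply, ← map_mul, mul_inv_cancel, map_one, Module.End.one_apply]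
  have happ : ∀ w, act 3 F q (s * g * s⁻¹) w = ι.symm (α * ι w) := fun w => by
    rw [map_mul, map_mul, Module.End.mul_apply, Module.End.mul_apply, hsinv, act_ofIso]
    refine ι.injective ?_
    show ι (L (G (L.symm w))) = _
    rw [hιL', hgα, ι.apply_symm_apply]
    have := hιL' (L.symm w)
    rw [L.apply_symm_apply] at this
    linear_combination (-α) * this
  rw [happ, happ, pow_zero, pow_one, fieldMul_apply, fieldMul_apply, ι.apply_symm_apply, ι.apply_symm_apply]
  congr 1
  ring

/-- An element with an isotropic eigenvector only is conjugate into the field normaliser. -/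
lemma exists_conj_of_unipotent (c : Conj F q) (hF : Fintype.card F = q ^ 2) [CharP F 3]
    (ι : (Fin 3 → F) ≃ₗ[F] E) (hfrob : ∀ x, ι x ^ Fintype.card F = ι (shift3 x))
    (g : Cfsg.SU 3 F q) (hne : ∀ (v : Fin 3 → F) (t : F), act 3 F q g v = t • v → h⟪v, v⟫ = 0)
    {e : Fin 3 → F} (he : e ≠ 0) {l : F} (hge : act 3 F q g e = l • e) :
    ∃ s : Cfsg.SU 3 F q, s * g * s⁻¹ ∈ fieldNormaliser ι := by
  classical
  haveI := Fact.mk Nat.prime_three
  set G := act 3 F q g with hG
  have hg : ∀ u v, h⟪G u, G v⟫ = h⟪u, v⟫ := herm_act g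
  have hee := hne e l hge
  have hspan : Submodule.span F {e} = Submodule.span F (Set.range ![e]) := by
    rw [Matrix.range_cons, Matrix.range_empty, Set.union_empty]
  set W := perp c (Submodule.span F {e}) with hW
  have hmem : ∀ x, x ∈ W ↔ h⟪x, e⟫ = 0 := fun x => by
    rw [hW, hspan, mem_perp_span_range]
    simp
  have hdimW : Module.finrank F W = 2 := by
    have := finrank_perp c ((linearIndependent_unique_iff (v := ![e])).mpr he : LinearIndependent F ![e])
    rw [← hspan, ← hW] at this
    omega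
  obtain ⟨x, hxW, hxe⟩ : ∃ x ∈ W, x ∉ Submodule.span F {e} := by
    by_contra hc
    push Not at hc
    have := Submodule.finrank_mono (show W ≤ Submodule.span F {e} from hc)
    rw [hdimW, finrank_span_singleton he] at this
    omega
  have hxe' : h⟪x, e⟫ = 0 := (hmem x).mp hxW
  have hex : h⟪e, x⟫ = 0 := by rw [c.herm_symm, hxe', map_zero]
  have hli : LinearIndependent F ![e, x] := (LinearIndependent.pair_iff' he).mpr
    fun a ha => hxe (Submodule.mem_span_singleton.mpr ⟨a, ha⟩)
  have hxx : h⟪x, x⟫ ≠ 0 := fun h0 => by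
    have hd := finrank_perp c hli
    have hle : Submodule.span F (Set.range ![e, x]) ≤ perp c (Submodule.span F (Set.range ![e, x])) := by
      rw [Submodule.span_le]
      rintro _ ⟨i, rfl⟩
      refine (mem_perp_span_range c _ _).mpr fun j => ?_
      fin_cases i <;> fin_cases j <;> assumption
    have := Submodule.finrank_mono hle
    rw [finrank_span_eq_card hli, Fintype.card_fin] at this
    omega
  have hWspan : W = Submodule.span F (Set.range ![e, x]) := (Submodule.eq_of_le_of_finrank_eq
    (Submodule.span_le.mpr (by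
      rintro _ ⟨i, rfl⟩
      fin_cases i
      · exact (hmem e).mpr hee
      · exact hxW)) (by rw [finrank_span_eq_card hli, hdimW, Fintype.card_fin])).symm
  have hl0 : l ≠ 0 := fun h => by
    rw [h, zero_smul] at hge
    have hinj : Function.Injective G := Function.LeftInverse.injective (g := act 3 F q g⁻¹) fun y => by
      rw [hG, ← Module.End.mul_apply, ← map_mul, inv_mul_cancel, map_one, Module.End.one_apply]
    exact he (hinj (by rw [hge, map_zero]))
  have hσl : c.σ l ≠ 0 := fun h => hl0 (c.eq_zero h)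
  have hGW : ∀ y ∈ W, G y ∈ W := fun y hy => (hmem _).mpr (by
    have := hg y e
    rw [hge, c.smul_right, (hmem y).mp hy] at this
    exact (mul_eq_zero.mp this).resolve_left hσl)
  obtain ⟨s, hs⟩ := (Submodule.mem_span_range_iff_exists_fun F).mp (hWspan ▸ hGW x hxW :
    G x ∈ Submodule.span F (Set.range ![e, x]))
  rw [Fin.sum_univ_two] at hs
  simp only [Matrix.cons_val_zero, Matrix.cons_val_one] at hs
  set μ := s 1
  set t := s 0
  have hgx : G x = t • e + μ • x := hs.symm
  have hμμ : μ * c.σ μ = 1 := by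
    have := hg x x
    rw [hgx] at this
    simp only [c.add_left, c.add_right, c.smul_left, c.smul_right, hex, hxe', hee] at this
    refine mul_right_cancel₀ hxx ?_
    linear_combination this
  have hμl : μ = l := by
    by_contra hne'
    have h0 := hne (x + (t / (μ - l)) • e) μ (by
      rw [map_add, map_smul, hgx, hge]
      have : (t / (μ - l)) * μ = t + (t / (μ - l)) * l := by
        field_simp [sub_ne_zero.mpr hne']; ring
      linear_combination (norm := module) -(congrArg (· • e) this))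
    rw [c.add_left, c.add_right, c.add_right, c.smul_left, c.smul_right, c.smul_left, c.smul_right,
      hxe', hex, hee] at h0
    exact hxx (by linear_combination h0)
  have ht : t ≠ 0 := fun h => hxx (hne x μ (by rw [hgx, h, zero_smul, zero_add]))
  rw [hμl] at hgx hμμ
  -- `g - l` lowers the flag
  set N := G - algebraMap F (Module.End F (Fin 3 → F)) l with hN
  have hNapp : ∀ y, N y = G y - l • y := fun y => rfl
  have hNe : N e = 0 := by rw [hNapp, hge, sub_self]
  have hNx : N x = t • e := by rw [hNapp, hgx, add_sub_cancel_right]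
  have hNW : ∀ y ∈ W, ∃ r, N y = r • e := fun y hy => by
    obtain ⟨r, rfl⟩ := (Submodule.mem_span_range_iff_exists_fun F).mp (hWspan ▸ hy :
      y ∈ Submodule.span F (Set.range ![e, x]))
    exact ⟨r 1 * t, by simp [Fin.sum_univ_two, map_add, map_smul, hNe, hNx, smul_smul]⟩
  have hNV : ∀ y, N y ∈ W := fun y => (hmem _).mpr (by
    have h1 := hg y e
    rw [hge, c.smul_right] at h1
    rw [hNapp, c.sub_left, c.smul_left]
    refine (mul_eq_zero.mp (show c.σ l * (h⟪G y, e⟫ - l * h⟪y, e⟫) = 0 from ?_)).resolve_left hσl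
    linear_combination h1 - h⟪y, e⟫ * hμμ)
  have hN3 : N ^ 3 = 0 := LinearMap.ext fun y => by
    obtain ⟨r, hr⟩ := hNW _ (hNV y)
    simp [pow_succ, Module.End.mul_apply, hr, hNe]
  haveI : CharP (Module.End F (Fin 3 → F)) 3 := charP_of_injective_algebraMap
    (algebraMap F (Module.End F (Fin 3 → F))).injective 3
  rw [hN, sub_pow_char_of_commute (p := 3) (Algebra.commute_algebraMap_right l G), sub_eq_zero] at hN3
  have hdet : LinearMap.det G = 1 := by
    rw [← LinearMap.det_toMatrix']
    exact (congrArg Matrix.det (LinearMap.toMatrix'_toLin' _)).trans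
      (g : Matrix.SpecialLinearGroup (Fin 3) F).2
  have hl1 : l = 1 := by
    have h9 := congrArg LinearMap.det hN3
    rw [map_pow, hdet, one_pow, map_pow, Algebra.algebraMap_eq_smul_one, LinearMap.det_smul, map_one,
      mul_one, Module.finrank_fin_fun, ← pow_mul] at h9
    refine sub_eq_zero.mp (pow_eq_zero_iff (n := 3 ^ 2) (by norm_num) |>.mp ?_)
    rw [sub_pow_char_pow, one_pow]
    exact sub_eq_zero.mpr h9.symm
  rw [hl1, map_one, one_pow] at hN3
  obtain ⟨f, hf⟩ : ∃ f, G (G f - f) - (G f - f) ≠ 0 := by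
    by_contra hc
    push Not at hc
    obtain ⟨f, hfe⟩ : ∃ f, h⟪f, e⟫ ≠ 0 := by
      by_contra hc'
      push Not at hc'
      refine he (c.ext_right fun v => ?_)
      rw [c.zero_left, c.herm_symm, hc' v, map_zero]
    obtain ⟨r, hr⟩ := (Submodule.mem_span_range_iff_exists_fun F).mp (hWspan ▸ hNV f :
      N f ∈ Submodule.span F (Set.range ![e, x]))
    rw [Fin.sum_univ_two] at hr
    simp only [Matrix.cons_val_zero, Matrix.cons_val_one] at hr
    have hNf : N f = G f - f := by rw [hNapp, hl1, one_smul]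
    have h2 : N (N f) = 0 := by
      rw [hNapp, hl1, one_smul, hNf]; exact hc f
    rw [← hr, map_add, map_smul, map_smul, hNe, hNx, smul_zero, zero_add, smul_smul] at h2
    have hr1 : r 1 = 0 := (mul_eq_zero.mp ((smul_eq_zero.mp h2).resolve_right he)).resolve_right ht
    rw [hr1, zero_smul, add_zero, hNf] at hr
    have h3 := hg f x
    rw [show G f = f + r 0 • e by rw [hr]; abel, hgx, hl1, one_smul] at h3
    simp only [c.add_left, c.add_right, c.smul_left, c.smul_right, hex, hee] at h3
    have : c.σ t * h⟪f, e⟫ = 0 := by linear_combination h3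
    exact hfe ((mul_eq_zero.mp this).resolve_left fun h => ht (c.eq_zero h))
  have hB : IsHerm c.σ fun u v : Fin 3 → F => h⟪u, v⟫ :=
    ⟨c.add_left, c.smul_left, fun u v => c.herm_symm u v, fun u h => c.ext_right fun v => by
      rw [c.zero_left, c.herm_symm, h v, map_zero]⟩
  obtain ⟨L₀, hL₀, hgL⟩ := exists_shift_equiv c.invol c.exists_trace_one (fun d hd => c.exists_norm hd)
    hB (Module.finrank_fin_fun F) (g := G) hg hN3 hf
  have hL₀' : ∀ u v, h⟪L₀ u, L₀ v⟫ = h⟪u, v⟫ := fun u v => by rw [hL₀, c.herm_apply]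
  obtain ⟨k, hk⟩ := (PerfectRing.bijective_frobenius (R := F) (p := 3)).2
    (LinearMap.det (L₀ : V →ₗ[F] V))⁻¹
  replace hk : k ^ 3 = (LinearMap.det (L₀ : V →ₗ[F] V))⁻¹ := hk
  have hkk : k * c.σ k = 1 := by
    refine frobenius_inj F 3 ?_
    rw [frobenius_def, frobenius_def, mul_pow, ← map_pow, hk, one_pow, map_inv₀, ← mul_inv,
      det_mul_conj c L₀ hL₀', inv_one]
  have hk0 : k ≠ 0 := left_ne_zero_of_mul_eq_one hkk
  let mk : (Fin 3 → F) ≃ₗ[F] (Fin 3 → F) := LinearEquiv.smulOfUnit (Units.mk0 k hk0)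
  let L : (Fin 3 → F) ≃ₗ[F] (Fin 3 → F) := L₀.trans mk
  have hLapp : ∀ u, L u = k • L₀ u := fun u => rfl
  have hLd : LinearMap.det (L : V →ₗ[F] V) = 1 := by
    rw [show (L : V →ₗ[F] V) = k • (L₀ : V →ₗ[F] V) from LinearMap.ext hLapp, LinearMap.det_smul,
      Module.finrank_fin_fun, hk, inv_mul_cancel₀ (LinearEquiv.isUnit_det' L₀).ne_zero]
  have hL : ∀ u v, h⟪L u, L v⟫ = h⟪u, v⟫ := fun u v => by
    rw [hLapp, hLapp, c.smul_left, c.smul_right, hL₀', ← mul_assoc, hkk, one_mul]
  refine ⟨(ofIso L hLd hL)⁻¹, 1, fun b u => ?_⟩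
  set s₀ := ofIso L hLd hL
  have hconj : ∀ w, act 3 F q (s₀⁻¹ * g * s₀⁻¹⁻¹) w = shift3 w := fun w => by
    rw [inv_inv, map_mul, map_mul, Module.End.mul_apply, Module.End.mul_apply]
    refine L.injective ?_
    calc L (act 3 F q s₀⁻¹ (G (act 3 F q s₀ w)))
        = act 3 F q s₀ (act 3 F q s₀⁻¹ (G (act 3 F q s₀ w))) := by rw [act_ofIso]; rfl
      _ = G (L w) := by
        rw [← Module.End.mul_apply, ← map_mul, mul_inv_cancel, map_one, Module.End.one_apply, act_ofIso]; rfl
      _ = L (shift3 w) := by rw [hLapp, hLapp, map_smul, hgL]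
  rw [hconj, hconj, fieldMul_apply, fieldMul_apply]
  refine ι.injective ?_
  rw [ι.apply_symm_apply, ← hfrob, ← hfrob, ι.apply_symm_apply, mul_pow, pow_one]

/-- `PSU_3(q)` is covered by two classes when `q` is a power of three. -/
theorem hasCover_psu_three (hF : Fintype.card F = q ^ 2) {k : ℕ} (hk : 1 ≤ k) (hq : q = 3 ^ k) :
    HasCover (Cfsg.PSU 3 F q) := by
  classical
  have hN : Nat.card F = q ^ 2 := by rw [Nat.card_eq_fintype_card, hF]
  obtain ⟨c⟩ := exists_conj hN
  haveI := Fact.mk Nat.prime_three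
  haveI : CharP F 3 := by
    obtain ⟨p, hp⟩ := CharP.exists F
    haveI := hp
    obtain ⟨n, hpp, hn⟩ := FiniteField.card F p
    have h : p ∣ 3 ^ (k * 2) := by
      rw [pow_mul, ← hq, ← hF, hn]
      exact dvd_pow_self p n.pos.ne'
    exact ((Nat.prime_dvd_prime_iff_eq hpp Nat.prime_three).mp (hpp.dvd_of_dvd_pow h)) ▸ hp
  let E := FiniteField.Extension F 3 3
  have hEcard : Nat.card E = (q ^ 3) ^ 2 := by
    rw [FiniteField.natCard_extension F 3 3, hN]; ring
  have hdim : Module.finrank F E = 3 := by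
    have h1 := FiniteField.natCard_extension F 3 3
    rw [Module.natCard_eq_pow_finrank (K := F)] at h1
    exact Nat.pow_right_injective Finite.one_lt_card h1
  obtain ⟨cE⟩ := exists_conj hEcard
  obtain ⟨ι, hι, hfrob⟩ := exists_iota c hF cE hdim
  obtain ⟨l, hl, hl1, -⟩ := exists_norm_one_ne hN c
  let e : Fin 3 → Fin 3 → F := fun i => Pi.single i 1
  have hee : ∀ i j, h⟪e i, e j⟫ = if j = i then 1 else 0 := fun i j => by
    simp only [e]
    rw [c.single_right, Pi.single_apply]
  have hH : subStab (act 3 F q) (Submodule.span F {e 0}) ≠ ⊤ := fun h => by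
    obtain ⟨s, hs⟩ := exists_map_aniso c (v := e 0) (u := e 1) (by simp [hee]) (by simp [hee])
    have h0 : (Submodule.span F {e 0}).map (act 3 F q s) = Submodule.span F {e 0} :=
      (h ▸ Subgroup.mem_top s : s ∈ subStab (act 3 F q) (Submodule.span F {e 0}))
    rw [hs] at h0
    obtain ⟨a, ha⟩ := Submodule.mem_span_singleton.mp (h0 ▸ Submodule.mem_span_singleton_self (e 1))
    simpa [e] using congrFun ha 1
  have hK : fieldNormaliser (q := q) ι ≠ ⊤ := fun h => by
    have hl0 : l ≠ 0 := left_ne_zero_of_mul_eq_one hl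
    obtain ⟨d₀, hd₀, hi₀, he₀, hf₀⟩ := exists_dilation c (d := e 0) (by simp [hee]) hl
    obtain ⟨d₁, hd₁, hi₁, -, hf₁⟩ := exists_dilation c (d := e 1) (by simp [hee]) (k := l⁻¹) (by
      rw [map_inv₀, ← mul_inv, hl, inv_one])
    let d := d₁.trans d₀
    let s := ofIso (q := q) d (by
      rw [LinearEquiv.coe_trans, LinearMap.det_comp, hd₀, hd₁, mul_inv_cancel₀ hl0])
      (fun x y => by simp [d, hi₀, hi₁])
    obtain ⟨i, hi⟩ := (h ▸ Subgroup.mem_top s : s ∈ fieldNormaliser ι)
    have hs : ∀ x, act 3 F q s x = d₀ (d₁ x) := fun x => by rw [act_ofIso]; rfl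
    have hs2 : act 3 F q s (e 2) = e 2 := by
      rw [hs, hf₁ _ (by simp [hee]), hf₀ _ (by simp [hee])]
    have hs0 : act 3 F q s (e 0) = l • e 0 := by rw [hs, hf₁ _ (by simp [hee]), he₀]
    have hι2 : ι (e 2) ≠ 0 := by simp [e]
    set a := ι (e 0) / ι (e 2)
    have he02 : e 0 = fieldMul ι a (e 2) := by
      rw [fieldMul_apply, div_mul_cancel₀ _ hι2, LinearEquiv.symm_apply_apply]
    haveI : Fintype E := Fintype.ofFinite E
    have ha : ((a ^ Fintype.card F ^ i) ^ Fintype.card F ^ i) ^ Fintype.card F ^ i = a := by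
      rw [← pow_mul, ← pow_mul, ← pow_add, ← pow_add,
        show i + (i + i) = 3 * i by ring, pow_mul, show Fintype.card F ^ 3 = Fintype.card E by
          rw [← Nat.card_eq_fintype_card (α := E), hEcard, hF]; ring, FiniteField.pow_card_pow]
    have h3 : act 3 F q s (act 3 F q s (act 3 F q s (e 0))) = e 0 := by
      rw [he02, hi, hs2, hi, hs2, hi, hs2, ha]
    rw [hs0, map_smul, hs0, smul_smul, map_smul, hs0, smul_smul] at h3
    have hl3 : l ^ 3 = 1 := by
      have := congrFun h3 0
      simp [e] at this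
      linear_combination this
    refine hl1 (sub_eq_zero.mp (pow_eq_zero_iff (n := 3) (by norm_num) |>.mp ?_))
    rw [sub_pow_char, one_pow, hl3, sub_self]
  refine hasCover_quotient _ hH hK (center_le_subStab hN (by norm_num) _) (fun z hz => ?_) fun g => ?_
  · obtain ⟨r, hr⟩ := exists_scalar_of_center hN (by norm_num) hz
    exact ⟨0, fun a x => by
      rw [hr, hr, pow_zero, pow_one, fieldMul_apply, fieldMul_apply, map_smul, mul_smul_comm, map_smul]⟩
  by_cases hev : ∃ (v : Fin 3 → F) (t : F), h⟪v, v⟫ ≠ 0 ∧ act 3 F q g v = t • v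
  · obtain ⟨v, t, hv, hgv⟩ := hev
    obtain ⟨s, hs⟩ := exists_map_aniso c (u := e 0) hv (by simp [hee])
    refine ⟨s, Or.inl (conj_mem_subStab _ (fun x hx => ?_) hs)⟩
    obtain ⟨r, rfl⟩ := Submodule.mem_span_singleton.mp hx
    rw [map_smul, hgv]
    exact Submodule.smul_mem _ _ (Submodule.smul_mem _ _ (Submodule.mem_span_singleton_self v))
  push Not at hev
  have hne : ∀ (v : Fin 3 → F) (t : F), act 3 F q g v = t • v → h⟪v, v⟫ = 0 := fun v t h => by
    by_contra hv
    exact hev v t hv h
  by_cases hei : ∃ (v : Fin 3 → F) (t : F), v ≠ 0 ∧ act 3 F q g v = t • v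
  · obtain ⟨v, t, hv, hgv⟩ := hei
    obtain ⟨s, hs⟩ := exists_conj_of_unipotent c hF ι hfrob g hne hv hgv
    exact ⟨s, Or.inr hs⟩
  · push Not at hei
    obtain ⟨s, hs⟩ := exists_conj_of_irreducible c hF ⟨k, hq⟩ cE hdim ι hι g fun v t h => by
      by_contra hv
      exact hei v t hv h
    exact ⟨s, Or.inr hs⟩

end CfsgLib.NormalCover.Unitary
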